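import Cfsg.Agent.H68.ChevRootDesc

/-!
# The number of unipotent elements of a Chevalley group

Induction over the parabolic subgroups: the alternating sum of the numbers of fixed cosets of the
parabolic subgroups of `P_J`, at an element of `U`, vanishes outside the unipotent radical of `P_J`.
-/

set_option autoImplicit false

namespace Cfsg.Agent.H68.ChevUnip

open Cfsg Cfsg.Lie Cfsg.Agent.H46 Cfsg.Agent.H68.BNW
open Cfsg.Agent.H8

variable {D : ChevalleyDatum} (G : Good D) (F : Type*) [Field F]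

/-- The standard parabolic subgroup of a set of fundamental roots. -/
noncomputable def pJ (J : Finset (Fin D.rank)) : Subgroup ↥(D.group F) :=
  par (G.bnPair (F := F)) (e G F '' ↑J)

/-- The unipotent radical. -/
def radU (J : Finset (Fin D.rank)) : Subgroup (GL D.Idx F) := G.posSub (phi G J)ᶜ

variable {G F}

theorem B_le_pJ (J : Finset (Fin D.rank)) : (G.bnPair (F := F)).B ≤ pJ G F J := B_le_par _

theorem pJ_mono {K J : Finset (Fin D.rank)} (h : K ⊆ J) : pJ G F K ≤ pJ G F J :=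
  sup_le_sup_left (Subgroup.closure_mono (Set.image_mono (Set.image_mono (Finset.coe_subset.2 h)))) _

theorem rep_mem_pJ_iff {J : Finset (Fin D.rank)} {w : Wq (G.bnPair (F := F))} :
    rep w ∈ pJ G F J ↔ InW G J w := by
  constructor
  · intro h
    obtain ⟨l, hl, hc⟩ := exists_word_of_mem_par h
    have h1 := BN.cong_of_mem_cell (rep_mem w) (gword_mem l) (BN.self_mem_cell _) hc
    obtain ⟨L, rfl⟩ := List.map_surjective_iff.2 (e_bijective G F).2 l
    refine ⟨L, fun i hi => ?_, ?_⟩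
    · obtain ⟨j, hj, hje⟩ := hl _ (List.mem_map.2 ⟨i, hi, rfl⟩)
      rwa [← (e_bijective G F).1 hje]
    · rw [← cls_rep w, ev_eq_cls, eq_comm, cls_eq_iff]
      exact h1
  · rintro ⟨L, hL, rfl⟩
    have h1 : cls (rep (ev (L.map (e G F)))) (rep_mem _) = cls (gword (L.map (e G F))) (gword_mem _) := by
      rw [cls_rep, ev_eq_cls]
    have h2 : gword (L.map (e G F)) ∈ pJ G F J := gword_mem_par fun x hx => by
      obtain ⟨i, hi, rfl⟩ := List.mem_map.1 hx
      exact ⟨i, hL i hi, rfl⟩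
    have h3 := B_le_pJ J ((cls_eq_iff _ _).1 h1.symm)
    simpa using mul_mem h2 h3

theorem noDesc_iff {K : Finset (Fin D.rank)} {w : Wq (G.bnPair (F := F))} :
    NoDesc (∅ : Set (G.bnPair (F := F)).S) (e G F '' ↑K) w ↔
      ∀ i ∈ K, D.IsPosRoot (prm G w (G.simpleF i)) := by
  simp [NoDesc, not_isRDesc_iff]

theorem xg_mem_normalizer_radU (J : Finset (Fin D.rank)) {r : ℕ} (hr : D.IsPosRoot r) (t : F) :
    G.xg r t ∈ Subgroup.normalizer (radU G F J : Set (GL D.Idx F)) := by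
  refine G.xg_mem_normalizer_posSub (T := (phi G J)ᶜ) hr (fun s hs hsT _ c hc hcJ => ?_) t
  obtain ⟨h1, h2, h3, h4⟩ := G.commTerms_spec hr.1 hs.1 hc
  refine hsT ⟨hs, fun k hk => ?_⟩
  have h5 := congrFun h4 k
  rw [hcJ.2 k hk] at h5
  simp only [Pi.add_apply, Pi.smul_apply, smul_eq_mul] at h5
  have a := G.rc_nonneg hr k
  have b := G.rc_nonneg hs k
  have c1 : 0 ≤ (c.2.2.1 : ℤ) * G.rc r k := mul_nonneg (Int.natCast_nonneg _) a
  have c2 : G.rc s k ≤ (c.2.2.2 : ℤ) * G.rc s k := le_mul_of_one_le_left b (by omega)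
  omega

theorem pos_le_normalizer_radU (J : Finset (Fin D.rank)) :
    D.posUnipotent F ≤ Subgroup.normalizer (radU G F J : Set (GL D.Idx F)) :=
  (Subgroup.closure_le _).2 fun g ⟨r, t, hr, hg⟩ => by
    rw [G.eq_xg hg]; exact xg_mem_normalizer_radU J hr t

theorem diag_le_normalizer_radU (J : Finset (Fin D.rank)) :
    D.diagonalSubgroup F ≤ Subgroup.normalizer (radU G F J : Set (GL D.Idx F)) := by
  intro g hg
  obtain ⟨z, rfl⟩ := G.mem_diagonal.1 hg
  have key : ∀ z : Fin D.rank → Fˣ, ∀ g ∈ {g : GL D.Idx F | ∃ (r : ℕ) (t : F),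
      (D.IsPosRoot r ∧ r ∈ (phi G J)ᶜ) ∧ g = G.xg r t},
      G.torus z * g * (G.torus z)⁻¹ ∈ radU G F J := by
    rintro z g ⟨r, t, hr, rfl⟩
    rw [G.torus_conj_xg z hr.1.1]
    exact G.xg_mem_posSub hr.1 hr.2 _
  refine mem_normalizer_closure (key z) fun g hg => ?_
  have := key z⁻¹ g hg
  rwa [map_inv, inv_inv] at this

theorem ng_mem_normalizer_radU {J : Finset (Fin D.rank)} {i : Fin D.rank} (hi : i ∈ J) :
    G.ng (D.simple i) (1 : F) ∈ Subgroup.normalizer (radU G F J : Set (GL D.Idx F)) := by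
  have hN : G.ng (D.simple i) (1 : F) ∈ D.monomialSubgroup F := G.ng_mem_monomial (G.simple_lt i.2)
  have hwi : InW (F := F) G J (gen (e G F i)) := InW.gen_mem hi
  have key : ∀ g ∈ D.monomialSubgroup F, G.perm g = G.sPerm i →
      ∀ x ∈ {x : GL D.Idx F | ∃ (r : ℕ) (t : F), (D.IsPosRoot r ∧ r ∈ (phi G J)ᶜ) ∧ x = G.xg r t},
        g * x * g⁻¹ ∈ radU G F J := by
    rintro g hg hp x ⟨r, t, ⟨hr, hrJ⟩, rfl⟩
    obtain ⟨c, hc⟩ := G.conj_xg_eq hg ⟨r, hr.1⟩
    rw [hc t, hp]
    have h := hwi.out_pos (s := ⟨r, hr.1⟩) hr hrJ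
    rw [prm_gen] at h
    exact G.xg_mem_posSub h.1 h.2 _
  refine mem_normalizer_closure (key _ hN (G.perm_ng_simple i)) fun g hg => ?_
  have := key _ (inv_mem hN) (by
    rw [G.perm_inv hN, G.perm_ng_simple, inv_eq_of_mul_eq_one_left (G.sPerm_mul_self i)]) g hg
  rwa [inv_inv] at this

theorem pJ_le_normalizer_radU (J : Finset (Fin D.rank)) :
    pJ G F J ≤ (Subgroup.normalizer (radU G F J : Set (GL D.Idx F))).comap (D.group F).subtype := by
  refine sup_le (fun b hb => ?_) ((Subgroup.closure_le _).2 ?_)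
  · obtain ⟨u, hu, h, hh, he⟩ := G.mem_borel.1 (show (b : GL D.Idx F) ∈ D.borelSubgroup F from hb)
    rw [Subgroup.mem_comap, Subgroup.coe_subtype, he]
    exact mul_mem (pos_le_normalizer_radU J hu) (diag_le_normalizer_radU J hh)
  · rintro _ ⟨_, ⟨i, hi, rfl⟩, rfl⟩
    exact ng_mem_normalizer_radU hi

/-- The cosets in a cell, in normal form. -/
theorem cellFix_eq (w : Wq (G.bnPair (F := F))) (u : ↥(D.group F)) :
    cellFix u w = Nat.card {v : ↥(G.posSub (F := F) (G.invSet ((rep w : ↥(D.group F)) : GL D.Idx F)⁻¹)) //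
      ((rep w : ↥(D.group F)) : GL D.Idx F)⁻¹ * ((v : GL D.Idx F)⁻¹ * (u : GL D.Idx F) * (v : GL D.Idx F)) *
        ((rep w : ↥(D.group F)) : GL D.Idx F) ∈ D.borelSubgroup F} := by
  classical
  set n : ↥(D.group F) := rep w with hn
  have hnN : (n : GL D.Idx F) ∈ D.monomialSubgroup F := mem_monomial G (rep_mem w)
  set S := G.invSet (n : GL D.Idx F)⁻¹ with hS
  have hmem : ∀ v : ↥(G.posSub (F := F) S), (v : GL D.Idx F) ∈ D.group F := fun v =>
    G.posUnipotent_le_group (G.posSub_le_posUnipotent _ v.2)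
  let f : ↥(G.posSub (F := F) S) → ↥(D.group F) ⧸ (G.bnPair (F := F)).B :=
    fun v => QuotientGroup.mk (⟨v, hmem v⟩ * n)
  have hf : Function.Injective f := by
    intro v v' h
    have h1 : ((⟨v, hmem v⟩ * n)⁻¹ * (⟨v', hmem v'⟩ * n) : ↥(D.group F)) ∈ (G.bnPair (F := F)).B :=
      QuotientGroup.eq.1 h
    have h2 : (n : GL D.Idx F)⁻¹ * ((v : GL D.Idx F)⁻¹ * (v' : GL D.Idx F)) * (n : GL D.Idx F) ∈
        D.borelSubgroup F := by
      simpa [mul_assoc] using (show _ ∈ D.borelSubgroup F from h1)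
    have h3 := G.conj_posSub_invSet (inv_mem hnN) (mul_mem (inv_mem v.2) v'.2)
    rw [inv_inv] at h3
    have h4 := (Subgroup.eq_bot_iff_forall _).1 (G.borel_inf_neg (F := F)) _ ⟨h2, h3⟩
    have h5 : (v : GL D.Idx F)⁻¹ * (v' : GL D.Idx F) = 1 := by
      rw [← conj_eq_one_iff (a := (n : GL D.Idx F)⁻¹), inv_inv]; exact h4
    exact Subtype.ext (inv_mul_eq_one.1 h5)
  have himg : ∀ c, c ∈ QuotientGroup.mk '' BN.cell (G.bnPair (F := F)) n ↔ ∃ v, f v = c := by
    intro c
    constructor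
    · rintro ⟨x, hx, rfl⟩
      obtain ⟨b, hb, b', hb', rfl⟩ := BN.mem_cell.1 hx
      have hx' : ((b * n * b' : ↥(D.group F)) : GL D.Idx F)⁻¹ ∈ G.bruhatCell (n : GL D.Idx F)⁻¹ :=
        G.mem_bruhatCell.2 ⟨_, inv_mem (show (b' : GL D.Idx F) ∈ _ from hb'),
          _, inv_mem (show (b : GL D.Idx F) ∈ _ from hb), by simp [mul_assoc]⟩
      obtain ⟨b₁, hb₁, v₁, hv₁, he⟩ := G.bruhatCell_normal_form (inv_mem hnN) hx'
      refine ⟨⟨v₁⁻¹, inv_mem hv₁⟩, ?_⟩
      rw [QuotientGroup.eq]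
      show _ ∈ D.borelSubgroup F
      simp only [Subgroup.coe_subtype, Subgroup.coe_mul, Subgroup.coe_inv]
      rw [inv_eq_iff_eq_inv] at he
      push_cast at he
      rw [he]
      simpa [mul_assoc] using inv_mem hb₁
    · rintro ⟨v, rfl⟩
      refine ⟨_, BN.mul_mem_cell_left (BN.self_mem_cell n) ?_, rfl⟩
      show (v : GL D.Idx F) ∈ D.borelSubgroup F
      exact Subgroup.mem_sup_left (G.posSub_le_posUnipotent _ v.2)
  rw [cellFix]
  symm
  refine Nat.card_congr (Equiv.ofBijective (fun v => ⟨f v.1, (himg _).2 ⟨_, rfl⟩, ?_⟩) ⟨?_, ?_⟩)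
  · have hv := v.2
    show (QuotientGroup.mk (u * (⟨v.1, hmem v.1⟩ * n)) : ↥(D.group F) ⧸ (G.bnPair (F := F)).B) = _
    rw [eq_comm, QuotientGroup.eq]
    show _ ∈ D.borelSubgroup F
    push_cast
    simpa [mul_assoc] using hv
  · intro a b h
    exact Subtype.ext (hf (congrArg Subtype.val h))
  · rintro ⟨c, hc, hfix⟩
    obtain ⟨v, rfl⟩ := (himg c).1 hc
    refine ⟨⟨v, ?_⟩, rfl⟩
    have h1 : ((⟨v, hmem v⟩ * n)⁻¹ * (u * (⟨v, hmem v⟩ * n)) : ↥(D.group F)) ∈
        (G.bnPair (F := F)).B := QuotientGroup.eq.1 hfix.symm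
    simpa [mul_assoc] using (show _ ∈ D.borelSubgroup F from h1)

theorem invSet_eq (w : Wq (G.bnPair (F := F))) :
    G.invSet ((rep w : ↥(D.group F)) : GL D.Idx F)⁻¹ =
      {r | ∃ h : r < D.nroots, (⟨r, h⟩ : Fin D.nroots) ∈ invF w⁻¹} := by
  ext r
  simp only [Good.invSet, Set.mem_setOf_eq, mem_invF, prm_inv]
  simp only [prm, G.perm_inv (mem_monomial G (rep_mem w))]

theorem IsLongest.inv {J : Finset (Fin D.rank)} {w : Wq (G.bnPair (F := F))}
    (hw : IsLongest G J w) : IsLongest G J w⁻¹ := by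
  refine ⟨hw.1.inv, fun i hi => ?_⟩
  set t := prm G w⁻¹ (G.simpleF i) with ht
  refine (G.isPosRoot_or_isNegRoot t.2).resolve_left fun hp => ?_
  have h1 : (t : ℕ) ∈ phi G J := ⟨hp, fun k hk => by
    rw [ht, hw.1.inv.rc_outside _ hk]; exact (simple_mem_phi hi).2 k hk⟩
  have h2 := neg_of_phi hw.2 h1
  rw [ht, ← Equiv.Perm.mul_apply, ← prm_mul, mul_inv_cancel, prm_one] at h2
  exact G.not_isNegRoot (G.isPosRoot_simple i.2) h2

variable (G) in
/-- The number of positive roots supported on `J`. -/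
noncomputable def nPhi (J : Finset (Fin D.rank)) : ℕ :=
  open scoped Classical in
  ((Finset.range D.nroots).filter fun r => D.IsPosRoot r ∧ r ∈ phi G J).card

theorem posClosed_phi (J : Finset (Fin D.rank)) : G.PosClosed (phi G J) := by
  intro r s hr hs hr' hs' _ c hc
  obtain ⟨h1, h2, h3, h4⟩ := G.commTerms_spec hr.1 hs.1 hc
  refine ⟨(G.commTerms_pos hr hs hc).1, fun k hk => ?_⟩
  rw [h4]
  simp [hr'.2 k hk, hs'.2 k hk]

theorem posClosed_phi_compl (J : Finset (Fin D.rank)) : G.PosClosed (phi G J)ᶜ := by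
  intro r s hr hs hr' hs' _ c hc hcJ
  obtain ⟨h1, h2, h3, h4⟩ := G.commTerms_spec hr.1 hs.1 hc
  refine hs' ⟨hs, fun k hk => ?_⟩
  have h5 := congrFun h4 k
  rw [hcJ.2 k hk] at h5
  simp only [Pi.add_apply, Pi.smul_apply, smul_eq_mul] at h5
  have a := G.rc_nonneg hr k
  have b := G.rc_nonneg hs k
  have c1 : 0 ≤ (c.2.2.1 : ℤ) * G.rc r k := mul_nonneg (Int.natCast_nonneg _) a
  have c2 : G.rc s k ≤ (c.2.2.2 : ℤ) * G.rc s k := le_mul_of_one_le_left b (by omega)
  omega

theorem card_invSet (w : Wq (G.bnPair (F := F))) :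
    Nat.card ↥(G.posSub (F := F) (G.invSet ((rep w : ↥(D.group F)) : GL D.Idx F)⁻¹)) =
      Nat.card F ^ (invF w).card := by
  classical
  rw [G.card_posSub (G.posClosed_invSet (inv_mem (mem_monomial G (rep_mem w)))), ← card_invF_inv w]
  congr 1
  rw [← Finset.card_map Fin.valEmbedding (s := invF w⁻¹)]
  congr 1
  ext r
  rw [Finset.mem_filter, Finset.mem_range, invSet_eq, Finset.mem_map]
  constructor
  · rintro ⟨-, -, h, hr⟩; exact ⟨⟨r, h⟩, hr, rfl⟩
  · rintro ⟨s, hs, rfl⟩; exact ⟨s.2, (mem_invF.1 hs).1, s.2, hs⟩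

theorem cellFix_one (w : Wq (G.bnPair (F := F))) :
    cellFix (1 : ↥(D.group F)) w = Nat.card F ^ (invF w).card := by
  rw [cellFix_eq, ← card_invSet w]
  exact Nat.card_congr (Equiv.subtypeUnivEquiv fun v => by simp)

theorem IsLongest.card_invF {J : Finset (Fin D.rank)} {w : Wq (G.bnPair (F := F))}
    (hw : IsLongest G J w) : (invF w).card = nPhi G J := by
  classical
  rw [nPhi, ← Finset.card_map Fin.valEmbedding (s := invF w)]
  congr 1
  ext r
  rw [Finset.mem_filter, Finset.mem_range, Finset.mem_map]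
  constructor
  · rintro ⟨s, hs, rfl⟩; exact ⟨s.2, (mem_invF.1 hs).1, hw.invSet_iff.1 (mem_invF.1 hs)⟩
  · rintro ⟨h, -, hr⟩; exact ⟨⟨r, h⟩, mem_invF.2 (hw.invSet_iff.2 hr), rfl⟩

/-- In the cell of a longest element only the elements of the radical fix cosets. -/
theorem cellFix_longest {J : Finset (Fin D.rank)} {w : Wq (G.bnPair (F := F))}
    (hw : IsLongest G J w) {u : ↥(D.group F)} (hu : (u : GL D.Idx F) ∈ D.posUnipotent F)
    [Decidable ((u : GL D.Idx F) ∈ radU G F J)] :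
    cellFix u w = if (u : GL D.Idx F) ∈ radU G F J then Nat.card F ^ nPhi G J else 0 := by
  classical
  set n : GL D.Idx F := ((rep w : ↥(D.group F)) : GL D.Idx F) with hn
  have hnN : n ∈ D.monomialSubgroup F := mem_monomial G (rep_mem w)
  have hS : ∀ r, D.IsPosRoot r → (r ∈ G.invSet n⁻¹ ↔ r ∈ phi G J) := by
    intro r hr
    rw [invSet_eq]
    exact ⟨fun ⟨h, hm⟩ => hw.inv.invSet_iff.1 (mem_invF.1 hm),
      fun h => ⟨hr.1, mem_invF.2 ((IsLongest.invSet_iff hw.inv (s := ⟨r, hr.1⟩)).2 h)⟩⟩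
  have key : ∀ v : ↥(G.posSub (F := F) (G.invSet n⁻¹)),
      (n⁻¹ * ((v : GL D.Idx F)⁻¹ * (u : GL D.Idx F) * v) * n ∈ D.borelSubgroup F ↔
        (u : GL D.Idx F) ∈ radU G F J) := by
    intro v
    have hvU := G.posSub_le_posUnipotent _ v.2
    have hy : (v : GL D.Idx F)⁻¹ * (u : GL D.Idx F) * v ∈ D.posUnipotent F :=
      mul_mem (mul_mem (inv_mem hvU) hu) hvU
    have hconj : (v : GL D.Idx F)⁻¹ * (u : GL D.Idx F) * v ∈ radU G F J ↔
        (u : GL D.Idx F) ∈ radU G F J :=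
      (Subgroup.mem_normalizer_iff''.1 (pos_le_normalizer_radU J hvU) _).symm
    rw [← hconj]
    set y := (v : GL D.Idx F)⁻¹ * (u : GL D.Idx F) * v
    constructor
    · intro hb
      obtain ⟨a, ha, c, hc, he⟩ := G.factor (G.invSet n⁻¹) hy
      have hcB : n⁻¹ * c * n ∈ D.borelSubgroup F := by
        have := G.conj_posSub_compl (inv_mem hnN) hc
        rw [inv_inv] at this
        exact Subgroup.mem_sup_left this
      have haB : n⁻¹ * a * n ∈ D.borelSubgroup F := by
        rw [show n⁻¹ * a * n = (n⁻¹ * y * n) * (n⁻¹ * c * n)⁻¹ by rw [he]; group]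
        exact mul_mem hb (inv_mem hcB)
      have ha' := G.conj_posSub_invSet (inv_mem hnN) ha
      rw [inv_inv] at ha'
      have h1 := (Subgroup.eq_bot_iff_forall _).1 (G.borel_inf_neg (F := F)) _ ⟨haB, ha'⟩
      have h2 : a = 1 := by rw [← conj_eq_one_iff (a := n⁻¹), inv_inv]; exact h1
      rw [he, h2, one_mul]
      exact G.posSub_mono (S := (G.invSet n⁻¹)ᶜ) (T := (phi G J)ᶜ)
        (fun r hr h hJ => h ((hS r hr).2 hJ)) hc
    · intro h
      have h1 := G.conj_posSub_compl (inv_mem hnN)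
        (G.posSub_mono (S := (phi G J)ᶜ) (T := (G.invSet n⁻¹)ᶜ)
          (fun r hr h hI => h ((hS r hr).1 hI)) h)
      rw [inv_inv] at h1
      exact Subgroup.mem_sup_left h1
  rw [cellFix_eq]
  by_cases h : (u : GL D.Idx F) ∈ radU G F J
  · rw [if_pos h, ← hw.card_invF, ← card_invSet w]
    exact Nat.card_congr (Equiv.subtypeUnivEquiv fun v => (key v).2 h)
  · rw [if_neg h]
    have : IsEmpty {v : ↥(G.posSub (F := F) (G.invSet n⁻¹)) //
        n⁻¹ * ((v : GL D.Idx F)⁻¹ * (u : GL D.Idx F) * v) * n ∈ D.borelSubgroup F} :=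
      ⟨fun v => h ((key v.1).1 v.2)⟩
    exact Nat.card_of_isEmpty

theorem card_radU_mul (J : Finset (Fin D.rank)) :
    Nat.card ↥(radU G F J) * Nat.card F ^ nPhi G J = Nat.card F ^ (D.nroots / 2) := by
  classical
  rw [radU, G.card_posSub (posClosed_phi_compl J), ← pow_add, nPhi, ← G.card_posRoots]
  congr 1
  rw [← Finset.card_union_of_disjoint (Finset.disjoint_filter.2 fun r _ h h' => h.2 h'.2)]
  congr 1
  ext r
  simp only [Finset.mem_union, Finset.mem_filter, Set.mem_univ, Set.mem_compl_iff]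
  tauto

theorem pJ_univ [Finite ↥(D.group F)] : pJ G F Finset.univ = ⊤ := by
  rw [eq_top_iff]
  intro g _
  obtain ⟨n, hn, hx⟩ := exists_cell (P := G.bnPair (F := F)) g
  obtain ⟨b, hb, b', hb', rfl⟩ := BN.mem_cell.1 hx
  obtain ⟨l, hl⟩ := ev_surjective (cls n hn)
  obtain ⟨L, rfl⟩ := List.map_surjective_iff.2 (e_bijective G F).2 l
  rw [ev_eq_cls] at hl
  have h2 : gword (L.map (e G F)) ∈ pJ G F Finset.univ := gword_mem_par fun x hx => by
    obtain ⟨i, hi, rfl⟩ := List.mem_map.1 hx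
    exact ⟨i, by simp, rfl⟩
  have h3 := B_le_pJ Finset.univ ((cls_eq_iff _ _).1 hl)
  have h4 : n ∈ pJ G F Finset.univ := by simpa using mul_mem h2 h3
  exact mul_mem (mul_mem (B_le_pJ _ hb) h4) (B_le_pJ _ hb')

theorem nPhi_univ : nPhi G (Finset.univ : Finset (Fin D.rank)) = D.nroots / 2 := by
  classical
  rw [nPhi, ← G.card_posRoots]
  congr 1
  exact Finset.filter_congr fun r _ =>
    ⟨fun h => ⟨h.1, trivial⟩, fun h => ⟨h.1, h.1, by simp⟩⟩

section Count

variable [Fintype F]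

variable (G F) in
/-- The cosets of `P_K` inside `P_J` fixed by `g`. -/
noncomputable def fixJK (J K : Finset (Fin D.rank)) (g : ↥(D.group F)) : ℕ :=
  Nat.card {c : ↥(D.group F) ⧸ pJ G F K //
    (∃ x, x ∈ pJ G F J ∧ QuotientGroup.mk x = c) ∧ g • c = c}

variable (G F) in
/-- The alternating sum over the parabolic subgroups of `P_J`. -/
noncomputable def stJ (J : Finset (Fin D.rank)) (g : ↥(D.group F)) : ℤ :=
  ∑ K ∈ J.powerset, (-1) ^ K.card * (fixJK G F J K g : ℤ)

theorem fixJK_B [Fintype (Wq (G.bnPair (F := F)))] {J K : Finset (Fin D.rank)} (hKJ : K ⊆ J)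
    {b : ↥(D.group F)} (hb : b ∈ (G.bnPair (F := F)).B)
    [DecidablePred fun w : Wq (G.bnPair (F := F)) =>
      InW G J w ∧ ∀ i ∈ K, D.IsPosRoot (prm G w (G.simpleF i))] :
    fixJK G F J K b = ∑ w ∈ Finset.univ.filter (fun w : Wq (G.bnPair (F := F)) =>
      InW G J w ∧ ∀ i ∈ K, D.IsPosRoot (prm G w (G.simpleF i))), cellFix b w := by
  classical
  rw [fixJK]
  refine (fixed_card_eq_sum_of (P := G.bnPair (F := F)) (e G F '' ↑K) hb
    (fun x => x ∈ pJ G F J) ?_).trans (Finset.sum_congr ?_ fun _ _ => rfl)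
  · intro c hc p hp x
    have hpJ : p ∈ pJ G F J := pJ_mono hKJ hp
    rw [Subgroup.mul_mem_cancel_right _ hpJ, Subgroup.mul_mem_cancel_left _ (B_le_pJ J hc)]
  · ext w
    simp only [Finset.mem_filter, noDesc_iff, rep_mem_pJ_iff]
    tauto

theorem fixJK_conj (J K : Finset (Fin D.rank)) {x : ↥(D.group F)} (hx : x ∈ pJ G F J)
    (g : ↥(D.group F)) : fixJK G F J K (x * g * x⁻¹) = fixJK G F J K g := by
  symm
  refine Nat.card_congr (Equiv.subtypeEquiv (MulAction.toPerm x) fun c => ?_)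
  simp only [MulAction.toPerm_apply]
  refine and_congr ⟨fun ⟨y, hy, hyc⟩ => ⟨x * y, mul_mem hx hy, by rw [← hyc]; rfl⟩,
    fun ⟨y, hy, hyc⟩ => ⟨x⁻¹ * y, mul_mem (inv_mem hx) hy, ?_⟩⟩ ⟨fun h => ?_, fun h => ?_⟩
  · rw [show (QuotientGroup.mk (x⁻¹ * y) : ↥(D.group F) ⧸ pJ G F K) = x⁻¹ • QuotientGroup.mk y
      from rfl, hyc, inv_smul_smul]
  · rw [← mul_smul, inv_mul_cancel_right, mul_smul, h]
  · rwa [← mul_smul, inv_mul_cancel_right, mul_smul, smul_left_cancel_iff] at h

/-- The alternating sum on `U`. -/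
theorem stJ_pos {J : Finset (Fin D.rank)} {u : ↥(D.group F)}
    (hu : (u : GL D.Idx F) ∈ D.posUnipotent F) [Decidable ((u : GL D.Idx F) ∈ radU G F J)] :
    stJ G F J u = if (u : GL D.Idx F) ∈ radU G F J then (Nat.card F : ℤ) ^ nPhi G J else 0 := by
  classical
  have : Fintype (Wq (G.bnPair (F := F))) := Fintype.ofFinite _
  obtain ⟨v, hv⟩ := exists_longest (G := G) (F := F) J
  have huB : u ∈ (G.bnPair (F := F)).B := Subgroup.mem_sup_left hu
  rw [stJ, Finset.sum_congr rfl fun K hK => by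
    rw [fixJK_B (Finset.mem_powerset.1 hK) huB, Nat.cast_sum, Finset.mul_sum, Finset.sum_filter]]
  rw [Finset.sum_comm, Fintype.sum_eq_single v]
  · rw [Finset.sum_eq_single ∅]
    · rw [Finset.card_empty, pow_zero, one_mul, if_pos ⟨hv.1, by simp⟩, cellFix_longest hv hu]
      split_ifs <;> simp
    · intro K hK hne
      rw [if_neg]
      rintro ⟨-, h⟩
      obtain ⟨i, hi⟩ := Finset.nonempty_iff_ne_empty.2 hne
      exact G.not_isNegRoot (h i hi) (hv.2 i (Finset.mem_powerset.1 hK hi))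
    · exact fun h => absurd (Finset.empty_mem_powerset _) h
  · intro w hw
    by_cases hW : InW G J w
    · set A := J.filter fun i => D.IsPosRoot (prm G w (G.simpleF i)) with hA
      rw [← Finset.sum_filter]
      rw [show (J.powerset.filter fun K => InW G J w ∧
          ∀ i ∈ K, D.IsPosRoot (prm G w (G.simpleF i))) = A.powerset by
        ext K
        simp only [Finset.mem_filter, Finset.mem_powerset, hA, hW, true_and]
        exact ⟨fun h i hi => Finset.mem_filter.2 ⟨h.1 hi, h.2 i hi⟩,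
          fun h => ⟨fun i hi => (Finset.mem_filter.1 (h hi)).1, fun i hi => (Finset.mem_filter.1 (h hi)).2⟩⟩]
      rw [← Finset.sum_mul, Finset.sum_powerset_neg_one_pow_card, if_neg, zero_mul]
      intro hA0
      refine hw (IsLongest.unique ⟨hW, fun i hi => ?_⟩ hv)
      refine (G.isPosRoot_or_isNegRoot (prm G w (G.simpleF i)).2).resolve_left fun hp => ?_
      exact Finset.eq_empty_iff_forall_notMem.1 hA0 i (Finset.mem_filter.2 ⟨hi, hp⟩)
    · exact Finset.sum_eq_zero fun K _ => if_neg fun h => hW h.1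

theorem prm_mul_longest_pos {K : Finset (Fin D.rank)} {w v : Wq (G.bnPair (F := F))}
    (hv : IsLongest G K v) (h : ∀ i ∈ K, D.IsPosRoot (prm G w (G.simpleF i))) {i : Fin D.rank}
    (hi : i ∈ K) : D.IsNegRoot (prm G (w * v) (G.simpleF i)) := by
  have h1 := pos_of_phi h (hv.negF_mem (simple_mem_phi hi))
  rw [prm_negF] at h1
  rw [prm_mul, Equiv.Perm.mul_apply, ← G.negF_negF (prm G w (prm G v (G.simpleF i)))]
  exact G.isNegRoot_neg h1

theorem prm_mul_longest_neg {K : Finset (Fin D.rank)} {w v : Wq (G.bnPair (F := F))}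
    (hv : IsLongest G K v) (h : ∀ i ∈ K, D.IsNegRoot (prm G w (G.simpleF i))) {i : Fin D.rank}
    (hi : i ∈ K) : D.IsPosRoot (prm G (w * v⁻¹) (G.simpleF i)) := by
  have h1 := neg_of_phi h (hv.inv.negF_mem (simple_mem_phi hi))
  rw [prm_negF, G.isNegRoot_negF] at h1
  rwa [prm_mul, Equiv.Perm.mul_apply]

/-- The alternating sum of `[P_J : P_K] q ^ N_K` is `1`. -/
theorem sum_index_mul (J : Finset (Fin D.rank)) :
    ∑ K ∈ J.powerset, (-1 : ℤ) ^ K.card *
      ((fixJK G F J K 1 : ℤ) * (Nat.card F : ℤ) ^ nPhi G K) = 1 := by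
  classical
  have : Fintype (Wq (G.bnPair (F := F))) := Fintype.ofFinite _
  have key : ∀ K ∈ J.powerset, (fixJK G F J K 1 : ℤ) * (Nat.card F : ℤ) ^ nPhi G K =
      ∑ w : Wq (G.bnPair (F := F)),
        if InW G J w ∧ ∀ i ∈ K, D.IsNegRoot (prm G w (G.simpleF i))
          then (Nat.card F : ℤ) ^ (invF w).card else 0 := by
    intro K hK
    rw [Finset.mem_powerset] at hK
    obtain ⟨v, hv⟩ := exists_longest (G := G) (F := F) K
    rw [fixJK_B hK (one_mem _), Nat.cast_sum, Finset.sum_mul, ← Finset.sum_filter]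
    refine Finset.sum_bij' (fun w _ => w * v) (fun w _ => w * v⁻¹) (fun w hw => ?_) (fun w hw => ?_)
      (fun w _ => mul_inv_cancel_right w v) (fun w _ => inv_mul_cancel_right w v) (fun w hw => ?_)
    · rw [Finset.mem_filter] at hw ⊢
      exact ⟨Finset.mem_univ _, hw.2.1.mul (hv.1.mono hK), fun i hi => prm_mul_longest_pos hv hw.2.2 hi⟩
    · rw [Finset.mem_filter] at hw ⊢
      exact ⟨Finset.mem_univ _, hw.2.1.mul (hv.1.mono hK).inv,
        fun i hi => prm_mul_longest_neg hv hw.2.2 hi⟩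
    · rw [Finset.mem_filter] at hw
      rw [cellFix_one, card_invF_mul hv hw.2.2, hv.card_invF]
      push_cast
      rw [pow_add]
  rw [Finset.sum_congr rfl fun K hK => by rw [key K hK, Finset.mul_sum], Finset.sum_comm,
    Fintype.sum_eq_single 1]
  · rw [Finset.sum_eq_single ∅]
    · have h1 : invF (1 : Wq (G.bnPair (F := F))) = ∅ := Finset.eq_empty_iff_forall_notMem.2
        fun s hs => by
          rw [mem_invF, prm_one] at hs
          exact G.not_isNegRoot hs.1 hs.2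
      simp [h1, InW.one]
    · intro K _ hne
      rw [if_neg, mul_zero]
      rintro ⟨-, h⟩
      obtain ⟨i, hi⟩ := Finset.nonempty_iff_ne_empty.2 hne
      have := h i hi
      rw [prm_one] at this
      exact G.not_isNegRoot (G.isPosRoot_simple i.2) this
    · exact fun h => absurd (Finset.empty_mem_powerset _) h
  · intro w hw
    by_cases hW : InW G J w
    · set A := J.filter fun i => D.IsNegRoot (prm G w (G.simpleF i)) with hA
      simp only [mul_ite, mul_zero]
      rw [← Finset.sum_filter]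
      rw [show (J.powerset.filter fun K => InW G J w ∧
          ∀ i ∈ K, D.IsNegRoot (prm G w (G.simpleF i))) = A.powerset by
        ext K
        simp only [Finset.mem_filter, Finset.mem_powerset, hA, hW, true_and]
        exact ⟨fun h i hi => Finset.mem_filter.2 ⟨h.1 hi, h.2 i hi⟩,
          fun h => ⟨fun i hi => (Finset.mem_filter.1 (h hi)).1, fun i hi => (Finset.mem_filter.1 (h hi)).2⟩⟩]
      rw [← Finset.sum_mul, Finset.sum_powerset_neg_one_pow_card, if_neg, zero_mul]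
      intro hA0
      refine hw (eq_one_of_no_desc hW fun i hi => ?_)
      refine (G.isPosRoot_or_isNegRoot (prm G w (G.simpleF i)).2).resolve_right fun hp => ?_
      exact Finset.eq_empty_iff_forall_notMem.1 hA0 i (Finset.mem_filter.2 ⟨hi, hp⟩)
    · exact Finset.sum_eq_zero fun K _ => by rw [if_neg fun h => hW h.1, mul_zero]

variable (p : ℕ) [Fact p.Prime] [CharP F p]

theorem card_eq_pow : ∃ f, 0 < f ∧ Nat.card F = p ^ f := by
  obtain ⟨n, -, hn⟩ := FiniteField.card F p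
  exact ⟨n, n.pos, by rw [Nat.card_eq_fintype_card, hn]⟩

include G in
theorem coprime_diagonal : Nat.Coprime p (Nat.card ↥(D.diagonalSubgroup F)) := by
  have h1 : Nat.card ↥(D.diagonalSubgroup F) ∣ Nat.card (Fin D.rank → Fˣ) := by
    rw [G.diagonal_eq_range]
    exact Subgroup.card_range_dvd _
  refine Nat.Coprime.coprime_dvd_right h1 ?_
  rw [Nat.card_fun, Nat.card_units]
  refine Nat.Coprime.pow_right _ ?_
  obtain ⟨f, hf, he⟩ := card_eq_pow (F := F) p
  rw [(Fact.out : p.Prime).coprime_iff_not_dvd, he]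
  intro h
  have h2 : p ∣ p ^ f := dvd_pow_self p hf.ne'
  have h3 : 1 ≤ p ^ f := Nat.one_le_pow _ _ (Fact.out : p.Prime).pos
  have := Nat.dvd_sub h2 h
  rw [Nat.sub_sub_self h3] at this
  exact (Fact.out : p.Prime).one_lt.ne' (Nat.dvd_one.1 this)

include G in
theorem order_of_mem_pos {u : ↥(D.group F)} (hu : (u : GL D.Idx F) ∈ D.posUnipotent F) :
    ∃ k, orderOf u = p ^ k := by
  classical
  obtain ⟨f, -, hf⟩ := card_eq_pow (F := F) p
  have h1 : orderOf (⟨(u : GL D.Idx F), hu⟩ : ↥(D.posUnipotent F)) ∣ p ^ (f * (D.nroots / 2)) := by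
    refine (orderOf_dvd_natCard _).trans (dvd_of_eq ?_)
    rw [pow_mul, ← hf, G.posUnipotent_eq, G.card_posSub G.posClosed_univ, G.card_posRoots]
  rw [Subgroup.orderOf_mk, Subgroup.orderOf_coe] at h1
  obtain ⟨k, -, hk⟩ := (Nat.dvd_prime_pow (Fact.out : p.Prime)).1 h1
  exact ⟨k, hk⟩

include G in
theorem mem_pos_of_order {b : ↥(D.group F)} (hb : (b : GL D.Idx F) ∈ D.borelSubgroup F) {k : ℕ}
    (hk : orderOf b = p ^ k) : (b : GL D.Idx F) ∈ D.posUnipotent F := by
  have hN : D.borelSubgroup F ≤ Subgroup.normalizer (D.posUnipotent F : Set (GL D.Idx F)) :=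
    sup_le Subgroup.le_normalizer G.diagonal_le_normalizer_pos
  have : ((D.posUnipotent F).subgroupOf (D.borelSubgroup F)).Normal :=
    Subgroup.normal_subgroupOf_of_le_normalizer hN
  obtain ⟨u, hu, h, hh, he⟩ := G.mem_borel.1 hb
  let q := QuotientGroup.mk' ((D.posUnipotent F).subgroupOf (D.borelSubgroup F))
  have h1 : q ⟨b, hb⟩ = q ⟨h, Subgroup.mem_sup_right hh⟩ := by
    rw [show (⟨(b : GL D.Idx F), hb⟩ : ↥(D.borelSubgroup F)) =
      ⟨u, Subgroup.mem_sup_left hu⟩ * ⟨h, Subgroup.mem_sup_right hh⟩ from Subtype.ext he, map_mul,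
      show q ⟨u, Subgroup.mem_sup_left hu⟩ = 1 from (QuotientGroup.eq_one_iff _).2 hu, one_mul]
  have d1 : orderOf (q ⟨b, hb⟩) ∣ p ^ k := by
    refine (orderOf_map_dvd q _).trans ?_
    rw [Subgroup.orderOf_mk, Subgroup.orderOf_coe, hk]
  have d2 : orderOf (q ⟨b, hb⟩) ∣ Nat.card ↥(D.diagonalSubgroup F) := by
    rw [h1]
    refine (orderOf_map_dvd q _).trans (dvd_trans (dvd_of_eq ?_)
      (orderOf_dvd_natCard (⟨h, hh⟩ : ↥(D.diagonalSubgroup F))))
    exact (Subgroup.orderOf_coe _).symm.trans (Subgroup.orderOf_coe (⟨h, hh⟩ : ↥(D.diagonalSubgroup F)))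
  have h2 := Nat.eq_one_of_dvd_coprimes
    ((coprime_diagonal (G := G) p).pow_left k) d1 d2
  rw [orderOf_eq_one_iff] at h2
  exact Subgroup.mem_subgroupOf.1 ((QuotientGroup.eq_one_iff (⟨_, hb⟩ : ↥(D.borelSubgroup F))).1 h2)

theorem not_dvd_index (J : Finset (Fin D.rank)) : ¬ p ∣ fixJK G F J ∅ 1 := by
  classical
  have : Fintype (Wq (G.bnPair (F := F))) := Fintype.ofFinite _
  obtain ⟨f, hf, he⟩ := card_eq_pow (F := F) p
  rw [fixJK_B (Finset.empty_subset J) (one_mem _)]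
  rw [← Finset.add_sum_erase _ _ (a := (1 : Wq (G.bnPair (F := F))))
    (Finset.mem_filter.2 ⟨Finset.mem_univ _, InW.one, by simp⟩)]
  intro h
  rw [Nat.dvd_add_left] at h
  · rw [cellFix_one] at h
    have h1 : invF (1 : Wq (G.bnPair (F := F))) = ∅ := Finset.eq_empty_iff_forall_notMem.2
      fun s hs => by
        rw [mem_invF, prm_one] at hs
        exact G.not_isNegRoot hs.1 hs.2
    rw [h1, Finset.card_empty, pow_zero, Nat.dvd_one] at h
    exact (Fact.out : p.Prime).one_lt.ne' h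
  · refine Finset.dvd_sum fun w hw => ?_
    rw [cellFix_one, he, ← pow_mul]
    refine dvd_pow_self p (mul_ne_zero hf.ne' (Finset.card_ne_zero.2 ?_))
    by_contra hne
    refine (Finset.mem_erase.1 hw).1 (eq_one_of_pos G fun i => ?_)
    rw [G.isPosRoot_iff_not_neg (prm G w (G.simpleF i)).2]
    exact fun hn => hne ⟨G.simpleF i, mem_invF.2 ⟨G.isPosRoot_simple i.2, hn⟩⟩

theorem exists_conj_mem_pos {J : Finset (Fin D.rank)} {g : ↥(D.group F)} (hg : g ∈ pJ G F J)
    (hp : ∃ k, orderOf g = p ^ k) :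
    ∃ x ∈ pJ G F J, ((x * g * x⁻¹ : ↥(D.group F)) : GL D.Idx F) ∈ D.posUnipotent F := by
  classical
  obtain ⟨k, hk⟩ := hp
  let C := {c : ↥(D.group F) ⧸ pJ G F (∅ : Finset (Fin D.rank)) //
    ∃ x, x ∈ pJ G F J ∧ QuotientGroup.mk x = c}
  have : Fintype C := Fintype.ofFinite C
  have hC : ∀ c : ↥(D.group F) ⧸ pJ G F (∅ : Finset (Fin D.rank)),
      (∃ x, x ∈ pJ G F J ∧ QuotientGroup.mk x = g • c) ↔ ∃ x, x ∈ pJ G F J ∧ QuotientGroup.mk x = c := by
    intro c
    exact ⟨fun ⟨x, hx, hxc⟩ => ⟨g⁻¹ * x, mul_mem (inv_mem hg) hx, by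
      rw [← inv_smul_smul g c, ← hxc]; rfl⟩,
      fun ⟨x, hx, hxc⟩ => ⟨g * x, mul_mem hg hx, by rw [← hxc]; rfl⟩⟩
  let σ : Equiv.Perm C := (MulAction.toPerm g).subtypePerm hC
  have hcard : ¬ p ∣ Fintype.card C := by
    rw [← Nat.card_eq_fintype_card]
    convert not_dvd_index (G := G) (F := F) p J using 2
    exact Nat.card_congr (Equiv.subtypeEquivRight fun c => by simp)
  have hσ : σ ^ p ^ k = 1 := by
    rw [← hk]
    have hpw : ∀ (m : ℕ) (c : C), ((σ ^ m) c).1 = g ^ m • c.1 := by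
      intro m
      induction m with
      | zero => intro c; simp
      | succ m ih =>
        intro c
        rw [pow_succ', Equiv.Perm.mul_apply, pow_succ', mul_smul, ← ih c]
        rfl
    refine Equiv.ext fun c => Subtype.ext ?_
    rw [hpw, pow_orderOf_eq_one, one_smul]
    rfl
  obtain ⟨⟨c, x, hx, rfl⟩, hc⟩ := Equiv.Perm.exists_fixed_point_of_prime hcard hσ
  have h1 : g • (QuotientGroup.mk x : ↥(D.group F) ⧸ pJ G F (∅ : Finset (Fin D.rank))) =
      QuotientGroup.mk x := congrArg Subtype.val hc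
  have h2 : x⁻¹ * (g * x) ∈ pJ G F (∅ : Finset (Fin D.rank)) := QuotientGroup.eq.1 h1.symm
  have h0 : pJ G F (∅ : Finset (Fin D.rank)) = (G.bnPair (F := F)).B := by
    simp [pJ, par, BNPair.parabolic, Subgroup.closure_empty]
  rw [h0] at h2
  refine ⟨x⁻¹, inv_mem hx, ?_⟩
  rw [inv_inv]
  refine mem_pos_of_order (G := G) p (k := k) ?_ ?_
  · rw [← mul_assoc] at h2; exact h2
  · rw [← hk, show x⁻¹ * g * x = MulAut.conj x⁻¹ g by simp, MulEquiv.orderOf_eq]

variable (G F) in
/-- The `p`-elements of `P_J`. -/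
noncomputable def pel (J : Finset (Fin D.rank)) : Finset ↥(D.group F) :=
  letI := Fintype.ofFinite ↥(D.group F)
  letI : DecidablePred fun g : ↥(D.group F) => g ∈ pJ G F J ∧ ∃ k, orderOf g = p ^ k :=
    Classical.decPred _
  Finset.univ.filter fun g => g ∈ pJ G F J ∧ ∃ k, orderOf g = p ^ k

theorem mem_pel {J : Finset (Fin D.rank)} {g : ↥(D.group F)} :
    g ∈ pel G F p J ↔ g ∈ pJ G F J ∧ ∃ k, orderOf g = p ^ k := by
  simp [pel]

theorem sum_stJ (J : Finset (Fin D.rank)) :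
    ∑ g ∈ pel G F p J, stJ G F J g = (Nat.card F : ℤ) ^ (D.nroots / 2) := by
  classical
  have : Fintype ↥(D.group F) := Fintype.ofFinite _
  have key : ∀ g ∈ pel G F p J, stJ G F J g =
      if (g : GL D.Idx F) ∈ radU G F J then (Nat.card F : ℤ) ^ nPhi G J else 0 := by
    intro g hg
    rw [mem_pel] at hg
    obtain ⟨x, hx, hu⟩ := exists_conj_mem_pos p hg.1 hg.2
    have h1 : stJ G F J g = stJ G F J (x * g * x⁻¹) := by simp only [stJ, fixJK_conj J _ hx]
    rw [h1, stJ_pos hu]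
    have h2 := Subgroup.mem_normalizer_iff.1 (pJ_le_normalizer_radU J hx) (g : GL D.Idx F)
    refine if_congr ?_ rfl rfl
    push_cast
    exact h2.symm
  rw [Finset.sum_congr rfl key, ← Finset.sum_filter, Finset.sum_const, nsmul_eq_mul,
    ← Nat.card_eq_finsetCard]
  have e : Nat.card ↥((pel G F p J).filter fun g : ↥(D.group F) => (g : GL D.Idx F) ∈ radU G F J) =
      Nat.card ↥(radU G F J) := by
    refine Nat.card_congr
      { toFun := fun g => ⟨g.1, (Finset.mem_filter.1 g.2).2⟩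
        invFun := fun v => ⟨⟨(v : GL D.Idx F), G.posUnipotent_le_group (G.posSub_le_posUnipotent _ v.2)⟩,
          Finset.mem_filter.2 ⟨(mem_pel p).2 ⟨B_le_pJ J (Subgroup.mem_sup_left
            (G.posSub_le_posUnipotent _ v.2)), order_of_mem_pos (G := G) p
            (G.posSub_le_posUnipotent _ v.2)⟩, v.2⟩⟩
        left_inv := fun g => rfl
        right_inv := fun v => rfl }
  rw [e]
  exact_mod_cast card_radU_mul (G := G) (F := F) J

theorem sum_fixJK {J K : Finset (Fin D.rank)} (hKJ : K ⊆ J) :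
    ∑ g ∈ pel G F p J, fixJK G F J K g = fixJK G F J K 1 * (pel G F p K).card := by
  classical
  have : Fintype ↥(D.group F) := Fintype.ofFinite _
  have : Fintype (↥(D.group F) ⧸ pJ G F K) := Fintype.ofFinite _
  set C := Finset.univ.filter fun c : ↥(D.group F) ⧸ pJ G F K =>
    ∃ x, x ∈ pJ G F J ∧ QuotientGroup.mk x = c
  have h0 : ∀ g, fixJK G F J K g = ∑ c ∈ C, if g • c = c then 1 else 0 := by
    intro g
    rw [fixJK, Nat.card_eq_fintype_card, Fintype.card_subtype, Finset.sum_boole, Finset.filter_filter]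
    rfl
  simp only [h0, one_smul, if_true, Finset.sum_const, smul_eq_mul, mul_one]
  rw [Finset.sum_comm, Finset.sum_congr rfl fun c hc => ?_, Finset.sum_const, smul_eq_mul]
  obtain ⟨x, hx, rfl⟩ := (Finset.mem_filter.1 hc).2
  rw [Finset.sum_boole]
  have hiff : ∀ g, g • (QuotientGroup.mk x : ↥(D.group F) ⧸ pJ G F K) = QuotientGroup.mk x ↔
      x⁻¹ * g * x ∈ pJ G F K := fun g => by
    rw [show g • (QuotientGroup.mk x : ↥(D.group F) ⧸ pJ G F K) = QuotientGroup.mk (g * x) from rfl,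
      eq_comm, QuotientGroup.eq, mul_assoc]
  have hord : ∀ g, orderOf (x⁻¹ * g * x) = orderOf g := fun g => by
    rw [show x⁻¹ * g * x = MulAut.conj x⁻¹ g by simp, MulEquiv.orderOf_eq]
  simp only [Nat.cast_id]
  refine Finset.card_bij' (fun g _ => x⁻¹ * g * x) (fun g _ => x * g * x⁻¹)
    (fun g hg => ?_) (fun g hg => ?_) (fun g _ => by group) (fun g _ => by group)
  · rw [Finset.mem_filter, mem_pel, hiff] at hg
    rw [mem_pel, hord]
    exact ⟨hg.2, hg.1.2⟩
  · rw [mem_pel] at hg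
    have e : x⁻¹ * (x * g * x⁻¹) * x = g := by group
    rw [Finset.mem_filter, mem_pel, hiff, e, ← hord (x * g * x⁻¹), e]
    exact ⟨⟨mul_mem (mul_mem hx (pJ_mono hKJ hg.1)) (inv_mem hx), hg.2⟩, hg.1⟩

/-- The number of `p`-elements of a parabolic subgroup. -/
theorem card_pel (J : Finset (Fin D.rank)) :
    ((pel G F p J).card : ℤ) = (Nat.card F : ℤ) ^ (D.nroots / 2) * (Nat.card F : ℤ) ^ nPhi G J := by
  induction J using Finset.strongInduction with
  | _ J ih =>
    classical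
    have h1 := sum_stJ (G := G) (F := F) p J
    simp only [stJ] at h1
    rw [Finset.sum_comm, Finset.sum_congr rfl fun K hK => by
      rw [← Finset.mul_sum, ← Nat.cast_sum, sum_fixJK p (Finset.mem_powerset.1 hK), Nat.cast_mul]] at h1
    have h2 := congrArg (fun t => (Nat.card F : ℤ) ^ (D.nroots / 2) * t)
      (sum_index_mul (G := G) (F := F) J)
    simp only [mul_one, Finset.mul_sum] at h2
    have h3 := h1.trans h2.symm
    rw [← sub_eq_zero, ← Finset.sum_sub_distrib, Finset.sum_eq_single J] at h3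
    · have hJ : fixJK G F J J 1 = 1 := by
        rw [fixJK, Nat.card_eq_one_iff_exists]
        refine ⟨⟨QuotientGroup.mk 1, ⟨1, one_mem _, rfl⟩, one_smul _ _⟩, ?_⟩
        rintro ⟨c, ⟨y, hy, rfl⟩, -⟩
        refine Subtype.ext (QuotientGroup.eq.2 ?_)
        simpa using hy
      rw [hJ] at h3
      have h4 : ((-1 : ℤ)) ^ J.card * ((pel G F p J).card -
          (Nat.card F : ℤ) ^ (D.nroots / 2) * (Nat.card F : ℤ) ^ nPhi G J) = 0 := by
        rw [← h3]; push_cast; ring
      rcases mul_eq_zero.1 h4 with h5 | h5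
      · exact absurd h5 (pow_ne_zero _ (by norm_num))
      · exact sub_eq_zero.1 h5
    · intro K hK hne
      rw [ih K ((Finset.mem_powerset.1 hK).ssubset_of_ne hne)]
      ring
    · exact fun h => absurd (Finset.mem_powerset_self J) h

include G in
/-- Steinberg's count. -/
theorem card_unipotent :
    Nat.card {g : ↥(D.group F) // ∃ k : ℕ, orderOf g = p ^ k} =
      Fintype.card F ^ (2 * (D.nroots / 2)) := by
  classical
  have : Fintype ↥(D.group F) := Fintype.ofFinite _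
  have htop := pJ_univ (G := G) (F := F)
  have hn := nPhi_univ (G := G)
  have h := card_pel (G := G) (F := F) p Finset.univ
  rw [hn, ← pow_add, ← two_mul] at h
  have h' : (pel G F p Finset.univ).card = Nat.card F ^ (2 * (D.nroots / 2)) := by exact_mod_cast h
  rw [← Nat.card_eq_fintype_card (α := F), ← h', ← Nat.card_eq_finsetCard]
  exact Nat.card_congr (Equiv.subtypeEquivRight fun g => by simp [mem_pel, htop])

end Count

end Cfsg.Agent.H68.ChevUnip
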