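import Cfsg.Agent.H68.HeckeIntegral
import Cfsg.Agent.H68.ChevUnipCount
import Cfsg.Agent.H46.TorusCard

/-!
# Characters of `p`-defect zero of a Chevalley group

Such a character has a `B`-fixed vector on which every standard generator of the algebra of
`U`-biinvariant operators acts by `-1`; this determines it.
-/

set_option autoImplicit false

namespace Cfsg.Agent.H68.ChevDZ

open Cfsg Cfsg.Lie Cfsg.Agent.H46 Cfsg.Agent.H68
open Cfsg.Agent.H68.ChevUnip (e pJ nPhi fixJK invF)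
open Cfsg.Agent.H8
open scoped ComplexConjugate

variable {D : ChevalleyDatum} (G : Good D) {F : Type*} [Field F]

/-- `U` inside the Chevalley group. -/
def UU (D : ChevalleyDatum) (F : Type*) [Field F] : Subgroup ↥(D.group F) :=
  (D.posUnipotent F).subgroupOf (D.group F)

theorem mem_UU {x : ↥(D.group F)} : x ∈ UU D F ↔ (x : GL D.Idx F) ∈ D.posUnipotent F := Iff.rfl

/-- `x_r(t)` in the group. -/
noncomputable def xx (r : ℕ) (t : F) : ↥(D.group F) := ⟨G.xg r t, G.xg_mem_group r t⟩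

/-- `h_r(c)` in the group. -/
noncomputable def hh (r : ℕ) (c : F) : ↥(D.group F) := ⟨G.hg r c, G.hg_mem_group r c⟩

/-- `n_i` in the group. -/
noncomputable def ns (i : Fin D.rank) : ↥(D.group F) :=
  ⟨G.ng (D.simple i) 1, G.ng_mem_group _ _⟩

/-- An element making every positive root negative. -/
def IsLongN (n : GL D.Idx F) : Prop :=
  n ∈ D.monomialSubgroup F ∧ ∀ s : Fin D.nroots, D.IsPosRoot s → D.IsNegRoot (G.perm n s)

variable {G}

theorem IsLongN.inv {n : GL D.Idx F} (hn : IsLongN G n) : IsLongN G n⁻¹ := by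
  refine ⟨inv_mem hn.1, fun s hs => ?_⟩
  rw [G.perm_inv hn.1]
  set t := (G.perm n)⁻¹ s with ht
  refine (G.isPosRoot_or_isNegRoot t.2).resolve_left fun hp => ?_
  have h := hn.2 t hp
  rw [ht, Equiv.Perm.inv_def, Equiv.apply_symm_apply] at h
  exact G.not_isNegRoot hs h

theorem IsLongN.mul_diag {n a b : GL D.Idx F} (hn : IsLongN G n) (ha : a ∈ D.diagonalSubgroup F)
    (hb : b ∈ D.diagonalSubgroup F) : IsLongN G (a * n * b) := by
  have haN : a ∈ D.monomialSubgroup F := Subgroup.mem_sup_left ha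
  have hbN : b ∈ D.monomialSubgroup F := Subgroup.mem_sup_left hb
  refine ⟨mul_mem (mul_mem haN hn.1) hbN, ?_⟩
  rw [G.perm_mul (mul_mem haN hn.1) hbN, G.perm_mul haN hn.1, G.perm_diagonal ha, G.perm_diagonal hb,
    one_mul, mul_one]
  exact hn.2

variable [Fintype F]

noncomputable local instance : Fintype ↥(D.group F) := Fintype.ofFinite _

noncomputable local instance : Fintype Fˣ := Fintype.ofFinite _

variable (G)

/-- The orbit of `U` on the coset of a monomial element has the size of a root subgroup product. -/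
theorem orb_eq_pow {n : ↥(D.group F)} (hn : (n : GL D.Idx F) ∈ D.monomialSubgroup F)
    (S : Finset ℕ) (hS : ∀ r, r ∈ S ↔ r ∈ G.invSet (n : GL D.Idx F)⁻¹) :
    Hecke.orb (UU D F) n = Nat.card F ^ S.card := by
  classical
  set I := G.invSet (n : GL D.Idx F)⁻¹ with hI
  have hmem : ∀ v : ↥(G.posSub (F := F) I), (v : GL D.Idx F) ∈ D.group F := fun v =>
    G.posUnipotent_le_group (G.posSub_le_posUnipotent _ v.2)
  have hvU : ∀ v : ↥(G.posSub (F := F) I), (⟨v, hmem v⟩ : ↥(D.group F)) ∈ UU D F := fun v =>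
    G.posSub_le_posUnipotent _ v.2
  let f : ↥(G.posSub (F := F) I) →
      MulAction.orbit ↥(UU D F) (QuotientGroup.mk n : ↥(D.group F) ⧸ UU D F) :=
    fun v => ⟨QuotientGroup.mk (⟨v, hmem v⟩ * n), ⟨⟨_, hvU v⟩, rfl⟩⟩
  have hf : Function.Bijective f := by
    constructor
    · intro v v' h
      have h1 : ((⟨v, hmem v⟩ * n)⁻¹ * (⟨v', hmem v'⟩ * n) : ↥(D.group F)) ∈ UU D F :=
        QuotientGroup.eq.1 (congrArg Subtype.val h)
      have h2 : (n : GL D.Idx F)⁻¹ * ((v : GL D.Idx F)⁻¹ * (v' : GL D.Idx F)) * (n : GL D.Idx F) ∈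
          D.borelSubgroup F :=
        Subgroup.mem_sup_left (by simpa [mul_assoc] using (mem_UU.1 h1))
      have h3 := G.conj_posSub_invSet (inv_mem hn) (mul_mem (inv_mem v.2) v'.2)
      rw [inv_inv] at h3
      have h4 := (Subgroup.eq_bot_iff_forall _).1 (G.borel_inf_neg (F := F)) _ ⟨h2, h3⟩
      have h5 : (v : GL D.Idx F)⁻¹ * (v' : GL D.Idx F) = 1 := by
        rw [← conj_eq_one_iff (a := (n : GL D.Idx F)⁻¹), inv_inv]; exact h4
      exact Subtype.ext (inv_mul_eq_one.1 h5)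
    · rintro ⟨c, ⟨u, hu⟩, rfl⟩
      obtain ⟨a, ha, b, hb, he⟩ := G.factor I (mem_UU.1 hu)
      refine ⟨⟨a, ha⟩, Subtype.ext ?_⟩
      show (QuotientGroup.mk (⟨a, hmem ⟨a, ha⟩⟩ * n) : ↥(D.group F) ⧸ UU D F) =
        QuotientGroup.mk (u * n)
      rw [QuotientGroup.eq]
      have := G.conj_posSub_compl (inv_mem hn) hb
      rw [inv_inv] at this
      show _ ∈ D.posUnipotent F
      simp only [Subgroup.coe_subtype, Subgroup.coe_mul, Subgroup.coe_inv, he]
      convert this using 1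
      group
  rw [Hecke.orb, ← Nat.card_congr (Equiv.ofBijective f hf),
    G.card_posSub (G.posClosed_invSet (inv_mem hn))]
  congr 2
  ext r
  rw [Finset.mem_filter, Finset.mem_range, ← hI, hS]
  exact ⟨fun h => h.2.2, fun h => ⟨h.1, h.2.1, h⟩⟩

theorem orb_long {n : ↥(D.group F)} (hn : IsLongN G (n : GL D.Idx F)) :
    Hecke.orb (UU D F) n = Nat.card F ^ (D.nroots / 2) := by
  classical
  rw [orb_eq_pow G hn.1 ((Finset.range D.nroots).filter fun r => D.IsPosRoot r ∧ r ∈ Set.univ)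
    fun r => ?_, G.card_posRoots]
  rw [Finset.mem_filter, Finset.mem_range]
  exact ⟨fun h => ⟨h.1, h.2.1, hn.inv.2 ⟨r, h.1⟩ h.2.1⟩, fun h => ⟨h.1, h.2.1, trivial⟩⟩

theorem orb_ns (i : Fin D.rank) : Hecke.orb (UU D F) (ns G (F := F) i) = Nat.card F := by
  classical
  have hN : G.ng (D.simple i) (1 : F) ∈ D.monomialSubgroup F := G.ng_mem_monomial (G.simple_lt i.2)
  rw [orb_eq_pow G (n := ns G i) hN {D.simple i} fun r => ?_, Finset.card_singleton, pow_one]
  have hp : G.perm (G.ng (D.simple i) (1 : F))⁻¹ = G.sPerm i := by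
    rw [G.perm_inv hN, G.perm_ng_simple, inv_eq_of_mul_eq_one_left (G.sPerm_mul_self i)]
  rw [Finset.mem_singleton]
  constructor
  · rintro rfl
    refine ⟨G.simple_lt i.2, G.isPosRoot_simple i.2, ?_⟩
    show D.IsNegRoot (G.perm (G.ng (D.simple i) (1 : F))⁻¹ (G.simpleF i))
    rw [hp, G.sPerm_simple]
    exact G.isNegRoot_neg (G.isPosRoot_simple i.2)
  · rintro ⟨h, hr, hneg⟩
    rw [show ((ns G (F := F) i : ↥(D.group F)) : GL D.Idx F) = G.ng (D.simple i) 1 from rfl, hp] at hneg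
    by_contra hne
    exact G.not_isNegRoot (G.isPosRoot_reflect i.2 hr hne) hneg

theorem orb_long_div {n : ↥(D.group F)} (hn : IsLongN G (n : GL D.Idx F)) (i : Fin D.rank) :
    Hecke.orb (UU D F) ((ns G i)⁻¹ * n) = Nat.card F ^ (D.nroots / 2 - 1) := by
  classical
  have hN : G.ng (D.simple i) (1 : F) ∈ D.monomialSubgroup F := G.ng_mem_monomial (G.simple_lt i.2)
  have hm : (((ns G i)⁻¹ * n : ↥(D.group F)) : GL D.Idx F) ∈ D.monomialSubgroup F :=
    mul_mem (inv_mem hN) hn.1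
  have hp : ∀ r, G.perm (((ns G i)⁻¹ * n : ↥(D.group F)) : GL D.Idx F)⁻¹ r =
      G.perm (n : GL D.Idx F)⁻¹ (G.sPerm i r) := by
    intro r
    show G.perm (((G.ng (D.simple i) (1 : F))⁻¹ * (n : GL D.Idx F))⁻¹) r = _
    rw [_root_.mul_inv_rev, inv_inv, G.perm_mul (inv_mem hn.1) hN, G.perm_ng_simple]
    rfl
  rw [orb_eq_pow G hm (((Finset.range D.nroots).filter fun r =>
    D.IsPosRoot r ∧ r ∈ Set.univ).erase (D.simple i)) fun r => ?_,
    Finset.card_erase_of_mem, G.card_posRoots]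
  · simp only [Finset.mem_filter, Finset.mem_range, Set.mem_univ, and_true]
    exact ⟨G.simple_lt i.2, G.isPosRoot_simple i.2⟩
  rw [Finset.mem_erase, Finset.mem_filter, Finset.mem_range]
  constructor
  · rintro ⟨hne, h, hr, -⟩
    refine ⟨h, hr, ?_⟩
    rw [hp]
    exact hn.inv.2 _ (G.isPosRoot_reflect i.2 hr hne)
  · rintro ⟨h, hr, hneg⟩
    refine ⟨?_, h, hr, trivial⟩
    rintro rfl
    rw [hp, show (⟨D.simple i, h⟩ : Fin D.nroots) = G.simpleF i from rfl, G.sPerm_simple,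
      G.perm_negF (inv_mem hn.1), G.isNegRoot_negF] at hneg
    exact G.not_isNegRoot hneg (hn.inv.2 _ (G.isPosRoot_simple i.2))

variable {G}

theorem diag_mem_normalizer {h : ↥(D.group F)} (hd : (h : GL D.Idx F) ∈ D.diagonalSubgroup F)
    (G : Good D) : h ∈ Subgroup.normalizer (UU D F : Set ↥(D.group F)) :=
  Subgroup.mem_normalizer_iff.2 fun x =>
    Subgroup.mem_normalizer_iff.1 (G.diagonal_le_normalizer_pos hd) (x : GL D.Idx F)

variable {r : ℕ} (ρ : Representation ℂ ↥(D.group F) (Fin r → ℂ))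

include G in
/-- Reduced products multiply. -/
theorem ee_mul_of_pos (i : Fin D.rank) {n : ↥(D.group F)}
    (hn : (n : GL D.Idx F) ∈ D.monomialSubgroup F)
    (hpos : D.IsPosRoot (G.perm (n : GL D.Idx F)⁻¹ (G.simpleF i))) :
    Hecke.ee (UU D F) ρ (ns G i) * Hecke.ee (UU D F) ρ n = Hecke.ee (UU D F) ρ (ns G i * n) := by
  classical
  set s : ↥(D.group F) := ns G i
  have hterm : ∀ u ∈ UU D F, Hecke.ee (UU D F) ρ (s * u * n) = Hecke.ee (UU D F) ρ (s * n) := by
    intro u hu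
    obtain ⟨a, ha, x, hx, he⟩ := G.factor {r | r ≠ D.simple i} (mem_UU.1 hu)
    obtain ⟨t, rfl⟩ : ∃ t, x = G.xg (D.simple i) t := by
      refine G.mem_rootSubgroup.1 ((Subgroup.closure_le _).2 ?_ hx)
      rintro y ⟨r, t, ⟨-, hr'⟩, rfl⟩
      have : r = D.simple i := by simpa using hr'
      subst this
      exact G.xg_mem_rootSubgroup _ _
    have hsa : (s : GL D.Idx F) * a * (s : GL D.Idx F)⁻¹ ∈ D.posUnipotent F := by
      have : G.posSub (F := F) {r | r ≠ D.simple i} ≤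
          (D.posUnipotent F).comap (MulAut.conj (G.ng (D.simple i) 1)).toMonoidHom := by
        refine (Subgroup.closure_le _).2 ?_
        rintro y ⟨r, v, ⟨hr, hr'⟩, rfl⟩
        simp only [SetLike.mem_coe, Subgroup.mem_comap, MulEquiv.coe_toMonoidHom, MulAut.conj_apply]
        rw [G.ng_simple_mul_xg i.2 hr.1, mul_inv_cancel_right]
        exact G.xg_mem_pos (G.isPosRoot_reflect i.2 hr hr') _
      exact this ha
    have hnx : (n : GL D.Idx F)⁻¹ * G.xg (D.simple i) t * (n : GL D.Idx F) ∈ D.posUnipotent F := by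
      obtain ⟨c, hc⟩ := G.conj_xg_eq (inv_mem hn) (G.simpleF i)
      have := hc t
      rw [inv_inv] at this
      rw [show (n : GL D.Idx F)⁻¹ * G.xg (D.simple i) t * (n : GL D.Idx F) = _ from this]
      exact G.xg_mem_pos hpos _
    have haU : a ∈ D.group F := G.posUnipotent_le_group (G.posSub_le_posUnipotent _ ha)
    have e1 : s * u * n = (s * ⟨a, haU⟩ * s⁻¹) * (s * n) *
        (n⁻¹ * xx G (D.simple i) t * n) := by
      apply Subtype.ext
      show (s : GL D.Idx F) * (u : GL D.Idx F) * (n : GL D.Idx F) = _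
      rw [he]
      simp [xx, mul_assoc]
    rw [e1, Hecke.ee_mul_mem (show n⁻¹ * xx G (D.simple i) t * n ∈ UU D F from hnx),
      Hecke.ee_mem_mul (show s * ⟨a, haU⟩ * s⁻¹ ∈ UU D F from hsa)]
  letI : Fintype ↥(UU D F) := Fintype.ofFinite _
  calc Hecke.ee (UU D F) ρ s * Hecke.ee (UU D F) ρ n
      = Hecke.avg (UU D F) ρ * ρ s * Hecke.avg (UU D F) ρ * ρ n * Hecke.avg (UU D F) ρ := by
        rw [Hecke.ee, Hecke.ee]
        simp only [mul_assoc]
        rw [← mul_assoc (Hecke.avg (UU D F) ρ) (Hecke.avg (UU D F) ρ), Hecke.avg_mul_avg]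
    _ = (Nat.card (UU D F) : ℂ)⁻¹ • ∑ u : UU D F, Hecke.ee (UU D F) ρ (s * u * n) := by
        simp only [Hecke.ee]
        conv_lhs => arg 1; arg 1; arg 2; rw [Hecke.avg]
        simp only [mul_smul_comm, smul_mul_assoc, Finset.mul_sum, Finset.sum_mul, map_mul, mul_assoc]
    _ = _ := by
        rw [Fintype.sum_congr _ _ fun u : UU D F => hterm u u.2, Finset.sum_const, Finset.card_univ,
          ← Nat.cast_smul_eq_nsmul ℂ, smul_smul, Nat.card_eq_fintype_card,
          inv_mul_cancel₀ (Nat.cast_ne_zero.2 Fintype.card_ne_zero), one_smul]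

include G in
/-- The quadratic relation. -/
theorem TT_sq (i : Fin D.rank) :
    Hecke.TT (UU D F) ρ (ns G i) * Hecke.TT (UU D F) ρ (ns G i) =
      (Nat.card F : ℂ) • Hecke.ee (UU D F) ρ (ns G i * ns G i) +
        (∑ a : Fˣ, Hecke.ee (UU D F) ρ (hh G (D.simple i) (a : F) * (ns G i * ns G i))) *
          Hecke.TT (UU D F) ρ (ns G i) := by
  classical
  set s : ↥(D.group F) := ns G i with hs
  set p := D.simple i with hp
  have hpp : D.IsPosRoot p := G.isPosRoot_simple i.2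
  have hs2 : ((s * s : ↥(D.group F)) : GL D.Idx F) ∈ D.diagonalSubgroup F := G.ng_simple_sq_mem i.2
  have hxU : ∀ t, xx G p t ∈ UU D F := fun t => G.xg_mem_pos hpp t
  have hterm : ∀ a : F, a ≠ 0 → Hecke.ee (UU D F) ρ (s * xx G p a⁻¹ * s) =
      Hecke.ee (UU D F) ρ (hh G p a * (s * s)) * Hecke.ee (UU D F) ρ s := by
    intro a ha
    have e1 : G.ng p (1 : F) * G.xg p a⁻¹ = G.xg (D.neg p) (-a⁻¹) * G.ng p 1 := by
      rw [G.ng_mul_xg hpp.1 one_ne_zero]; simp
    have e2 : G.xg (D.neg p) (-a⁻¹) = G.xg p (-a) * G.ng p a * G.xg p (-a) := by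
      rw [Good.ng, ← mul_assoc, ← mul_assoc, G.xg_add, mul_assoc, G.xg_add]; simp [G.xg_zero]
    have hw : (s * s)⁻¹ * xx G p (-a) * (s * s) ∈ UU D F := by
      have h := (Subgroup.mem_normalizer_iff.1 (diag_mem_normalizer (F := F)
        (h := (s * s)⁻¹) (inv_mem hs2) G) (xx G p (-a))).1 (hxU _)
      rwa [inv_inv] at h
    have e3 : s * xx G p a⁻¹ * s =
        xx G p (-a) * ((hh G p a * (s * s)) * s) * ((s * s)⁻¹ * xx G p (-a) * (s * s)) := by
      apply Subtype.ext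
      show G.ng p 1 * G.xg p a⁻¹ * G.ng p 1 =
        G.xg p (-a) * ((G.hg p a * (G.ng p 1 * G.ng p 1)) * G.ng p 1) *
          ((G.ng p 1 * G.ng p 1)⁻¹ * G.xg p (-a) * (G.ng p 1 * G.ng p 1))
      rw [e1, e2, G.ng_eq_hg_mul a]
      group
    rw [e3, Hecke.ee_mul_mem hw, Hecke.ee_mem_mul (hxU _),
      Hecke.normalizer_mul_ee (diag_mem_normalizer (F := F) (h := hh G p a * (s * s))
        (mul_mem (G.hg_mem_diagonal hpp.1 ha) hs2) G)]
  have hshift : ∀ u ∈ UU D F, ∑ t : F, Hecke.ee (UU D F) ρ (s * (u * xx G p t) * s) =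
      ∑ t : F, Hecke.ee (UU D F) ρ (s * xx G p t * s) := by
    intro u hu
    obtain ⟨a, ha, x, hx, he⟩ := G.factor {r | r ≠ p} (mem_UU.1 hu)
    obtain ⟨t₀, rfl⟩ : ∃ t, x = G.xg p t := by
      refine G.mem_rootSubgroup.1 ((Subgroup.closure_le _).2 ?_ hx)
      rintro y ⟨r, t, ⟨-, hr'⟩, rfl⟩
      have : r = p := by simpa using hr'
      subst this
      exact G.xg_mem_rootSubgroup _ _
    have hsa : (s : GL D.Idx F) * a * (s : GL D.Idx F)⁻¹ ∈ D.posUnipotent F := by
      have : G.posSub (F := F) {r | r ≠ p} ≤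
          (D.posUnipotent F).comap (MulAut.conj (G.ng p 1)).toMonoidHom := by
        refine (Subgroup.closure_le _).2 ?_
        rintro y ⟨r, v, ⟨hr, hr'⟩, rfl⟩
        simp only [SetLike.mem_coe, Subgroup.mem_comap, MulEquiv.coe_toMonoidHom, MulAut.conj_apply, hp]
        rw [G.ng_simple_mul_xg i.2 hr.1, mul_inv_cancel_right]
        exact G.xg_mem_pos (G.isPosRoot_reflect i.2 hr hr') _
      exact this ha
    have haU : a ∈ D.group F := G.posUnipotent_le_group (G.posSub_le_posUnipotent _ ha)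
    refine Fintype.sum_equiv (Equiv.addLeft t₀) _ _ fun t => ?_
    have e1 : s * (u * xx G p t) * s = (s * ⟨a, haU⟩ * s⁻¹) * (s * xx G p (t₀ + t) * s) := by
      apply Subtype.ext
      show (s : GL D.Idx F) * ((u : GL D.Idx F) * G.xg p t) * (s : GL D.Idx F) = _
      rw [he]
      simp [xx, ← G.xg_add, mul_assoc]
    rw [e1, Hecke.ee_mem_mul (show s * ⟨a, haU⟩ * s⁻¹ ∈ UU D F from hsa)]
    rfl
  letI : Fintype ↥(UU D F) := Fintype.ofFinite _
  have hsq : (Nat.card F : ℂ) • (Hecke.ee (UU D F) ρ s * Hecke.ee (UU D F) ρ s) =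
      ∑ t : F, Hecke.ee (UU D F) ρ (s * xx G p t * s) := by
    have h0 : Hecke.ee (UU D F) ρ s * Hecke.ee (UU D F) ρ s =
        (Nat.card (UU D F) : ℂ)⁻¹ • ∑ u : UU D F, Hecke.ee (UU D F) ρ (s * u * s) := by
      simp only [Hecke.ee]
      simp only [mul_assoc]
      rw [← mul_assoc (Hecke.avg (UU D F) ρ) (Hecke.avg (UU D F) ρ), Hecke.avg_mul_avg]
      simp only [← mul_assoc]
      conv_lhs => arg 1; arg 1; arg 2; rw [Hecke.avg]
      simp only [mul_smul_comm, smul_mul_assoc, Finset.mul_sum, Finset.sum_mul, map_mul, mul_assoc]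
    have h1 : ∀ t : F, ∑ u : UU D F, Hecke.ee (UU D F) ρ (s * ((u : ↥(D.group F)) * xx G p t) * s) =
        ∑ u : UU D F, Hecke.ee (UU D F) ρ (s * u * s) := fun t =>
      Fintype.sum_equiv (Equiv.mulRight ⟨_, hxU t⟩) _ _ fun u => by simp
    have h2 : (Fintype.card F) • ∑ u : UU D F, Hecke.ee (UU D F) ρ (s * u * s) =
        (Fintype.card (UU D F)) • ∑ t : F, Hecke.ee (UU D F) ρ (s * xx G p t * s) := by
      calc _ = ∑ t : F, ∑ u : UU D F,
            Hecke.ee (UU D F) ρ (s * ((u : ↥(D.group F)) * xx G p t) * s) := by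
            rw [Fintype.sum_congr _ _ h1, Finset.sum_const, Finset.card_univ]
        _ = _ := by
            rw [Finset.sum_comm, Fintype.sum_congr _ _ fun u : UU D F => hshift u u.2,
              Finset.sum_const, Finset.card_univ]
    rw [h0, smul_comm, Nat.cast_smul_eq_nsmul ℂ, Nat.card_eq_fintype_card (α := F), h2,
      ← Nat.cast_smul_eq_nsmul ℂ, smul_smul, Nat.card_eq_fintype_card,
      inv_mul_cancel₀ (Nat.cast_ne_zero.2 Fintype.card_ne_zero), one_smul]
  have hsum : ∑ t : F, Hecke.ee (UU D F) ρ (s * xx G p t * s) = Hecke.ee (UU D F) ρ (s * s) +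
      (∑ a : Fˣ, Hecke.ee (UU D F) ρ (hh G p (a : F) * (s * s))) * Hecke.ee (UU D F) ρ s := by
    rw [← Finset.add_sum_erase _ _ (Finset.mem_univ (0 : F))]
    congr 1
    · congr 1
      apply Subtype.ext
      simp [xx, G.xg_zero]
    · rw [Finset.sum_mul]
      symm
      refine Finset.sum_bij (fun (a : Fˣ) _ => (a : F)⁻¹) (fun a _ => ?_) (fun a _ b _ h => ?_)
        (fun t ht => ?_) (fun a _ => (hterm a a.ne_zero).symm)
      · exact Finset.mem_erase.2 ⟨inv_ne_zero a.ne_zero, Finset.mem_univ _⟩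
      · exact Units.ext (inv_injective h)
      · exact ⟨Units.mk0 t⁻¹ (inv_ne_zero (Finset.mem_erase.1 ht).1), Finset.mem_univ _, inv_inv t⟩
  rw [Hecke.TT, orb_ns G i, smul_mul_assoc, mul_smul_comm, mul_smul_comm, hsq, hsum, smul_add]

/-- The compressions of the generators are those of the Steinberg character. -/
def Nice (G : Good D) : Prop :=
  (∀ h : ↥(D.group F), (h : GL D.Idx F) ∈ D.diagonalSubgroup F →
      Hecke.ee (UU D F) ρ h = Hecke.avg (UU D F) ρ) ∧
    ∀ i : Fin D.rank, Hecke.ee (UU D F) ρ (ns G i) = (-(Nat.card F : ℂ)⁻¹) • Hecke.avg (UU D F) ρ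

theorem natCast_smul_mem {O : Subalgebra ℤ ℂ} (k : ℕ) {A : Module.End ℂ (Fin r → ℂ)}
    (hA : A ∈ Hecke.order (UU D F) ρ O) : k • A ∈ Hecke.order (UU D F) ρ O := nsmul_mem hA k

variable (p : ℕ) [Fact p.Prime] [CharP F p]

include G in
theorem isPGroup_UU : IsPGroup p ↥(UU D F) := by
  intro u
  obtain ⟨k, hk⟩ := ChevUnip.order_of_mem_pos (G := G) (F := F) p (u := (u : ↥(D.group F))) u.2
  exact ⟨k, Subtype.ext (by rw [Subgroup.coe_pow, ← hk, pow_orderOf_eq_one]; rfl)⟩

include G in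
theorem card_UU : Nat.card ↥(UU D F) = Nat.card F ^ (D.nroots / 2) := by
  classical
  rw [UU, Nat.card_congr (Subgroup.subgroupOfEquivOfLe G.posUnipotent_le_group).toEquiv,
    G.posUnipotent_eq, G.card_posSub G.posClosed_univ, G.card_posRoots]

include G in
theorem not_dvd_index_UU : ∃ M, Nat.card ↥(D.group F) = Nat.card ↥(UU D F) * M ∧ ¬ p ∣ M := by
  classical
  refine ⟨Nat.card ↥(D.diagonalSubgroup F) * fixJK G F Finset.univ ∅ 1, ?_, ?_⟩
  · have hB : Nat.card ↥(G.bnPair (F := F)).B =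
        Nat.card ↥(UU D F) * Nat.card ↥(D.diagonalSubgroup F) := by
      rw [show (G.bnPair (F := F)).B = (D.borelSubgroup F).subgroupOf (D.group F) from rfl,
        Nat.card_congr (Subgroup.subgroupOfEquivOfLe G.borel_le_group).toEquiv, G.card_borel,
        card_UU (G := G), Nat.card_eq_fintype_card (α := F)]
    have h0 : pJ G F (∅ : Finset (Fin D.rank)) = (G.bnPair (F := F)).B := by
      simp [pJ, BNW.par, BNPair.parabolic, Subgroup.closure_empty]
    have hidx : fixJK G F Finset.univ ∅ 1 = (G.bnPair (F := F)).B.index := by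
      rw [← h0, fixJK, Subgroup.index]
      refine Nat.card_congr (Equiv.subtypeUnivEquiv fun c => ?_)
      obtain ⟨x, rfl⟩ := QuotientGroup.mk_surjective c
      exact ⟨⟨x, by rw [ChevUnip.pJ_univ]; trivial, rfl⟩, one_smul _ _⟩
    rw [← (G.bnPair (F := F)).B.card_mul_index, hB, hidx, mul_assoc]
  · intro h
    rcases (Fact.out : p.Prime).dvd_mul.1 h with h1 | h1
    · exact ((Fact.out : p.Prime).coprime_iff_not_dvd).1 (ChevUnip.coprime_diagonal (G := G) p) h1
    · exact ChevUnip.not_dvd_index p Finset.univ h1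

include G p in
/-- A defect zero representation has the compressions of the Steinberg representation. -/
theorem nice_of_degree [ρ.IsIrreducible] {m : ℕ} (hm : r = Nat.card ↥(UU D F) * m) : Nice ρ G := by
  classical
  have hp : p.Prime := Fact.out
  obtain ⟨M, hM, hpM⟩ := not_dvd_index_UU (G := G) (F := F) p
  obtain ⟨f, hf, hqf⟩ := ChevUnip.card_eq_pow (F := F) p
  set U := UU D F
  set Q : ↥(D.group F) → Prop := fun g =>
    ∃ n : ↥(D.group F), IsLongN G (n : GL D.Idx F) ∧ ∃ u ∈ U, ∃ v ∈ U, g = u * n * v with hQdef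
  have hQ : ∀ u ∈ U, ∀ v ∈ U, ∀ g, Q (u * g * v) ↔ Q g := by
    intro u hu v hv g
    constructor
    · rintro ⟨n, hn, a, ha, b, hb, he⟩
      exact ⟨n, hn, u⁻¹ * a, mul_mem (inv_mem hu) ha, b * v⁻¹, mul_mem hb (inv_mem hv), by
        rw [show g = u⁻¹ * (u * g * v) * v⁻¹ by group, he]; group⟩
    · rintro ⟨n, hn, a, ha, b, hb, rfl⟩
      exact ⟨n, hn, u * a, mul_mem hu ha, b * v, mul_mem hb hv, by group⟩
  have hst : ∀ g, ¬ Q g →
      MulAction.stabilizer U (QuotientGroup.mk g⁻¹ : ↥(D.group F) ⧸ U) ≠ ⊥ := by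
    intro g hg hbot
    obtain ⟨n, hn, hx⟩ := BNW.exists_cell (P := G.bnPair (F := F)) g⁻¹
    obtain ⟨b, hb, b', hb', he⟩ := BN.mem_cell.1 hx
    obtain ⟨u, hu, h, hh', hbe⟩ := G.mem_borel.1 (show (b : GL D.Idx F) ∈ D.borelSubgroup F from hb)
    obtain ⟨v, hv, k, hk, hbe'⟩ := G.mem_borel.1 (show (b' : GL D.Idx F) ∈ D.borelSubgroup F from hb')
    have huG : u ∈ D.group F := G.posUnipotent_le_group hu
    have hkG : k ∈ D.group F := G.diagonal_le_group hk
    have hhG : h ∈ D.group F := G.diagonal_le_group hh'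
    have hv' : k⁻¹ * v * k ∈ D.posUnipotent F := by
      simpa using (Subgroup.mem_normalizer_iff.1 (G.diagonal_le_normalizer_pos (inv_mem hk)) v).1 hv
    set n' : ↥(D.group F) := ⟨h, hhG⟩ * n * ⟨k, hkG⟩
    set v' : ↥(D.group F) := ⟨k⁻¹ * v * k, G.posUnipotent_le_group hv'⟩
    have hge : g⁻¹ = ⟨u, huG⟩ * n' * v' := by
      apply Subtype.ext
      rw [he]
      show (b : GL D.Idx F) * (n : GL D.Idx F) * (b' : GL D.Idx F) = _
      rw [hbe, hbe']
      simp [n', v', mul_assoc]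
    have hn'N : (n' : GL D.Idx F) ∈ D.monomialSubgroup F :=
      mul_mem (mul_mem (Subgroup.mem_sup_left hh') (ChevUnip.mem_monomial G hn)) (Subgroup.mem_sup_left hk)
    have hnot : ¬ IsLongN G (n' : GL D.Idx F)⁻¹ := by
      intro hl
      refine hg ⟨n'⁻¹, hl, v'⁻¹, inv_mem (show v' ∈ U from hv'), ⟨u, huG⟩⁻¹,
        inv_mem (show (⟨u, huG⟩ : ↥(D.group F)) ∈ U from hu), ?_⟩
      rw [← inv_inv g, hge]
      group
    obtain ⟨s, hs, hsn⟩ : ∃ s : Fin D.nroots, D.IsPosRoot s ∧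
        ¬ D.IsNegRoot (G.perm (n' : GL D.Idx F)⁻¹ s) := by
      by_contra hc
      push Not at hc
      exact hnot ⟨inv_mem hn'N, hc⟩
    obtain ⟨c, hc⟩ := G.conj_xg_eq (inv_mem hn'N) s
    have h1 := hc 1
    rw [inv_inv] at h1
    set w : ↥(D.group F) := ⟨u, huG⟩ * xx G s 1 * ⟨u, huG⟩⁻¹ with hwd
    have hwU : w ∈ U := mul_mem (mul_mem hu (G.xg_mem_pos hs 1)) (inv_mem hu)
    have hwst : (⟨w, hwU⟩ : U) ∈ MulAction.stabilizer U (QuotientGroup.mk g⁻¹ : ↥(D.group F) ⧸ U) := by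
      rw [Hecke.mem_stab, hge]
      rw [show (⟨u, huG⟩ * n' * v')⁻¹ * ((⟨w, hwU⟩ : U) : ↥(D.group F)) * (⟨u, huG⟩ * n' * v') =
        v'⁻¹ * (n'⁻¹ * xx G s 1 * n') * v' by simp only [hwd]; group]
      refine mul_mem (mul_mem (inv_mem hv') ?_) hv'
      show (n' : GL D.Idx F)⁻¹ * G.xg s 1 * (n' : GL D.Idx F) ∈ D.posUnipotent F
      rw [h1]
      exact G.xg_mem_pos ((G.isPosRoot_iff_not_neg (G.perm (n' : GL D.Idx F)⁻¹ s).2).2 hsn) _
    rw [hbot, Subgroup.mem_bot] at hwst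
    have h2 : xx G (F := F) s 1 = 1 := conj_eq_one_iff.1 (congrArg Subtype.val hwst)
    exact one_ne_zero ((G.xg_eq_one_iff s.2 (1 : F)).1 (congrArg Subtype.val h2))
  obtain ⟨O, hO, X, Y, hX, hY, hMP⟩ :=
    Hecke.exists_congruence (ρ := ρ) hp (isPGroup_UU (G := G) p) hM hm Q hQ hst
  set P := Hecke.avg U ρ with hPdef
  set R := Hecke.order U ρ O
  have hmulR : ∀ {A B}, A ∈ R → B ∈ R → A * B ∈ R := fun ha hb => Hecke.order_mul_mem O ha hb
  have hdiag : ∀ h : ↥(D.group F), (h : GL D.Idx F) ∈ D.diagonalSubgroup F →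
      Hecke.ee U ρ h ∈ R := by
    intro h hd
    have h1 : Hecke.orb U h = 1 := by
      rw [Hecke.orb, Nat.card_eq_one_iff_exists]
      refine ⟨⟨_, MulAction.mem_orbit_self _⟩, ?_⟩
      rintro ⟨c, ⟨u, hu⟩, rfl⟩
      refine Subtype.ext ?_
      change (QuotientGroup.mk (u * h) : ↥(D.group F) ⧸ U) = QuotientGroup.mk h
      rw [QuotientGroup.eq]
      have := (Subgroup.mem_normalizer_iff''.1 (diag_mem_normalizer (F := F) hd G) u⁻¹).1 (inv_mem hu)
      rwa [_root_.mul_inv_rev]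
    have h2 := Hecke.TT_mem (U := U) (ρ := ρ) O h
    rwa [Hecke.TT, h1, Nat.cast_one, one_smul] at h2
  have hPR : P ∈ R := by
    have := hdiag 1 (one_mem _)
    rwa [Hecke.ee_one] at this
  have key : ∀ i : Fin D.rank,
      (∀ a : Fˣ, Hecke.ee U ρ (hh G (D.simple i) (a : F)) = P) ∧
        Hecke.TT U ρ (ns G i) = -P := by
    intro i
    set T := Hecke.TT U ρ (ns G i) with hTdef
    have hs2 : ((ns G i * ns G i : ↥(D.group F)) : GL D.Idx F) ∈ D.diagonalSubgroup F :=
      G.ng_simple_sq_mem (F := F) i.2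
    have hTR : T ∈ R := Hecke.TT_mem O _
    have hTP : T * P = T := by rw [hTdef, Hecke.TT, smul_mul_assoc, hPdef, Hecke.ee_mul_avg]
    set E₁ := ∑ a : Fˣ, Hecke.ee U ρ (hh G (D.simple i) (a : F) * (ns G i * ns G i)) with hEdef
    have hE : E₁ ∈ R := Submodule.sum_mem _ fun a _ => hdiag _
      (mul_mem (G.hg_mem_diagonal (G.simple_lt i.2) a.ne_zero) hs2)
    have hEP : E₁ * P = E₁ := by
      rw [hEdef, Finset.sum_mul]
      exact Fintype.sum_congr _ _ fun a => Hecke.ee_mul_avg _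
    have hsq : T * T = (Nat.card F : ℂ) • Hecke.ee U ρ (ns G i * ns G i) + E₁ * T := TT_sq ρ i
    obtain ⟨X', hX', rfl⟩ : ∃ X' ∈ R, X = T * X' := by
      clear hMP
      induction hX using Submodule.span_induction with
      | mem x hx =>
        obtain ⟨g, ⟨n, hn, u, hu, v, hv, rfl⟩, rfl⟩ := hx
        refine ⟨_, Hecke.TT_mem O ((ns G i)⁻¹ * n), ?_⟩
        have hdc : Hecke.dc U (u * n * v) = Hecke.dc U n := Hecke.dc_eq_iff.2 ⟨u, hu, v, hv, rfl⟩
        have horb : Hecke.orb U (u * n * v) = Hecke.orb U n := by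
          rw [Hecke.orb, Hecke.orb]
          exact congrArg (fun c : Set (↥(D.group F) ⧸ U) => Nat.card c)
            (MulAction.orbit_eq_iff.2 (Quotient.eq''.1 hdc))
        have hm' : (((ns G i)⁻¹ * n : ↥(D.group F)) : GL D.Idx F) ∈ D.monomialSubgroup F :=
          mul_mem (inv_mem (G.ng_mem_monomial (G.simple_lt i.2))) hn.1
        have hpos : D.IsPosRoot (G.perm (((ns G i)⁻¹ * n : ↥(D.group F)) : GL D.Idx F)⁻¹ (G.simpleF i)) := by
          show D.IsPosRoot (G.perm (((G.ng (D.simple i) (1 : F))⁻¹ * (n : GL D.Idx F))⁻¹) (G.simpleF i))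
          rw [_root_.mul_inv_rev, inv_inv, G.perm_mul (inv_mem hn.1) (G.ng_mem_monomial (G.simple_lt i.2)),
            G.perm_ng_simple, Equiv.Perm.mul_apply, G.sPerm_simple, G.perm_negF (inv_mem hn.1)]
          exact G.isPosRoot_neg (hn.inv.2 _ (G.isPosRoot_simple i.2))
        rw [hTdef, Hecke.TT, Hecke.TT, Hecke.TT, horb, Hecke.ee_congr hdc, smul_mul_assoc, mul_smul_comm,
          smul_smul, ee_mul_of_pos ρ i hm' hpos, mul_inv_cancel_left, orb_ns G i, orb_long G hn,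
          orb_long_div G hn i, ← Nat.cast_mul, ← pow_succ']
        congr 3
        have h1 : 0 < D.nroots := lt_of_le_of_lt (Nat.zero_le _) (G.simple_lt i.2)
        have := G.even_nroots
        omega
      | zero => exact ⟨0, zero_mem _, (mul_zero _).symm⟩
      | add x y _ _ ihx ihy =>
        obtain ⟨a, ha, rfl⟩ := ihx
        obtain ⟨b, hb, rfl⟩ := ihy
        exact ⟨a + b, add_mem ha hb, (mul_add _ _ _).symm⟩
      | smul c x _ ihx =>
        obtain ⟨a, ha, rfl⟩ := ihx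
        exact ⟨c • a, Submodule.smul_mem _ _ ha, (mul_smul_comm _ _ _).symm⟩
    -- `M (T - E₁)` is divisible by `p`
    obtain ⟨Z, hZ, hTE⟩ : ∃ Z ∈ R, M • (T - E₁) = p • Z := by
      refine ⟨p ^ (f - 1) • (Hecke.ee U ρ (ns G i * ns G i) * X') + (T - E₁) * Y,
        add_mem (nsmul_mem (hmulR (hdiag _ hs2) hX') _) (hmulR (sub_mem hTR hE) hY), ?_⟩
      have h1 : (T - E₁) * (M • P) = M • (T - E₁) := by rw [mul_smul_comm, sub_mul, hTP, hEP]
      rw [← h1, hMP, mul_add, mul_smul_comm, ← mul_assoc, sub_mul, hsq, add_sub_cancel_right,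
        smul_mul_assoc, Nat.cast_smul_eq_nsmul ℂ, hqf, smul_add, smul_smul, ← pow_succ',
        show f - 1 + 1 = f by omega]
    -- `M ^ 2 P ≡ E₁ M X'`
    obtain ⟨W, hW, hMMP⟩ : ∃ W ∈ R, (M * M) • P = E₁ * (M • X') + p • W := by
      refine ⟨Z * X' + M • Y, add_mem (hmulR hZ hX') (nsmul_mem hY _), ?_⟩
      rw [mul_smul, hMP, smul_add, ← smul_mul_assoc, show M • T = M • E₁ + p • Z by
        rw [← hTE, smul_sub]; abel, add_mul, smul_mul_assoc, smul_mul_assoc, mul_smul_comm, smul_add,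
        smul_comm M p Y]
      abel
    have hhc : ∀ a : Fˣ, Hecke.ee U ρ (hh G (D.simple i) (a : F)) = P := by
      intro a
      have hd : ((hh G (D.simple i) (a : F) : ↥(D.group F)) : GL D.Idx F) ∈ D.diagonalSubgroup F :=
        G.hg_mem_diagonal (G.simple_lt i.2) a.ne_zero
      set H := Hecke.ee U ρ (hh G (D.simple i) (a : F)) with hHdef
      have hHE : H * E₁ = E₁ := by
        rw [hEdef, Finset.mul_sum]
        refine Fintype.sum_equiv (Equiv.mulLeft a) _ _ fun b => ?_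
        rw [hHdef, Hecke.normalizer_mul_ee (diag_mem_normalizer (F := F) hd G), ← mul_assoc]
        congr 2
        apply Subtype.ext
        show G.hg (D.simple i) (a : F) * G.hg (D.simple i) (b : F) = G.hg (D.simple i) ((a * b : Fˣ) : F)
        rw [Units.val_mul, G.hg_mul_hg (G.simple_lt i.2) a.ne_zero b.ne_zero]
      have hzE : (H - P) * E₁ = 0 := by
        rw [sub_mul, hHE]
        have hPE : P * E₁ = E₁ := by
          rw [hEdef, Finset.mul_sum]
          exact Fintype.sum_congr _ _ fun b => Hecke.avg_mul_ee _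
        rw [hPE, sub_self]
      have h1 : (H - P) * ((M * M) • P) = (M * M) • (H - P) := by
        rw [mul_smul_comm, sub_mul, hHdef, Hecke.ee_mul_avg, Hecke.avg_mul_avg]
      refine sub_eq_zero.1 (Hecke.eq_zero_of_smul_eq O (p := p) (a := M * M) hp.one_lt ?_
        (sub_mem (hdiag _ hd) hPR) hW ?_)
      · exact Nat.Coprime.mul_left (hp.coprime_iff_not_dvd.2 hpM).symm (hp.coprime_iff_not_dvd.2 hpM).symm
      · rw [← h1, hMMP, mul_add, ← mul_assoc, hzE, zero_mul, zero_add, mul_smul_comm]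
    refine ⟨hhc, ?_⟩
    have hs2P : Hecke.ee U ρ (ns G i * ns G i) = P := by
      have he : ns G (F := F) i * ns G i = hh G (D.simple i) ((-1 : Fˣ) : F) := by
        apply Subtype.ext
        show G.ng (D.simple i) (1 : F) * G.ng (D.simple i) 1 = G.hg (D.simple i) ((-1 : Fˣ) : F)
        have h1 : G.ng (D.simple i) (1 : F) * G.ng (D.simple i) 1 = (G.hg (D.simple i) (-1 : F))⁻¹ := by
          rw [Good.hg, _root_.mul_inv_rev, G.ng_inv, _root_.neg_neg]
        rw [h1]
        refine inv_eq_of_mul_eq_one_right ?_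
        rw [Units.val_neg, Units.val_one, G.hg_mul_hg (G.simple_lt i.2) (neg_ne_zero.2 one_ne_zero)
          (neg_ne_zero.2 one_ne_zero), neg_mul_neg, one_mul, G.hg_one (G.simple_lt i.2)]
      rw [he]; exact hhc _
    have hE' : E₁ = ((Nat.card F : ℂ) - 1) • P := by
      have : ∀ a : Fˣ, Hecke.ee U ρ (hh G (D.simple i) (a : F) * (ns G i * ns G i)) = P := fun a => by
        rw [← Hecke.normalizer_mul_ee (diag_mem_normalizer (F := F)
          (G.hg_mem_diagonal (G.simple_lt i.2) a.ne_zero : ((hh G (D.simple i) (a : F) : ↥(D.group F)) :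
            GL D.Idx F) ∈ _) G), hhc, hs2P, Hecke.avg_mul_avg]
      rw [hEdef, Fintype.sum_congr _ _ this, Finset.sum_const, Finset.card_univ, ← Nat.card_eq_fintype_card,
        Nat.card_units, ← Nat.cast_smul_eq_nsmul ℂ, Nat.cast_sub (Nat.card_pos), Nat.cast_one]
    have hPT : P * T = T := by rw [hTdef, Hecke.TT, mul_smul_comm, hPdef, Hecke.avg_mul_ee]
    set z := T + P
    have hzR : z ∈ R := add_mem hTR hPR
    have hzz : z * z = (Nat.card F + 1) • z := by
      rw [add_mul, mul_add, mul_add, hsq, hTP, hPT, hs2P, hE', smul_mul_assoc, hPT, Hecke.avg_mul_avg]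
      simp only [z, ← Nat.cast_smul_eq_nsmul ℂ, Nat.cast_add, Nat.cast_one, hPdef]
      module
    have hMz : M • z = p • (Z + (M * p ^ (f - 1)) • P) := by
      rw [show p • (Z + (M * p ^ (f - 1)) • P) = p • Z + p • ((M * p ^ (f - 1)) • P) from smul_add _ _ _,
        ← hTE, smul_smul, show p * (M * p ^ (f - 1)) = M * Nat.card F by
        rw [hqf, show p ^ f = p ^ (f - 1) * p by rw [← pow_succ, show f - 1 + 1 = f by omega]]; ring,
        mul_smul, ← smul_add]
      congr 1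
      rw [hE', ← Nat.cast_smul_eq_nsmul ℂ (Nat.card F)]
      simp only [z]
      module
    have hW2 : Z + (M * p ^ (f - 1)) • P ∈ R := add_mem hZ (nsmul_mem hPR _)
    have hz0 : z = 0 := by
      refine Hecke.eq_zero_of_smul_eq O (p := p) (a := M * (Nat.card F + 1)) hp.one_lt ?_ hzR hW2 ?_
      · refine Nat.Coprime.mul_left (hp.coprime_iff_not_dvd.2 hpM).symm
          (hp.coprime_iff_not_dvd.2 fun h => ?_).symm
        have h2 : p ∣ Nat.card F := hqf ▸ dvd_pow_self p hf.ne'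
        exact hp.one_lt.ne' (Nat.dvd_one.1 ((Nat.dvd_add_right h2).1 h))
      · rw [mul_smul, ← hzz, ← mul_smul_comm, hMz, mul_smul_comm]
    exact eq_neg_of_add_eq_zero_left hz0
  refine ⟨fun h hd => ?_, fun i => ?_⟩
  · obtain ⟨z, hz⟩ := G.mem_diagonal.1 hd
    let S : Submonoid (Fin D.rank → Fˣ) :=
      { carrier := {z | ∀ h : ↥(D.group F), (h : GL D.Idx F) = G.torus z → Hecke.ee U ρ h = P}
        one_mem' := fun h he => by
          rw [map_one] at he
          rw [show h = 1 from Subtype.ext he, Hecke.ee_one]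
        mul_mem' := fun {a b} ha hb h he => by
          have hag : G.torus a ∈ D.group F := G.diagonal_le_group (G.mem_diagonal.2 ⟨a, rfl⟩)
          have hbg : G.torus b ∈ D.group F := G.diagonal_le_group (G.mem_diagonal.2 ⟨b, rfl⟩)
          rw [show h = (⟨_, hag⟩ : ↥(D.group F)) * ⟨_, hbg⟩ from Subtype.ext (by rw [he, map_mul]; rfl),
            ← Hecke.normalizer_mul_ee (diag_mem_normalizer (F := F) (h := ⟨_, hag⟩)
              (G.mem_diagonal.2 ⟨a, rfl⟩) G), ha _ rfl, hb _ rfl, Hecke.avg_mul_avg] }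
    have hzS : z ∈ S := by
      rw [← Finset.univ_prod_mulSingle z]
      refine Submonoid.prod_mem _ fun k _ h he => ?_
      rw [show h = hh G (D.simple k) ((z k : Fˣ) : F) from
        Subtype.ext (he.trans (G.torus_mulSingle k (z k)))]
      exact (key k).1 (z k)
    exact hzS h hz
  · have h := (key i).2
    rw [Hecke.TT, orb_ns G i] at h
    have hq : (Nat.card F : ℂ) ≠ 0 := Nat.cast_ne_zero.2 Nat.card_pos.ne'
    rw [← inv_smul_smul₀ hq (Hecke.ee U ρ (ns G i)), h, smul_neg]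
    exact (neg_smul _ _).symm

omit [Fact p.Prime] [CharP F p] in
/-- The compressions are universal. -/
theorem exists_scalar_of_nice (g : ↥(D.group F)) :
    ∃ c : ℂ, ∀ (r : ℕ) (ρ : Representation ℂ ↥(D.group F) (Fin r → ℂ)), Nice ρ G →
      Hecke.ee (UU D F) ρ g = c • Hecke.avg (UU D F) ρ := by
  classical
  have hN : ∀ (k : ℕ) (n : ↥(D.group F)) (hn : n ∈ (G.bnPair (F := F)).N),
      (ChevUnip.invF (BNW.cls n hn)⁻¹).card = k →
      ∃ c : ℂ, ∀ (r : ℕ) (ρ : Representation ℂ ↥(D.group F) (Fin r → ℂ)), Nice ρ G →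
        Hecke.ee (UU D F) ρ n = c • Hecke.avg (UU D F) ρ := by
    intro k
    induction k using Nat.strong_induction_on with
    | _ k ih =>
      intro n hn hk
      have hnN : (n : GL D.Idx F) ∈ D.monomialSubgroup F := hn
      by_cases hd : ∀ i, D.IsPosRoot (G.perm (n : GL D.Idx F)⁻¹ (G.simpleF i))
      · refine ⟨1, fun r ρ hρ => ?_⟩
        have h1 := G.mem_diagonal_of_pos (inv_mem hnN) hd
        rw [one_smul]
        exact hρ.1 n (by simpa using inv_mem h1)
      · push Not at hd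
        obtain ⟨i, hi⟩ := hd
        have hneg := (G.isPosRoot_or_isNegRoot (G.perm (n : GL D.Idx F)⁻¹ (G.simpleF i)).2).resolve_left hi
        have hsN : ns G (F := F) i ∈ (G.bnPair (F := F)).N := G.ng_mem_monomial (G.simple_lt i.2)
        set n' := (ns G i)⁻¹ * n with hn'def
        have hn' : n' ∈ (G.bnPair (F := F)).N := mul_mem (inv_mem hsN) hn
        have hpos : D.IsPosRoot (G.perm (n' : GL D.Idx F)⁻¹ (G.simpleF i)) := by
          show D.IsPosRoot (G.perm (((G.ng (D.simple i) (1 : F))⁻¹ * (n : GL D.Idx F))⁻¹) (G.simpleF i))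
          rw [_root_.mul_inv_rev, inv_inv, G.perm_mul (inv_mem hnN) (G.ng_mem_monomial (G.simple_lt i.2)),
            G.perm_ng_simple, Equiv.Perm.mul_apply, G.sPerm_simple, G.perm_negF (inv_mem hnN)]
          exact G.isPosRoot_neg hneg
        have hlong : ChevUnip.IsLongest (F := F) G {i} (BNW.gen (e G F i)) :=
          ⟨ChevUnip.InW.gen_mem (Finset.mem_singleton_self i), fun j hj => by
            rw [Finset.mem_singleton.1 hj, ChevUnip.prm_gen, G.sPerm_simple]
            exact G.isNegRoot_neg (G.isPosRoot_simple i.2)⟩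
        have hcls : (BNW.cls n hn)⁻¹ = (BNW.cls n' hn')⁻¹ * BNW.gen (e G F i) := by
          apply ChevUnip.prm_injective G
          rw [ChevUnip.prm_mul, ChevUnip.prm_inv, ChevUnip.prm_inv, ChevUnip.prm_cls, ChevUnip.prm_cls,
            ChevUnip.prm_gen, ← G.perm_inv hnN, ← G.perm_inv (show (n' : GL D.Idx F) ∈ _ from hn'),
            show ((n' : GL D.Idx F))⁻¹ = (n : GL D.Idx F)⁻¹ * G.ng (D.simple i) (1 : F) by
              show ((G.ng (D.simple i) (1 : F))⁻¹ * (n : GL D.Idx F))⁻¹ = _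
              group,
            G.perm_mul (inv_mem hnN) (G.ng_mem_monomial (G.simple_lt i.2)), G.perm_ng_simple, mul_assoc,
            G.sPerm_mul_self, mul_one]
        have hcard := ChevUnip.card_invF_mul (w := (BNW.cls n' hn')⁻¹) hlong fun j hj => by
          rw [Finset.mem_singleton.1 hj, ChevUnip.prm_inv, ChevUnip.prm_cls,
            ← G.perm_inv (show (n' : GL D.Idx F) ∈ _ from hn')]
          exact hpos
        rw [← hcls, hk] at hcard
        have hgt : 0 < (ChevUnip.invF (BNW.gen (e G F i))).card :=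
          Finset.card_pos.2 ⟨G.simpleF i, ChevUnip.mem_invF.2 ⟨G.isPosRoot_simple i.2, by
            rw [ChevUnip.prm_gen, G.sPerm_simple]; exact G.isNegRoot_neg (G.isPosRoot_simple i.2)⟩⟩
        obtain ⟨c, hc⟩ := ih _ (by omega) n' hn' rfl
        refine ⟨-(Nat.card F : ℂ)⁻¹ * c, fun r ρ hρ => ?_⟩
        rw [show n = ns G i * n' by rw [hn'def, mul_inv_cancel_left],
          ← ee_mul_of_pos (G := G) ρ i (show (n' : GL D.Idx F) ∈ _ from hn') hpos, hρ.2 i, hc r ρ hρ,
          smul_mul_assoc, mul_smul_comm, Hecke.avg_mul_avg, smul_smul]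
  obtain ⟨n, hn, hx⟩ := BNW.exists_cell (P := G.bnPair (F := F)) g
  obtain ⟨b, hb, b', hb', rfl⟩ := BN.mem_cell.1 hx
  obtain ⟨c, hc⟩ := hN _ n hn rfl
  refine ⟨c, fun r ρ hρ => ?_⟩
  obtain ⟨u, hu, h, hh', hbe⟩ := G.mem_borel.1 (show (b : GL D.Idx F) ∈ D.borelSubgroup F from hb)
  obtain ⟨v, hv, k, hk, hbe'⟩ := G.mem_borel.1 (show (b' : GL D.Idx F) ∈ D.borelSubgroup F from hb')
  have hhG : h ∈ D.group F := G.diagonal_le_group hh'
  have hkG : k ∈ D.group F := G.diagonal_le_group hk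
  have hv' : k⁻¹ * v * k ∈ D.posUnipotent F := by
    simpa using (Subgroup.mem_normalizer_iff.1 (G.diagonal_le_normalizer_pos (inv_mem hk)) v).1 hv
  have e1 : b * n * b' = ⟨u, G.posUnipotent_le_group hu⟩ * (⟨h, hhG⟩ * n * ⟨k, hkG⟩) *
      ⟨k⁻¹ * v * k, G.posUnipotent_le_group hv'⟩ := by
    apply Subtype.ext
    show (b : GL D.Idx F) * (n : GL D.Idx F) * (b' : GL D.Idx F) = _
    rw [hbe, hbe']
    simp [mul_assoc]
  rw [e1, Hecke.ee_mul_mem (show (⟨_, G.posUnipotent_le_group hv'⟩ : ↥(D.group F)) ∈ UU D F from hv'),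
    Hecke.ee_mem_mul (show (⟨_, G.posUnipotent_le_group hu⟩ : ↥(D.group F)) ∈ UU D F from hu),
    ← Hecke.ee_mul_normalizer (diag_mem_normalizer (F := F) (h := ⟨k, hkG⟩) hk G),
    ← Hecke.normalizer_mul_ee (diag_mem_normalizer (F := F) (h := ⟨h, hhG⟩) hh' G), hρ.1 _ hh',
    hρ.1 ⟨k, hkG⟩ hk, hc r ρ hρ, mul_smul_comm, smul_mul_assoc, Hecke.avg_mul_avg, Hecke.avg_mul_avg]

include G p in
/-- Two characters of defect zero are equal. -/
theorem eq_of_defect_zero {χ ψ : ↥(D.group F) → ℂ} (hχ : Cfsg.IsIrrCharacter ↥(D.group F) χ)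
    (hψ : Cfsg.IsIrrCharacter ↥(D.group F) ψ) {a b : ℕ} (ha : χ 1 = (a : ℂ)) (hb : ψ 1 = (b : ℂ))
    (hda : Nat.card ↥(UU D F) ∣ a) (hdb : Nat.card ↥(UU D F) ∣ b) : χ = ψ := by
  classical
  choose c hc using fun g => exists_scalar_of_nice (G := G) (F := F) g
  have key : ∀ (θ : ↥(D.group F) → ℂ) (d : ℕ), Cfsg.IsIrrCharacter ↥(D.group F) θ → θ 1 = (d : ℂ) →
      Nat.card ↥(UU D F) ∣ d → d ≠ 0 ∧ ∀ x, (Nat.card ↥(D.group F) : ℂ) * θ x =
        (d : ℂ) * ∑ g, c (g⁻¹ * x * g) := by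
    rintro θ d ⟨r, ρ, hρ, rfl⟩ hd hdd
    have hrd : r = d := by
      rw [ρ.char_one, Module.finrank_fin_fun] at hd
      exact_mod_cast hd
    subst hrd
    obtain ⟨m, hm⟩ := hdd
    have hr0 : r ≠ 0 := by
      have := H25.finrank_pos_of_isIrreducible ρ
      rw [Module.finrank_fin_fun] at this
      omega
    refine ⟨hr0, fun x => ?_⟩
    refine (Hecke.char_eq_of_scalar (U := UU D F) (ρ := ρ)
      (fun g => hc g r ρ (nice_of_degree ρ p hm)) x).resolve_right ?_
    letI : Fintype ↥(UU D F) := Fintype.ofFinite _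
    rw [Hecke.avg_trace, Fintype.sum_eq_single 1 fun u hu => ?_]
    · rw [Subgroup.coe_one, hd]
      exact mul_ne_zero (inv_ne_zero (Nat.cast_ne_zero.2 Nat.card_pos.ne')) (Nat.cast_ne_zero.2 hr0)
    · obtain ⟨M, hM, hpM⟩ := not_dvd_index_UU (G := G) (F := F) p
      obtain ⟨j, hj⟩ := IsPGroup.iff_card.1 (isPGroup_UU (G := G) (F := F) p)
      refine H27.char_eq_zero_of_defect_zero ⟨ρ.character, r, ρ, hρ, rfl⟩ (n := j) (Fact.out : p.Prime)
        (by rw [hM, hj]; exact dvd_mul_right _ _) ?_ hd (by rw [hm, hj]; exact dvd_mul_right _ _) _ ?_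
      · rw [hM, hj, pow_succ]
        intro h
        exact hpM (Nat.dvd_of_mul_dvd_mul_left (pow_pos (Fact.out : p.Prime).pos j) h)
      · obtain ⟨l, hl⟩ := ChevUnip.order_of_mem_pos (G := G) (F := F) p (u := (u : ↥(D.group F))) u.2
        rw [hl]
        refine dvd_pow_self p fun h0 => hu ?_
        rw [h0, pow_zero, orderOf_eq_one_iff] at hl
        exact Subtype.ext hl
  obtain ⟨ha0, ha'⟩ := key χ a hχ ha hda
  obtain ⟨hb0, hb'⟩ := key ψ b hψ hb hdb
  have hG0 : (Nat.card ↥(D.group F) : ℂ) ≠ 0 := Nat.cast_ne_zero.2 Nat.card_pos.ne'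
  have hab : ∀ x, (b : ℂ) * χ x = (a : ℂ) * ψ x := fun x => mul_left_cancel₀ hG0 (by
    rw [mul_left_comm, ha', mul_left_comm (Nat.card ↥(D.group F) : ℂ) (a : ℂ) (ψ x), hb']
    ring)
  by_contra hne
  have h0 := H57.irr_inner_ne hψ hχ (Ne.symm hne)
  have h1 := H57.irr_inner_self hψ
  have hχ' : χ = fun x => ((a : ℂ) / (b : ℂ)) * ψ x := funext fun x => by
    rw [div_mul_eq_mul_div, eq_div_iff (Nat.cast_ne_zero.2 hb0), mul_comm, hab]
  rw [hχ'] at h0
  simp only [Cfsg.classInner, map_mul, map_div₀, Complex.conj_natCast] at h0 h1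
  simp only [mul_left_comm (ψ _), ← Finset.mul_sum] at h0
  rw [mul_left_comm, h1, mul_one, div_eq_zero_iff] at h0
  rcases h0 with h0 | h0
  · exact ha0 (Nat.cast_eq_zero.1 h0)
  · exact hb0 (Nat.cast_eq_zero.1 h0)

include G in
/-- The Steinberg character is the only irreducible character of `p`-defect zero. -/
theorem eq_steinberg {χ : ↥(D.group F) → ℂ} (hχ : Cfsg.IsIrrCharacter ↥(D.group F) χ)
    (hdeg : ∃ d : ℕ, χ 1 = (d : ℂ) ∧ p ^ (Nat.card ↥(D.group F)).factorization p ∣ d) :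
    χ = D.steinbergCharacter F := by
  classical
  obtain ⟨d, hd, hpd⟩ := hdeg
  obtain ⟨M, hM, hpM⟩ := not_dvd_index_UU (G := G) (F := F) p
  obtain ⟨j, hj⟩ := IsPGroup.iff_card.1 (isPGroup_UU (G := G) (F := F) p)
  have hSt := ChevSt.steinberg_eq_bnSt G (G.bnPair (F := F)) rfl rfl
  refine eq_of_defect_zero (G := G) p hχ (hSt ▸ BNW.isIrrCharacter_bnSt) hd
    (b := Nat.card F ^ (D.nroots / 2)) ?_ ?_ (card_UU (G := G)).dvd
  · rw [hSt, BNW.bnSt_apply_B (one_mem _), ChevUnip.cellFix_one]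
    have hl : ChevUnip.IsLongest (F := F) G Finset.univ (BNW.wlong (G.bnPair (F := F))) := by
      refine ⟨?_, fun i _ => (ChevUnip.isRDesc_iff G).1 (BNW.allDesc_wlong _)⟩
      obtain ⟨l, hl⟩ := BNW.ev_surjective (BNW.wlong (G.bnPair (F := F)))
      obtain ⟨L, rfl⟩ := List.map_surjective_iff.2 (ChevUnip.e_bijective G F).2 l
      exact ⟨L, fun i _ => Finset.mem_univ i, hl⟩
    rw [hl.card_invF, ChevUnip.nPhi_univ]
  · refine dvd_trans ?_ hpd
    rw [hj]
    refine pow_dvd_pow p (((Fact.out : p.Prime).pow_dvd_iff_le_factorization Nat.card_pos.ne').1 ?_)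
    rw [hM, hj]
    exact dvd_mul_right _ _

end Cfsg.Agent.H68.ChevDZ
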