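import Cfsg.Agent.H68.BNWeyl

/-!
# The centre of the Hecke algebra of a Weyl group, for positive parameters

The algebra acts on functions on the Weyl group. The image of the Casimir operator is the centre,
so the dimension of the centre is both lower and upper semicontinuous in the parameters.
-/

set_option autoImplicit false

namespace Cfsg.Agent.H68.BNH

open Cfsg Cfsg.Agent.H68.BNW
open scoped ComplexConjugate

variable {G : Type*} [Group G] {P : BNPair G}

/-- Admissible parameters. -/
structure Param (u : P.S → ℝ) : Prop where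
  pos : ∀ s, 0 < u s
  inv : ∀ (s t : P.S) (v : Wq P), len (gen s * v) = len v + 1 → gen s * v = v * gen t → u s = u t

theorem gen_mul_cancel (s : P.S) (v : Wq P) : gen s * (gen s * v) = v := by
  rw [← mul_assoc, gen_mul_self, one_mul]

theorem mul_gen_cancel (v : Wq P) (s : P.S) : v * gen s * gen s = v := by
  rw [mul_assoc, gen_mul_self, mul_one]

theorem len_mul_gen_or (w : Wq P) (s : P.S) :
    len (w * gen s) = len w + 1 ∨ len w = len (w * gen s) + 1 := by
  by_cases h : IsRDesc w s
  · right
    have h' : ¬ IsRDesc (w * gen s) s := by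
      rw [IsRDesc, mul_gen_cancel] at *
      omega
    have := len_mul_gen h'
    rwa [mul_gen_cancel] at this
  · exact Or.inl (len_mul_gen h)

theorem len_gen_mul_or (w : Wq P) (s : P.S) :
    len (gen s * w) = len w + 1 ∨ len w = len (gen s * w) + 1 := by
  have h := len_mul_gen_or w⁻¹ s
  rwa [show w⁻¹ * gen s = (gen s * w)⁻¹ by rw [_root_.mul_inv_rev, gen_inv], len_inv, len_inv] at h

theorem eq_of_fold {w : Wq P} {s t : P.S} (h1 : len (gen s * w) = len w + 1)
    (h2 : len (w * gen t) = len w + 1) (h3 : len (gen s * w * gen t) = len w) :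
    gen s * w = w * gen t := by
  obtain ⟨l, hl, hll⟩ := exists_word_len w
  have he : ev (l ++ [t]) = w * gen t := by rw [← hl]; simp [ev]
  have hlt : (l ++ [t]).length = len (ev (l ++ [t])) := by
    rw [he, List.length_append, h2, hll]; rfl
  rcases exchange_left hlt s with h | ⟨a, x, c, heq, h⟩
  · rw [he, ← mul_assoc, h3, List.length_append, hll, List.length_singleton] at h; omega
  rw [he] at h
  rcases List.eq_nil_or_concat c with rfl | ⟨c', y, rfl⟩
  · have h4 := List.append_inj' heq rfl
    rw [List.append_nil, ← h4.1, hl] at h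
    calc gen s * w = gen s * (w * gen t) * gen t := by rw [mul_assoc (gen s), mul_gen_cancel]
      _ = w * gen t := by rw [h]
  · have heq' : l ++ [t] = (a ++ x :: c') ++ [y] := by rw [heq]; simp
    obtain ⟨hla, hty⟩ := List.append_inj' heq' rfl
    have hty' : t = y := List.singleton_inj.1 hty
    have h5 : gen s * (w * gen t) = ev (a ++ c') * gen t := by
      rw [h, hty']; simp [ev, mul_assoc]
    have h4 : gen s * w = ev (a ++ c') := mul_right_cancel (by rw [mul_assoc, h5])
    have h6 := len_le (a ++ c')
    rw [← h4, h1] at h6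
    have h7 := congrArg List.length hla
    simp only [List.length_append, List.length_cons] at h6 h7
    omega

/-- The two sides move the length in the same way, unless they coincide. -/
theorem square {w : Wq P} {s t : P.S} (hne : gen s * w ≠ w * gen t) :
    (len w < len (gen s * w) ↔ len (w * gen t) < len (gen s * w * gen t)) ∧
      (len w < len (w * gen t) ↔ len (gen s * w) < len (gen s * w * gen t)) := by
  have a1 := len_gen_mul_or w s
  have a2 := len_mul_gen_or w t
  have a3 := len_mul_gen_or (gen s * w) t
  have a4 := len_gen_mul_or (w * gen t) s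
  rw [← mul_assoc] at a4
  have k1 : ¬ (len (gen s * w) = len w + 1 ∧ len (w * gen t) = len w + 1 ∧
      len (gen s * w * gen t) = len w) := fun h => hne (eq_of_fold h.1 h.2.1 h.2.2)
  have k2 : ¬ (len w = len (gen s * w) + 1 ∧ len w = len (w * gen t) + 1 ∧
      len (gen s * w * gen t) = len w) := fun h => hne (by
    have := eq_of_fold (w := gen s * w) (s := s) (t := t) (by rw [gen_mul_cancel]; omega)
      (by omega) (by rw [gen_mul_cancel]; omega)
    rw [gen_mul_cancel] at this
    conv_rhs => rw [this]
    rw [mul_gen_cancel])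
  constructor <;> constructor <;> intro h <;> omega

/-- Functions on the Weyl group. -/
abbrev Mdl (P : BNPair G) : Type _ := Wq P → ℂ

/-- Inversion of the argument. -/
def flipW : Module.End ℂ (Mdl P) where
  toFun f w := f w⁻¹
  map_add' _ _ := rfl
  map_smul' _ _ := rfl

theorem flipW_apply (f : Mdl P) (w : Wq P) : flipW f w = f w⁻¹ := rfl

theorem flipW_flipW (f : Mdl P) : flipW (flipW f) = f := by funext w; simp [flipW_apply]

theorem flipW_mul_self : (flipW : Module.End ℂ (Mdl P)) * flipW = 1 := LinearMap.ext flipW_flipW

variable (u : P.S → ℝ)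

/-- Left multiplication by the generator of `s`, in function coordinates. -/
noncomputable def opL (s : P.S) : Module.End ℂ (Mdl P) where
  toFun f w := if len w < len (gen s * w) then (u s : ℂ) * f (gen s * w)
    else f (gen s * w) + ((u s : ℂ) - 1) * f w
  map_add' f g := by funext w; simp only [Pi.add_apply]; split_ifs <;> ring
  map_smul' c f := by
    funext w; simp only [Pi.smul_apply, smul_eq_mul, RingHom.id_apply]; split_ifs <;> ring

theorem opL_apply (s : P.S) (f : Mdl P) (w : Wq P) :
    opL u s f w = if len w < len (gen s * w) then (u s : ℂ) * f (gen s * w)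
      else f (gen s * w) + ((u s : ℂ) - 1) * f w := rfl

/-- Right multiplication by the generator of `s`. -/
noncomputable def opR (s : P.S) : Module.End ℂ (Mdl P) := flipW * opL u s * flipW

theorem opR_apply (s : P.S) (f : Mdl P) (w : Wq P) :
    opR u s f w = if len w < len (w * gen s) then (u s : ℂ) * f (w * gen s)
      else f (w * gen s) + ((u s : ℂ) - 1) * f w := by
  rw [opR, Module.End.mul_apply, Module.End.mul_apply, flipW_apply, opL_apply]
  simp only [flipW_apply, inv_inv]
  rw [show gen s * w⁻¹ = (w * gen s)⁻¹ by rw [_root_.mul_inv_rev, gen_inv], len_inv, len_inv, inv_inv]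

variable {u}

theorem opL_opR (hu : Param u) (s t : P.S) (f : Mdl P) :
    opL u s (opR u t f) = opR u t (opL u s f) := by
  funext w
  by_cases hab : gen s * w = w * gen t
  · have hwt : gen s * w * gen t = w := by rw [hab, mul_gen_cancel]
    have hut : u s = u t := by
      rcases len_gen_mul_or w s with h | h
      · exact hu.inv s t w h hab
      · exact hu.inv s t (gen s * w) (by rwa [gen_mul_cancel]) (by rw [gen_mul_cancel, hwt])
    have e1 : ∀ g : Mdl P, opR u t g w = opL u s g w := fun g => by
      rw [opR_apply, opL_apply, ← hab, hut]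
    have e2 : ∀ g : Mdl P, opR u t g (gen s * w) = opL u s g (gen s * w) := fun g => by
      rw [opR_apply, opL_apply, gen_mul_cancel, hwt, hut]
    rw [opL_apply, e1, e2, e1, opL_apply u s (opL u s f)]
  · obtain ⟨c1, c2⟩ := square hab
    simp only [opL_apply, opR_apply, ← mul_assoc (gen s) w (gen t), ← c1, ← c2]
    split_ifs <;> ring

theorem opL_mul_self (s : P.S) (f : Mdl P) :
    opL u s (opL u s f) = ((u s : ℂ) - 1) • opL u s f + (u s : ℂ) • f := by
  funext w
  have h := len_gen_mul_or w s
  simp only [Pi.add_apply, Pi.smul_apply, smul_eq_mul, opL_apply, gen_mul_cancel]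
  split_ifs <;> first | omega | ring

theorem opR_mul_self (s : P.S) (f : Mdl P) :
    opR u s (opR u s f) = ((u s : ℂ) - 1) • opR u s f + (u s : ℂ) • f := by
  simp only [opR, Module.End.mul_apply, flipW_flipW, opL_mul_self, map_add, map_smul]

variable (u)

/-- A product of left multiplications. -/
noncomputable def wordL (l : List P.S) : Module.End ℂ (Mdl P) := (l.map (opL u)).prod

theorem wordL_nil : wordL u ([] : List P.S) = 1 := rfl

theorem wordL_cons (s : P.S) (l : List P.S) : wordL u (s :: l) = opL u s * wordL u l := by
  simp [wordL]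

theorem wordL_append (a b : List P.S) : wordL u (a ++ b) = wordL u a * wordL u b := by
  simp [wordL]

/-- A product of right multiplications. -/
noncomputable def wordR (l : List P.S) : Module.End ℂ (Mdl P) := flipW * wordL u l * flipW

theorem wordR_cons (s : P.S) (l : List P.S) : wordR u (s :: l) = opR u s * wordR u l := by
  rw [wordR, wordR, opR, wordL_cons]
  simp only [mul_assoc]
  rw [← mul_assoc flipW flipW, flipW_mul_self, one_mul]

theorem wordR_nil : wordR u ([] : List P.S) = 1 := by
  rw [wordR, wordL_nil, mul_one, flipW_mul_self]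

variable {u}

theorem opL_wordR (hu : Param u) (s : P.S) : ∀ (l : List P.S) (f : Mdl P),
    opL u s (wordR u l f) = wordR u l (opL u s f)
  | [], f => by simp [wordR_nil]
  | t :: l, f => by
    simp only [wordR_cons, Module.End.mul_apply, opL_opR hu, opL_wordR hu s l]

theorem wordL_wordR (hu : Param u) (l' : List P.S) : ∀ (l : List P.S) (f : Mdl P),
    wordL u l (wordR u l' f) = wordR u l' (wordL u l f)
  | [], f => by simp [wordL_nil]
  | s :: l, f => by
    simp only [wordL_cons, Module.End.mul_apply, wordL_wordR hu l' l, opL_wordR hu]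

open scoped Classical in
/-- The basis function of an element. -/
noncomputable def dlt (v : Wq P) : Mdl P := Pi.single v 1

theorem dlt_apply_self (v : Wq P) : dlt v v = 1 := by simp [dlt]

theorem dlt_apply_ne {v w : Wq P} (h : w ≠ v) : dlt v w = 0 := by simp [dlt, h]

theorem flipW_dlt (v : Wq P) : flipW (dlt v) = dlt v⁻¹ := by
  funext w
  rw [flipW_apply]
  by_cases h : w = v⁻¹
  · subst h; rw [inv_inv, dlt_apply_self, dlt_apply_self]
  · rw [dlt_apply_ne h, dlt_apply_ne fun e => h (by rw [← e, inv_inv])]

theorem opL_dlt {s : P.S} {a : Wq P} (h : len (gen s * a) = len a + 1) :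
    opL u s (dlt a) = dlt (gen s * a) := by
  funext v
  rw [opL_apply]
  by_cases hv : v = gen s * a
  · subst hv
    have hne : gen s * a ≠ a := fun e => by rw [e] at h; omega
    rw [gen_mul_cancel, if_neg (by omega), dlt_apply_self, dlt_apply_self, dlt_apply_ne hne]
    ring
  · have h1 : gen s * v ≠ a := fun e => hv (by rw [← e, gen_mul_cancel])
    rw [dlt_apply_ne hv, dlt_apply_ne h1]
    by_cases hva : v = a
    · subst hva
      rw [if_pos (by omega), mul_zero]
    · rw [dlt_apply_ne hva]
      split_ifs <;> ring

theorem red_tail {s : P.S} {l : List P.S} (h : (s :: l).length = len (ev (s :: l))) :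
    l.length = len (ev l) ∧ len (gen s * ev l) = len (ev l) + 1 := by
  have h1 := len_le l
  have h2 := len_gen_mul_or (ev l) s
  rw [← ev_cons] at h2 ⊢
  simp only [List.length_cons] at h
  omega

theorem wordL_dlt : ∀ l : List P.S, l.length = len (ev l) → wordL u l (dlt 1) = dlt (ev l)
  | [], _ => by simp [wordL_nil, ev]
  | s :: l, h => by
    obtain ⟨h1, h2⟩ := red_tail h
    rw [wordL_cons, Module.End.mul_apply, wordL_dlt l h1, opL_dlt h2, ← ev_cons]

theorem wordR_dlt {l : List P.S} (h : l.length = len (ev l)) :
    wordR u l (dlt 1) = dlt (ev l)⁻¹ := by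
  rw [wordR, Module.End.mul_apply, Module.End.mul_apply, flipW_dlt, inv_one, wordL_dlt l h, flipW_dlt]

/-- A chosen reduced word. -/
noncomputable def rword (w : Wq P) : List P.S := (exists_word_len w).choose

theorem ev_rword (w : Wq P) : ev (rword w) = w := (exists_word_len w).choose_spec.1

theorem red_rword (w : Wq P) : (rword w).length = len (ev (rword w)) := by
  rw [ev_rword]; exact (exists_word_len w).choose_spec.2

variable (u)

/-- Left multiplication by the basis element of `w`. -/
noncomputable def opT (w : Wq P) : Module.End ℂ (Mdl P) := wordL u (rword w)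

/-- Right multiplication by the basis element of `w⁻¹`. -/
noncomputable def opT' (w : Wq P) : Module.End ℂ (Mdl P) := wordR u (rword w)

/-- The index of `w`: the product of the parameters along a reduced word. -/
noncomputable def idxP (w : Wq P) : ℝ := ((rword w).map u).prod

variable {u}

theorem wordL_one : ∀ l : List P.S,
    wordL u l (fun _ => (1 : ℂ)) = fun _ => ((l.map u).prod : ℂ)
  | [] => by simp [wordL_nil]
  | s :: l => by
    rw [wordL_cons, Module.End.mul_apply, wordL_one l]
    funext w
    rw [opL_apply, List.map_cons, List.prod_cons, Complex.ofReal_mul]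
    split_ifs <;> ring

theorem idxP_pos (hu : Param u) (w : Wq P) : 0 < idxP u w := by
  refine List.prod_induction _ (fun a b ha hb => mul_pos ha hb) one_pos fun x hx => ?_
  obtain ⟨s, -, rfl⟩ := List.mem_map.1 hx
  exact hu.pos s

section Fin

variable [Fintype (Wq P)]

theorem expand (f : Mdl P) : f = ∑ v, f v • dlt v := by
  classical
  funext w
  simp [dlt, Pi.single_apply]

theorem opT_of_red (hu : Param u) {l : List P.S} (h : l.length = len (ev l)) :
    wordL u l = opT u (ev l) := by
  refine LinearMap.ext fun f => ?_
  rw [expand f, map_sum, map_sum]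
  refine Finset.sum_congr rfl fun v _ => ?_
  rw [map_smul, map_smul, ← inv_inv v, ← ev_rword v⁻¹, ← wordR_dlt (u := u) (red_rword v⁻¹), opT,
    wordL_wordR hu, wordL_wordR hu, wordL_dlt l h, wordL_dlt _ (red_rword _), ev_rword (ev l)]

theorem idxP_of_red (hu : Param u) {l : List P.S} (h : l.length = len (ev l)) :
    (l.map u).prod = idxP u (ev l) := by
  have h1 := LinearMap.congr_fun (opT_of_red hu h) (fun _ => (1 : ℂ))
  rw [opT, wordL_one, wordL_one] at h1
  exact Complex.ofReal_inj.1 (congrFun h1 1)

theorem step_up {s : P.S} {w : Wq P} (h : len (gen s * w) = len w + 1) :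
    (s :: rword w).length = len (ev (s :: rword w)) := by
  rw [List.length_cons, ev_cons, red_rword, ev_rword, h]

theorem idxP_step (hu : Param u) {s : P.S} {w : Wq P} (h : len (gen s * w) = len w + 1) :
    idxP u (gen s * w) = u s * idxP u w := by
  have := idxP_of_red hu (step_up h)
  rw [ev_cons, ev_rword, List.map_cons, List.prod_cons] at this
  exact this.symm

theorem opT_step (hu : Param u) {s : P.S} {w : Wq P} (h : len (gen s * w) = len w + 1) :
    opT u (gen s * w) = opL u s * opT u w := by
  have := opT_of_red hu (step_up h)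
  rw [ev_cons, ev_rword, wordL_cons] at this
  exact this.symm

theorem opT'_step (hu : Param u) {s : P.S} {w : Wq P} (h : len (gen s * w) = len w + 1) :
    opT' u (gen s * w) = opR u s * opT' u w := by
  rw [opT', wordR, show wordL u (rword (gen s * w)) = opL u s * opT u w from opT_step hu h, opT,
    ← wordL_cons, ← wordR, wordR_cons, opT']

theorem opT_inv (hu : Param u) (w : Wq P) : wordL u (rword w).reverse = opT u w⁻¹ := by
  have h : (rword w).reverse.length = len (ev (rword w).reverse) := by
    rw [List.length_reverse, ev_reverse, len_inv, red_rword]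
  rw [opT_of_red hu h, ev_reverse, ev_rword]

variable (u)

/-- The Casimir operator. -/
noncomputable def casimir : Module.End ℂ (Mdl P) :=
  ∑ w, ((idxP u w)⁻¹ : ℂ) • (opT u w * opT' u w)

/-- The sum of the products of a basis element and its adjoint. -/
noncomputable def casElem : Module.End ℂ (Mdl P) :=
  ∑ w, ((idxP u w)⁻¹ : ℂ) • (opT u w * opT u w⁻¹)

/-- The commutators with the generators. -/
noncomputable def adj : Mdl P →ₗ[ℂ] (P.S → Mdl P) := LinearMap.pi fun s => opL u s - opR u s

/-- The centre. -/
noncomputable def centre : Submodule ℂ (Mdl P) := LinearMap.ker (adj u)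

variable {u}

theorem mem_centre {f : Mdl P} : f ∈ centre u ↔ ∀ s, opL u s f = opR u s f := by
  simp [centre, adj, funext_iff, sub_eq_zero]

theorem pair_cancel (hu : Param u) (s : P.S) (f : Mdl P) {w : Wq P}
    (h : len (gen s * w) = len w + 1) :
    ((idxP u w)⁻¹ : ℂ) • (opL u s (opT u w (opT' u w f)) - opR u s (opT u w (opT' u w f))) +
      ((idxP u (gen s * w))⁻¹ : ℂ) • (opL u s (opT u (gen s * w) (opT' u (gen s * w) f)) -
        opR u s (opT u (gen s * w) (opT' u (gen s * w) f))) = 0 := by
  rw [opT_step hu h, opT'_step hu h, idxP_step hu h, Module.End.mul_apply, Module.End.mul_apply]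
  have hc : opT u w (opR u s (opT' u w f)) = opR u s (opT u w (opT' u w f)) := by
    rw [opT, ← mul_one (opR u s), ← wordR_nil u, ← wordR_cons, wordL_wordR hu]
  rw [hc]
  set c := opT u w (opT' u w f)
  have hu0 : (u s : ℂ) ≠ 0 := by exact_mod_cast (hu.pos s).ne'
  have hi0 : (idxP u w : ℂ) ≠ 0 := by exact_mod_cast (idxP_pos hu w).ne'
  rw [opL_mul_self, ← opL_opR hu, opR_mul_self, map_add, map_smul, map_smul]
  funext v
  simp only [Pi.add_apply, Pi.sub_apply, Pi.smul_apply, Pi.zero_apply, smul_eq_mul]
  push_cast
  field_simp
  ring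

theorem casimir_mem (hu : Param u) (f : Mdl P) : casimir u f ∈ centre u := by
  rw [mem_centre]
  intro s
  rw [← sub_eq_zero]
  set g : Wq P → Mdl P := fun w => ((idxP u w)⁻¹ : ℂ) •
    (opL u s (opT u w (opT' u w f)) - opR u s (opT u w (opT' u w f))) with hg
  have h1 : opL u s (casimir u f) - opR u s (casimir u f) = ∑ w, g w := by
    simp only [casimir, hg, LinearMap.coe_sum, Finset.sum_apply, LinearMap.smul_apply,
      Module.End.mul_apply, map_sum, map_smul, ← Finset.sum_sub_distrib, smul_sub]
  have hpair : ∀ w, g w + g (gen s * w) = 0 := by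
    intro w
    rcases len_gen_mul_or w s with h | h
    · exact pair_cancel hu s f h
    · have := pair_cancel hu s f (w := gen s * w) (by rw [gen_mul_cancel]; exact h)
      rw [gen_mul_cancel, add_comm] at this
      exact this
  have h2 : (∑ w, g w) + (∑ w, g w) = 0 := by
    nth_rewrite 2 [← Equiv.sum_comp (Equiv.mulLeft (gen s)) g]
    rw [← Finset.sum_add_distrib]
    exact Finset.sum_eq_zero fun w _ => hpair w
  rw [h1]
  funext v
  have := congrFun h2 v
  simp only [Pi.add_apply, Pi.zero_apply] at this ⊢
  linear_combination this / 2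

theorem wordR_of_centre (hu : Param u) {z : Mdl P} (hz : z ∈ centre u) : ∀ l : List P.S,
    wordR u l z = wordL u l.reverse z
  | [] => by simp [wordR_nil, wordL_nil]
  | s :: l => by
    rw [wordR_cons, Module.End.mul_apply, wordR_of_centre hu hz l, List.reverse_cons, wordL_append,
      Module.End.mul_apply, wordL_cons, wordL_nil, mul_one, mem_centre.1 hz s]
    rw [← mul_one (opR u s), ← wordR_nil u, ← wordR_cons, wordL_wordR hu]

theorem casimir_centre (hu : Param u) {z : Mdl P} (hz : z ∈ centre u) :
    casimir u z = casElem u z := by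
  simp only [casimir, casElem, LinearMap.coe_sum, Finset.sum_apply, LinearMap.smul_apply,
    Module.End.mul_apply]
  refine Finset.sum_congr rfl fun w _ => ?_
  rw [opT', wordR_of_centre hu hz, opT_inv hu]

variable (u)

/-- The weighted hermitian form. -/
noncomputable def form (f g : Mdl P) : ℂ := ∑ v, (idxP u v : ℂ) * (conj (f v) * g v)

variable {u}

theorem form_opL (hu : Param u) (s : P.S) (f g : Mdl P) :
    form u (opL u s f) g = form u f (opL u s g) := by
  rw [← sub_eq_zero, form, form, ← Finset.sum_sub_distrib]
  set d : Wq P → ℂ := fun v => (idxP u v : ℂ) * (conj (opL u s f v) * g v) -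
    (idxP u v : ℂ) * (conj (f v) * opL u s g v) with hd
  have key : ∀ v, len (gen s * v) = len v + 1 → d v + d (gen s * v) = 0 := by
    intro v h
    simp only [hd, opL_apply, gen_mul_cancel, if_pos (show len v < len (gen s * v) by omega),
      if_neg (show ¬ len (gen s * v) < len v by omega), idxP_step hu h, Complex.ofReal_mul]
    simp only [map_mul, map_add, map_sub, map_one, Complex.conj_ofReal]
    ring
  have hpair : ∀ v, d v + d (gen s * v) = 0 := fun v => by
    rcases len_gen_mul_or v s with h | h
    · exact key v h
    · have := key (gen s * v) (by rw [gen_mul_cancel]; exact h)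
      rw [gen_mul_cancel, add_comm] at this
      exact this
  have h2 : (∑ v, d v) + (∑ v, d v) = 0 := by
    nth_rewrite 2 [← Equiv.sum_comp (Equiv.mulLeft (gen s)) d]
    rw [← Finset.sum_add_distrib]
    exact Finset.sum_eq_zero fun v _ => hpair v
  linear_combination h2 / 2

theorem form_wordL (hu : Param u) : ∀ (l : List P.S) (f g : Mdl P),
    form u (wordL u l.reverse f) g = form u f (wordL u l g)
  | [], _, _ => rfl
  | s :: l, f, g => by
    rw [List.reverse_cons, wordL_append, Module.End.mul_apply, form_wordL hu l, wordL_cons,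
      wordL_cons, wordL_nil, mul_one, Module.End.mul_apply, form_opL hu]

theorem form_self_re (f : Mdl P) :
    (form u f f).re = ∑ v, idxP u v * Complex.normSq (f v) := by
  rw [form, Complex.re_sum]
  refine Finset.sum_congr rfl fun v _ => ?_
  rw [← Complex.normSq_eq_conj_mul_self, ← Complex.ofReal_mul, Complex.ofReal_re]

theorem casElem_injective (hu : Param u) : Function.Injective (casElem u) := by
  rw [injective_iff_map_eq_zero]
  intro f hf
  have h0 : (form u f (casElem u f)).re = 0 := by simp [hf, form]
  have h1 : form u f (casElem u f) =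
      ∑ w, ((idxP u w)⁻¹ : ℂ) * form u (opT u w⁻¹ f) (opT u w⁻¹ f) := by
    simp only [casElem, LinearMap.coe_sum, Finset.sum_apply, LinearMap.smul_apply,
      Module.End.mul_apply]
    rw [show form u f (∑ w, ((idxP u w)⁻¹ : ℂ) • opT u w (opT u w⁻¹ f)) =
        ∑ w, ((idxP u w)⁻¹ : ℂ) * form u f (opT u w (opT u w⁻¹ f)) by
      simp only [form, Finset.sum_apply, Pi.smul_apply, smul_eq_mul, Finset.mul_sum]
      rw [Finset.sum_comm]
      exact Finset.sum_congr rfl fun _ _ => Finset.sum_congr rfl fun _ _ => by ring]
    refine Finset.sum_congr rfl fun w _ => ?_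
    congr 1
    conv_lhs => rw [show opT u w = wordL u (rword w) from rfl, ← form_wordL hu, opT_inv hu]
  rw [h1, Complex.re_sum] at h0
  have hnn : ∀ g : Mdl P, ∀ v ∈ (Finset.univ : Finset (Wq P)),
      0 ≤ idxP u v * Complex.normSq (g v) := fun g v _ =>
    mul_nonneg (idxP_pos hu v).le (Complex.normSq_nonneg _)
  have hre : ∀ (r : ℝ) (g : Mdl P), ((r⁻¹ : ℂ) * form u g g).re = r⁻¹ * (form u g g).re :=
    fun r g => by rw [← Complex.ofReal_inv, Complex.re_ofReal_mul]
  have hterm : ∀ w ∈ (Finset.univ : Finset (Wq P)),
      0 ≤ (((idxP u w)⁻¹ : ℂ) * form u (opT u w⁻¹ f) (opT u w⁻¹ f)).re := fun w _ => by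
    rw [hre, form_self_re]
    exact mul_nonneg (inv_nonneg.2 (idxP_pos hu w).le) (Finset.sum_nonneg (hnn _))
  have h2 := (Finset.sum_eq_zero_iff_of_nonneg hterm).1 h0 1 (Finset.mem_univ _)
  rw [hre, form_self_re, mul_eq_zero] at h2
  have h3 := h2.resolve_left (inv_ne_zero (idxP_pos hu 1).ne')
  have hT : opT u (1 : Wq P) = 1 := by
    have := (opT_of_red hu (l := ([] : List P.S)) (by simp [ev, len_one])).symm
    simpa [ev, wordL_nil] using this
  funext v
  have h4 := (Finset.sum_eq_zero_iff_of_nonneg (hnn _)).1 h3 v (Finset.mem_univ _)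
  rw [inv_one, hT, Module.End.one_apply, mul_eq_zero] at h4
  exact Complex.normSq_eq_zero.1 (h4.resolve_left (idxP_pos hu v).ne')

/-- The image of the Casimir operator is the centre. -/
theorem range_casimir (hu : Param u) : LinearMap.range (casimir u) = centre u := by
  refine le_antisymm ?_ fun z hz => ?_
  · rintro _ ⟨f, rfl⟩
    exact casimir_mem hu f
  · let C : centre u →ₗ[ℂ] centre u :=
      ((casimir u).comp (centre u).subtype).codRestrict _ fun x => casimir_mem hu _
    have hinj : Function.Injective C := fun x y h => by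
      have := congrArg Subtype.val h
      simp only [C, LinearMap.codRestrict_apply, LinearMap.comp_apply, Submodule.subtype_apply,
        casimir_centre hu x.2, casimir_centre hu y.2] at this
      exact Subtype.ext (casElem_injective hu this)
    obtain ⟨x, hx⟩ := LinearMap.surjective_of_injective hinj ⟨z, hz⟩
    exact ⟨x.1, congrArg Subtype.val hx⟩

end Fin

end Cfsg.Agent.H68.BNH
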