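import Cfsg.Agent.H68.BNHeckeCentre

/-!
# The dimension of the centre does not depend on the parameters

Deforming the parameters to `1` turns the centre into the class functions of the Weyl group.
-/

set_option autoImplicit false

namespace Cfsg.Agent.H68.BNH

open Cfsg Cfsg.Agent.H68.BNW
open Module Filter Topology

variable {G : Type*} [Group G] {P : BNPair G} [Fintype (Wq P)]

/-- The rank of a continuous family of linear maps is lower semicontinuous. -/
theorem eventually_le_rank {V W : Type*} [AddCommGroup V] [Module ℂ V] [NormedAddCommGroup W]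
    [NormedSpace ℂ W] [FiniteDimensional ℂ W] {A : ℝ → V →ₗ[ℂ] W}
    (hA : ∀ v, Continuous fun t => A t v) (t₀ : ℝ) :
    ∀ᶠ t in 𝓝 t₀, finrank ℂ (LinearMap.range (A t₀)) ≤ finrank ℂ (LinearMap.range (A t)) := by
  classical
  let b := Module.finBasis ℂ (LinearMap.range (A t₀))
  choose v hv using fun i => LinearMap.mem_range.1 (b i).2
  have h0 : LinearIndependent ℂ fun i => A t₀ (v i) := by
    have := b.linearIndependent.map' (LinearMap.range (A t₀)).subtype (Submodule.ker_subtype _)
    simpa [Function.comp_def, hv] using this
  have hopen : IsOpen {f : Fin (finrank ℂ (LinearMap.range (A t₀))) → W | LinearIndependent ℂ f} :=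
    isOpen_setOf_linearIndependent
  filter_upwards [(hopen.preimage (continuous_pi fun i => hA (v i))).mem_nhds h0] with t ht
  have hli : LinearIndependent ℂ fun i => (⟨A t (v i), LinearMap.mem_range_self _ _⟩ :
      LinearMap.range (A t)) :=
    LinearIndependent.of_comp (LinearMap.range (A t)).subtype ht
  have := hli.fintype_card_le_finrank
  simpa using this

variable (d : P.S → ℝ)

/-- The parameters `d ^ t`. -/
noncomputable def defo (t : ℝ) : P.S → ℝ := fun s => Real.exp (t * Real.log (d s))

variable {d}

theorem param_defo (hd : Param d) (t : ℝ) : Param (defo d t) where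
  pos _ := Real.exp_pos _
  inv s s' v h1 h2 := by rw [defo, defo, hd.inv s s' v h1 h2]

theorem defo_one (hd : Param d) : defo d 1 = d := by
  funext s; rw [defo, one_mul, Real.exp_log (hd.pos s)]

theorem defo_zero : defo d 0 = fun _ => (1 : ℝ) := by
  funext s; rw [defo, zero_mul, Real.exp_zero]

variable (d)

theorem continuous_opL (s : P.S) {g : ℝ → Mdl P} (hg : Continuous g) :
    Continuous fun t => opL (defo d t) s (g t) := by
  refine continuous_pi fun w => ?_
  have hu : Continuous fun t => ((defo d t s : ℝ) : ℂ) :=
    Complex.continuous_ofReal.comp (by unfold defo; fun_prop)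
  have h1 := (continuous_apply (gen s * w)).comp hg
  have h2 := (continuous_apply w).comp hg
  simp only [opL_apply]
  by_cases h : len w < len (gen s * w)
  · simp only [if_pos h]; exact hu.mul h1
  · simp only [if_neg h]; exact h1.add ((hu.sub continuous_const).mul h2)

theorem continuous_wordL : ∀ (l : List P.S) {g : ℝ → Mdl P}, Continuous g →
    Continuous fun t => wordL (defo d t) l (g t)
  | [], g, hg => by simpa [wordL_nil] using hg
  | s :: l, g, hg => by
    simp only [wordL_cons, Module.End.mul_apply]
    exact continuous_opL d s (continuous_wordL l hg)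

theorem continuous_flipW {g : ℝ → Mdl P} (hg : Continuous g) : Continuous fun t => flipW (g t) :=
  continuous_pi fun w => (continuous_apply w⁻¹).comp hg

theorem continuous_idxP (w : Wq P) : Continuous fun t => idxP (defo d t) w := by
  unfold idxP
  refine continuous_list_prod (f := fun s (t : ℝ) => defo d t s) (rword w) fun s _ => ?_
  unfold defo
  fun_prop

variable {d}

theorem continuous_casimir (hd : Param d) (f : Mdl P) :
    Continuous fun t => casimir (defo d t) f := by
  simp only [casimir, LinearMap.coe_sum, Finset.sum_apply, LinearMap.smul_apply, Module.End.mul_apply]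
  refine continuous_finsetSum _ fun w _ => continuous_pi fun v => ?_
  simp only [Pi.smul_apply, smul_eq_mul]
  refine Continuous.mul ?_ ((continuous_apply v).comp ?_)
  · exact (Complex.continuous_ofReal.comp (continuous_idxP d w)).inv₀ fun t =>
      Complex.ofReal_ne_zero.2 (idxP_pos (param_defo hd t) w).ne'
  · simp only [opT, opT', wordR, Module.End.mul_apply]
    exact continuous_wordL d _ (continuous_flipW (continuous_wordL d _ continuous_const))

theorem continuous_adj [Fintype P.S] (f : Mdl P) : Continuous fun t => adj (defo d t) f := by
  refine continuous_pi fun s => ?_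
  show Continuous fun t => opL (defo d t) s f - opR (defo d t) s f
  simp only [opR, Module.End.mul_apply]
  exact (continuous_opL d s continuous_const).sub (continuous_flipW (continuous_opL d s continuous_const))

theorem finrank_centre_eq [Fintype P.S] (hd : Param d) :
    finrank ℂ (centre d) = finrank ℂ (centre (fun _ : P.S => (1 : ℝ))) := by
  have hloc : IsLocallyConstant fun t => finrank ℂ (centre (defo d t)) := by
    rw [IsLocallyConstant.iff_eventually_eq]
    intro t₀
    filter_upwards [eventually_le_rank (continuous_casimir hd) t₀,
      eventually_le_rank (A := fun t => adj (defo d t)) continuous_adj t₀] with t h1 h2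
    rw [range_casimir (param_defo hd t), range_casimir (param_defo hd t₀)] at h1
    have e1 : finrank ℂ (LinearMap.range (adj (defo d t))) + finrank ℂ (centre (defo d t)) =
        finrank ℂ (Mdl P) := (adj (defo d t)).finrank_range_add_finrank_ker
    have e2 : finrank ℂ (LinearMap.range (adj (defo d t₀))) + finrank ℂ (centre (defo d t₀)) =
        finrank ℂ (Mdl P) := (adj (defo d t₀)).finrank_range_add_finrank_ker
    have h1' : finrank ℂ (centre (defo d t₀)) ≤ finrank ℂ (centre (defo d t)) := h1
    have h2' : finrank ℂ (LinearMap.range (adj (defo d t₀))) ≤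
        finrank ℂ (LinearMap.range (adj (defo d t))) := h2
    omega
  have := hloc.apply_eq_of_preconnectedSpace 1 0
  rwa [defo_one hd, defo_zero] at this

omit [Fintype (Wq P)] in
theorem opL_one_apply (s : P.S) (f : Mdl P) (w : Wq P) :
    opL (fun _ => (1 : ℝ)) s f w = f (gen s * w) := by
  rw [opL_apply]; simp

omit [Fintype (Wq P)] in
theorem opR_one_apply (s : P.S) (f : Mdl P) (w : Wq P) :
    opR (fun _ => (1 : ℝ)) s f w = f (w * gen s) := by
  rw [opR_apply]; simp

theorem finrank_centre_one :
    finrank ℂ (centre (fun _ : P.S => (1 : ℝ))) = Nat.card (ConjClasses (Wq P)) := by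
  classical
  let Φ : (ConjClasses (Wq P) → ℂ) →ₗ[ℂ] Mdl P := LinearMap.funLeft ℂ ℂ ConjClasses.mk
  have hinj : Function.Injective Φ := LinearMap.funLeft_injective_of_surjective _ _ _ ConjClasses.mk_surjective
  have hrange : LinearMap.range Φ = centre (fun _ : P.S => (1 : ℝ)) := by
    ext f
    rw [mem_centre]
    constructor
    · rintro ⟨c, rfl⟩ s
      funext w
      rw [opL_one_apply, opR_one_apply]
      show c (ConjClasses.mk _) = c (ConjClasses.mk _)
      congr 1
      exact ConjClasses.mk_eq_mk_iff_isConj.2 (isConj_iff.2 ⟨gen s, by
        rw [gen_inv, gen_mul_cancel]⟩)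
    · intro h
      have hgen : ∀ (l : List P.S) (w : Wq P), f (ev l * w) = f (w * ev l) := by
        intro l
        induction l with
        | nil => intro w; simp [ev]
        | cons s l ih =>
          intro w
          have h1 := congrFun (h s) (ev l * w)
          rw [opL_one_apply, opR_one_apply, mul_assoc, ih (w * gen s)] at h1
          rw [ev_cons, mul_assoc, h1, mul_assoc]
      refine ⟨fun C => f C.out, ?_⟩
      funext w
      show f (ConjClasses.mk w).out = f w
      obtain ⟨c, hc⟩ := isConj_iff.1 (ConjClasses.mk_eq_mk_iff_isConj.1
        (Quotient.out_eq (ConjClasses.mk w)))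
      obtain ⟨l, rfl⟩ := ev_surjective c
      have h2 := hgen l ((ConjClasses.mk w).out * (ev l)⁻¹)
      rw [inv_mul_cancel_right, ← mul_assoc] at h2
      exact (congrArg f hc ▸ h2).symm
  rw [← hrange, LinearMap.finrank_range_of_inj hinj, Module.finrank_pi, Nat.card_eq_fintype_card]

end Cfsg.Agent.H68.BNH
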