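import Cfsg.Agent.H68.BNHeckeDim
import Cfsg.Agent.H68.BNSteinberg
import Cfsg.Agent.H43.CharTools
import Cfsg.Agent.H25.CharInd

/-!
# The constituents of the permutation character on the cosets of `B`

They are as many as the conjugacy classes of the Weyl group.
-/

set_option autoImplicit false

namespace Cfsg.Agent.H68.BNH

open Cfsg Cfsg.Agent.H8 Cfsg.Agent.H68.BNW
open Module
open scoped ComplexConjugate Classical

variable {G : Type*} [Group G] [Fintype G] {P : BNPair G}

/-- The parameters of a finite (B, N)-pair. -/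
noncomputable def deg (P : BNPair G) (s : P.S) : ℝ := (BN.degree P s.1 : ℝ)

open scoped Classical in
/-- The cell of an element of the Weyl group. -/
noncomputable def cl (w : Wq P) : Finset G := Finset.univ.filter fun g => g ∈ BN.cell P (rep w)

theorem mem_cl {w : Wq P} {g : G} : g ∈ cl w ↔ g ∈ BN.cell P (rep w) := by classical simp [cl]

/-- The element of the Weyl group whose cell contains `x`. -/
noncomputable def wOf (P : BNPair G) (x : G) : Wq P :=
  cls (exists_cell (P := P) x).choose (exists_cell (P := P) x).choose_spec.choose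

theorem wOf_eq {x : G} {w : Wq P} (h : x ∈ cl w) : wOf P x = w := by
  rw [mem_cl] at h
  rw [wOf, ← cls_rep w, cls_eq_iff]
  exact BN.cong_of_mem_cell (exists_cell (P := P) x).choose_spec.choose (rep_mem w)
    (exists_cell (P := P) x).choose_spec.choose_spec h

theorem mem_cl_wOf (x : G) : x ∈ cl (wOf P x) := by
  rw [mem_cl]
  have h : BN.Cong P (rep (wOf P x)) (exists_cell (P := P) x).choose :=
    (cls_eq_iff (rep_mem _) (exists_cell (P := P) x).choose_spec.choose).1 (by rw [cls_rep]; rfl)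
  rw [h.cell_eq]
  exact (exists_cell (P := P) x).choose_spec.choose_spec

theorem mem_cl_iff {w : Wq P} {x : G} : x ∈ cl w ↔ wOf P x = w :=
  ⟨wOf_eq, fun h => h ▸ mem_cl_wOf x⟩

theorem cl_mul_left {w : Wq P} {x b : G} (hb : b ∈ P.B) : b * x ∈ cl w ↔ x ∈ cl w := by
  simp only [mem_cl]
  refine ⟨fun h => ?_, fun h => BN.mul_mem_cell_left h hb⟩
  simpa using BN.mul_mem_cell_left h (inv_mem hb)

theorem cl_mul_right {w : Wq P} {x b : G} (hb : b ∈ P.B) : x * b ∈ cl w ↔ x ∈ cl w := by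
  simp only [mem_cl]
  refine ⟨fun h => ?_, fun h => BN.mul_mem_cell_right h hb⟩
  simpa using BN.mul_mem_cell_right h (inv_mem hb)

theorem wOf_mul_left {b : G} (hb : b ∈ P.B) (x : G) : wOf P (b * x) = wOf P x :=
  wOf_eq ((cl_mul_left hb).2 (mem_cl_wOf x))

theorem wOf_mul_right {b : G} (hb : b ∈ P.B) (x : G) : wOf P (x * b) = wOf P x :=
  wOf_eq ((cl_mul_right hb).2 (mem_cl_wOf x))

theorem wOf_rep (w : Wq P) : wOf P (rep w) = w := wOf_eq (mem_cl.2 (BN.self_mem_cell _))

theorem wOf_inv (x : G) : wOf P x⁻¹ = (wOf P x)⁻¹ := by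
  refine wOf_eq (mem_cl.2 ?_)
  have h := BN.inv_mem_cell_inv (mem_cl.1 (mem_cl_wOf (P := P) x))
  have e : BN.Cong P (rep (wOf P x)⁻¹) (rep (wOf P x))⁻¹ :=
    (cls_eq_iff (rep_mem _) (inv_mem (rep_mem _))).1 (by
      rw [cls_rep]; nth_rewrite 1 [← cls_rep (wOf P x)]; rfl)
  rwa [e.cell_eq]

theorem card_cl (w : Wq P) : (cl w).card = Nat.card (BN.cell P (rep w)) := by
  classical
  rw [cl, Nat.card_eq_fintype_card, Fintype.card_subtype]

theorem card_cl_inv (w : Wq P) : (cl w⁻¹).card = (cl w).card := by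
  refine Finset.card_bij (fun x _ => x⁻¹) (fun x hx => ?_) (fun x _ y _ h => inv_injective h)
    fun x hx => ⟨x⁻¹, ?_, inv_inv x⟩
  · rw [mem_cl_iff] at hx ⊢
    rw [wOf_inv, hx, inv_inv]
  · rw [mem_cl_iff] at hx ⊢
    rw [wOf_inv, hx]

theorem cl_one_eq (x : G) : x ∈ cl (1 : Wq P) ↔ x ∈ P.B := by
  rw [mem_cl]
  have e : BN.Cong P (rep (1 : Wq P)) 1 := (cls_eq_iff (rep_mem _) (one_mem _)).1 (by rw [cls_rep]; rfl)
  rw [e.cell_eq, BN.cell_one]
  rfl

theorem adm_of_up {s : P.S} {w : Wq P} (h : len (gen s * w) = len w + 1) :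
    BN.Adm P s.1 (rep w) := by
  have hl : (s :: rword w).length = len (ev (s :: rword w)) := by
    rw [List.length_cons, ev_cons, red_rword, ev_rword, h]
  have hred : BN.Red P (s.1 :: (rword w).map Subtype.val) := by simpa using red_of_len hl
  refine (BN.Red.adm s.2 (fun z hz => by
    obtain ⟨q, -, rfl⟩ := List.mem_map.1 hz
    exact q.2) hred).congr ?_
  exact (cls_eq_iff (gword_mem _) (rep_mem w)).1 (by rw [← ev_eq_cls, ev_rword, cls_rep])

theorem cong_gen_mul (s : P.S) (w : Wq P) : BN.Cong P (rep (gen s * w)) (s.1 * rep w) :=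
  (cls_eq_iff (rep_mem _) (mul_mem (P.subset s.2) (rep_mem w))).1 (by
    rw [cls_rep, ← cls_mul (P.subset s.2) (rep_mem w), cls_rep]; rfl)

theorem card_cl_gen_mul {s : P.S} {w : Wq P} (h : BN.Adm P s.1 (rep w)) :
    (cl (gen s * w)).card = BN.degree P s.1 * (cl w).card := by
  rw [card_cl, card_cl, (cong_gen_mul s w).cell_eq]
  exact BN.card_cell_mul s.2 (rep_mem w) h

theorem param_deg : Param (deg P) where
  pos s := Nat.cast_pos.2 (lt_of_lt_of_le two_pos (BN.two_le_degree s.2))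
  inv s t v h1 h2 := by
    have e1 := card_cl_gen_mul (adm_of_up h1)
    have e2 := card_cl_gen_mul (adm_of_up (s := t) (w := v⁻¹) (by
      rw [show gen t * v⁻¹ = (v * gen t)⁻¹ by rw [_root_.mul_inv_rev, gen_inv], len_inv, len_inv,
        ← h2, h1]))
    rw [show gen t * v⁻¹ = (gen s * v)⁻¹ by rw [h2, _root_.mul_inv_rev, gen_inv], card_cl_inv,
      card_cl_inv, e1] at e2
    have hpos : 0 < (cl v).card := Finset.card_pos.2 ⟨rep v, mem_cl.2 (BN.self_mem_cell _)⟩
    rw [deg, deg, Nat.eq_of_mul_eq_mul_right hpos e2]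

theorem up_of_adm {s : P.S} {w : Wq P} (h : BN.Adm P s.1 (rep w)) :
    len (gen s * w) = len w + 1 := by
  rcases len_gen_mul_or w s with h1 | h1
  · exact h1
  exfalso
  have e1 := card_cl_gen_mul h
  have e2 := card_cl_gen_mul (adm_of_up (s := s) (w := gen s * w) (by rw [gen_mul_cancel]; exact h1))
  rw [gen_mul_cancel, e1, ← mul_assoc] at e2
  have hpos : 0 < (cl w).card := Finset.card_pos.2 ⟨rep w, mem_cl.2 (BN.self_mem_cell _)⟩
  have h2 := BN.two_le_degree (P := P) s.2
  have : 1 * (cl w).card < BN.degree P s.1 * BN.degree P s.1 * (cl w).card :=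
    Nat.mul_lt_mul_of_pos_right (lt_of_lt_of_le (by norm_num) (Nat.mul_le_mul h2 h2)) hpos
  omega

/-- The function on the group, constant on cells, given by a function on the Weyl group. -/
noncomputable def lift (f : Mdl P) (x : G) : ℂ := f (wOf P x)

theorem lift_rep (f : Mdl P) (w : Wq P) : lift f (rep w) = f w := by rw [lift, wOf_rep]

theorem binv_lift (f : Mdl P) (φ : ℂ → ℝ) : BN.BInv P fun x => φ (lift f x) where
  left b hb x := by rw [lift, lift, wOf_mul_left hb]
  right b hb x := by rw [lift, lift, wOf_mul_right hb]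

theorem opL_group (s : P.S) (f : Mdl P) (w : Wq P) :
    opL (deg P) s f w =
      (Nat.card P.B : ℂ)⁻¹ * ∑ h ∈ cl (gen s), lift f (h⁻¹ * rep w) := by
  classical
  have hcell : ∀ h : G, h ∈ BN.cell P s.1 ↔ h ∈ cl (gen s) := fun h => by
    rw [mem_cl, ((cls_eq_iff (rep_mem _) (P.subset s.2)).1 (by rw [cls_rep]; rfl) :
      BN.Cong P (rep (gen s)) s.1).cell_eq]
  have hval : lift f (s.1 * rep w) = f (gen s * w) := by
    rw [lift]
    congr 1
    exact wOf_eq (mem_cl.2 ((cong_gen_mul s w).cell_eq ▸ BN.self_mem_cell _))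
  have key : ∀ φ : ℂ →+ ℝ, φ (∑ h ∈ cl (gen s), lift f (h⁻¹ * rep w)) =
      BN.act P s.1 (fun x => φ (lift f x)) (rep w) * Nat.card P.B := fun φ => by
    rw [BN.act, div_mul_cancel₀ _ (Nat.cast_ne_zero.2 Nat.card_pos.ne'), map_sum, ← Finset.sum_filter]
    exact Finset.sum_congr (by ext h; simp [hcell]) fun _ _ => rfl
  rw [eq_inv_mul_iff_mul_eq₀ (Nat.cast_ne_zero.2 Nat.card_pos.ne'), opL_apply]
  by_cases ha : BN.Adm P s.1 (rep w)
  · have hup := up_of_adm ha
    rw [if_pos (by omega)]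
    have hr := key Complex.reLm.toAddMonoidHom
    have hi := key Complex.imLm.toAddMonoidHom
    rw [BN.act_adm s.2 (rep_mem w) ha (binv_lift f _)] at hr hi
    simp only [LinearMap.toAddMonoidHom_coe, Complex.reLm_coe, Complex.imLm_coe, hval] at hr hi
    apply Complex.ext <;> simp [deg, hr, hi] <;> ring
  · have hdn : ¬ len w < len (gen s * w) := fun hlt => ha (adm_of_up (by
      rcases len_gen_mul_or w s with h1 | h1 <;> omega))
    rw [if_neg hdn]
    have hr := key Complex.reLm.toAddMonoidHom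
    have hi := key Complex.imLm.toAddMonoidHom
    rw [BN.act_not_adm s.2 (rep_mem w) ha (binv_lift f _)] at hr hi
    simp only [LinearMap.toAddMonoidHom_coe, Complex.reLm_coe, Complex.imLm_coe, hval, lift_rep] at hr hi
    apply Complex.ext <;> simp [deg, hr, hi] <;> ring

theorem sum_cl_mul_left {w : Wq P} {b : G} (hb : b ∈ P.B) (φ : G → ℂ) :
    ∑ h ∈ cl w, φ (b * h) = ∑ h ∈ cl w, φ h :=
  Finset.sum_equiv (Equiv.mulLeft b) (fun h => (cl_mul_left hb).symm) fun h _ => rfl

theorem sum_cl_mul_right {w : Wq P} {b : G} (hb : b ∈ P.B) (φ : G → ℂ) :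
    ∑ h ∈ cl w, φ (h * b) = ∑ h ∈ cl w, φ h :=
  Finset.sum_equiv (Equiv.mulRight b) (fun h => (cl_mul_right hb).symm) fun h _ => rfl

theorem card_cl_one : (cl (1 : Wq P)).card = Nat.card P.B := by
  classical
  rw [Nat.card_eq_fintype_card, Fintype.card_subtype]
  exact congrArg Finset.card (Finset.ext fun x => by simp [cl_one_eq])

/-- The product of the cells of a reduced product covers the cell `|B|` times. -/
theorem sum_cl_mul {s : P.S} {w : Wq P} (h : len (gen s * w) = len w + 1) (φ : G → ℂ) :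
    ∑ x ∈ cl (gen s), ∑ k ∈ cl w, φ (x * k) =
      (Nat.card P.B : ℂ) * ∑ g ∈ cl (gen s * w), φ g := by
  classical
  set N : G → ℕ := fun g => ((cl (gen s)).filter fun x => x⁻¹ * g ∈ cl w).card with hN
  have hswap : ∀ φ : G → ℂ, ∑ x ∈ cl (gen s), ∑ k ∈ cl w, φ (x * k) = ∑ g, (N g : ℂ) * φ g := by
    intro φ
    have : ∀ x : G, ∑ k ∈ cl w, φ (x * k) = ∑ g, if x⁻¹ * g ∈ cl w then φ g else 0 := fun x => by
      rw [← Equiv.sum_comp (Equiv.mulLeft x)]
      simp only [Equiv.coe_mulLeft, inv_mul_cancel_left, Finset.sum_ite_mem, Finset.univ_inter]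
    simp only [this]
    rw [Finset.sum_comm]
    refine Finset.sum_congr rfl fun g _ => ?_
    rw [← Finset.sum_filter, Finset.sum_const, nsmul_eq_mul]
  have hsupp : ∀ g, g ∉ cl (gen s * w) → N g = 0 := by
    intro g hg
    rw [hN, Finset.card_eq_zero, Finset.filter_eq_empty_iff]
    intro x hx hxg
    apply hg
    rw [mem_cl] at hx hxg ⊢
    rw [(cong_gen_mul s w).cell_eq]
    rw [((cls_eq_iff (rep_mem _) (P.subset s.2)).1 (by rw [cls_rep]; rfl) :
      BN.Cong P (rep (gen s)) s.1).cell_eq] at hx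
    obtain ⟨b, hb, b', hb', rfl⟩ := BN.mem_cell.1 hx
    obtain ⟨c, hc, c', hc', he⟩ := BN.mem_cell.1 hxg
    rw [show g = b * (s.1 * (b' * c) * rep w) * c' by
      rw [show g = b * s.1 * b' * ((b * s.1 * b')⁻¹ * g) by group, he]; group]
    exact BN.mul_mem_cell_right (BN.mul_mem_cell_left (adm_of_up h _ (mul_mem hb' hc)) hb) hc'
  have hinv : ∀ g, ∀ b ∈ P.B, ∀ b' ∈ P.B, N (b * g * b') = N g := by
    intro g b hb b' hb'
    refine Finset.card_bij (fun x _ => b⁻¹ * x) (fun x hx => ?_)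
      (fun x _ y _ e => mul_left_cancel e) fun x hx => ⟨b * x, ?_, by simp⟩
    · rw [Finset.mem_filter] at hx ⊢
      refine ⟨(cl_mul_left (inv_mem hb)).2 hx.1, ?_⟩
      rw [← cl_mul_right hb', show (b⁻¹ * x)⁻¹ * g * b' = x⁻¹ * (b * g * b') by group]
      exact hx.2
    · rw [Finset.mem_filter] at hx ⊢
      refine ⟨(cl_mul_left hb).2 hx.1, ?_⟩
      rw [show (b * x)⁻¹ * (b * g * b') = x⁻¹ * g * b' by group, cl_mul_right hb']
      exact hx.2
  have hconst : ∀ g ∈ cl (gen s * w), N g = N (rep (gen s * w)) := by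
    intro g hg
    obtain ⟨b, hb, b', hb', rfl⟩ := BN.mem_cell.1 (mem_cl.1 hg)
    exact hinv _ b hb b' hb'
  have hsum : ∀ φ : G → ℂ, ∑ g, (N g : ℂ) * φ g =
      (N (rep (gen s * w)) : ℂ) * ∑ g ∈ cl (gen s * w), φ g := by
    intro φ
    rw [Finset.mul_sum, ← Finset.sum_subset (Finset.subset_univ (cl (gen s * w)))
      fun g _ hg => by rw [hsupp g hg, Nat.cast_zero, zero_mul]]
    exact Finset.sum_congr rfl fun g hg => by rw [hconst g hg]
  have hone := hswap fun _ => 1
  rw [hsum] at hone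
  simp only [Finset.sum_const, nsmul_eq_mul, mul_one] at hone
  rw [card_cl_gen_mul (adm_of_up h)] at hone
  have hs1 : (cl (gen s)).card = BN.degree P s.1 * Nat.card P.B := by
    have := card_cl_gen_mul (adm_of_up (s := s) (w := 1) (by
      rw [mul_one, len_one]
      rcases len_gen_mul_or (1 : Wq P) s with h1 | h1 <;> rw [mul_one, len_one] at h1
      · exact h1
      · omega))
    rwa [mul_one, card_cl_one] at this
  rw [hs1] at hone
  push_cast at hone
  have hne : ((cl w).card : ℂ) * (BN.degree P s.1 : ℂ) ≠ 0 := mul_ne_zero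
    (Nat.cast_ne_zero.2 (Finset.card_ne_zero.2 ⟨rep w, mem_cl.2 (BN.self_mem_cell _)⟩))
    (Nat.cast_ne_zero.2 (by have := BN.two_le_degree (P := P) s.2; omega))
  have hNB : (N (rep (gen s * w)) : ℂ) = Nat.card P.B :=
    mul_right_cancel₀ hne (by linear_combination -hone)
  rw [hswap, hsum, hNB]

theorem lift_ext {f : Mdl P} {R : G → ℂ} (hl : ∀ b ∈ P.B, ∀ x, R (b * x) = R x)
    (hr : ∀ b ∈ P.B, ∀ x, R (x * b) = R x) (h : ∀ v, f v = R (rep v)) (x : G) : lift f x = R x := by
  obtain ⟨b, hb, b', hb', he⟩ := BN.mem_cell.1 (mem_cl.1 (mem_cl_wOf (P := P) x))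
  rw [lift, h]
  nth_rewrite 2 [he]
  rw [hr b' hb', hl b hb]

theorem avg_left_inv (f : Mdl P) (w : Wq P) (b : G) (hb : b ∈ P.B) (x : G) :
    ∑ h ∈ cl w, lift f (h⁻¹ * (b * x)) = ∑ h ∈ cl w, lift f (h⁻¹ * x) := by
  rw [← sum_cl_mul_left (w := w) hb (fun h => lift f (h⁻¹ * (b * x)))]
  exact Finset.sum_congr rfl fun h _ => by congr 1; group

theorem lift_opL (s : P.S) (f : Mdl P) (x : G) :
    lift (opL (deg P) s f) x = (Nat.card P.B : ℂ)⁻¹ * ∑ h ∈ cl (gen s), lift f (h⁻¹ * x) := by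
  refine lift_ext (R := fun x => (Nat.card P.B : ℂ)⁻¹ * ∑ h ∈ cl (gen s), lift f (h⁻¹ * x))
    (fun b hb x => ?_) (fun b hb x => ?_) (fun v => opL_group s f v) x
  · try simp only
    rw [avg_left_inv f _ b hb]
  · simp only [← mul_assoc]
    congr 1
    exact Finset.sum_congr rfl fun h _ => by rw [lift, lift, wOf_mul_right hb]

theorem lift_wordL : ∀ (l : List P.S), l.length = len (ev l) → ∀ (f : Mdl P) (x : G),
    lift (wordL (deg P) l f) x = (Nat.card P.B : ℂ)⁻¹ * ∑ h ∈ cl (ev l), lift f (h⁻¹ * x)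
  | [], _, f, x => by
    rw [wordL_nil, Module.End.one_apply, show ev ([] : List P.S) = 1 from rfl,
      Finset.sum_congr rfl fun h hh => show lift f (h⁻¹ * x) = lift f x by
        rw [lift, lift, wOf_mul_left (inv_mem ((cl_one_eq h).1 hh))],
      Finset.sum_const, nsmul_eq_mul, card_cl_one]
    have : (Nat.card P.B : ℂ) ≠ 0 := Nat.cast_ne_zero.2 Nat.card_pos.ne'
    field_simp
  | s :: l, hl, f, x => by
    obtain ⟨h1, h2⟩ := red_tail hl
    rw [wordL_cons, Module.End.mul_apply, lift_opL]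
    simp only [lift_wordL l h1, ← Finset.mul_sum]
    rw [ev_cons]
    have := sum_cl_mul h2 (fun g => lift f (g⁻¹ * x))
    simp only [_root_.mul_inv_rev, mul_assoc] at this
    rw [this]
    have hne : (Nat.card P.B : ℂ) ≠ 0 := Nat.cast_ne_zero.2 Nat.card_pos.ne'
    field_simp

theorem lift_flipW (f : Mdl P) (x : G) : lift (flipW f) x = lift f x⁻¹ := by
  rw [lift, lift, flipW_apply, wOf_inv]

theorem lift_wordR (l : List P.S) (hl : l.length = len (ev l)) (f : Mdl P) (x : G) :
    lift (wordR (deg P) l f) x = (Nat.card P.B : ℂ)⁻¹ * ∑ h ∈ cl (ev l), lift f (x * h) := by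
  rw [wordR, Module.End.mul_apply, Module.End.mul_apply, lift_flipW, lift_wordL l hl]
  simp only [lift_flipW, _root_.mul_inv_rev, inv_inv]

theorem idxP_card (w : Wq P) : ((cl w).card : ℝ) = Nat.card P.B * idxP (deg P) w := by
  have : ∀ l : List P.S, l.length = len (ev l) →
      ((cl (ev l)).card : ℝ) = Nat.card P.B * (l.map (deg P)).prod := by
    intro l
    induction l with
    | nil => intro _; simp [show ev ([] : List P.S) = 1 from rfl, card_cl_one]
    | cons s l ih =>
      intro hl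
      obtain ⟨h1, h2⟩ := red_tail hl
      rw [ev_cons, card_cl_gen_mul (adm_of_up h2), Nat.cast_mul, ih h1, List.map_cons,
        List.prod_cons, deg]
      ring
  have h := this (rword w) (red_rword w)
  rwa [ev_rword] at h

/-- The sum over a cell of a function invariant on the right under `B`. -/
theorem sum_cl_eq {ψ : G → ℂ} (hψ : ∀ b ∈ P.B, ∀ k, ψ (k * b) = ψ k) {w : Wq P} {h : G}
    (hh : h ∈ cl w) :
    (Nat.card P.B : ℂ) * ∑ k ∈ cl w, ψ k = ((cl w).card : ℂ) * ∑ b : P.B, ψ ((b : G) * h) := by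
  classical
  have h1 : ∀ k ∈ cl w, ∑ b : P.B, ψ ((b : G) * k) = ∑ b : P.B, ψ ((b : G) * h) := by
    intro k hk
    obtain ⟨c, hc, c', hc', rfl⟩ := BN.mem_cell.1 (mem_cl.1 hk)
    obtain ⟨d, hd, d', hd', rfl⟩ := BN.mem_cell.1 (mem_cl.1 hh)
    have key : ∀ e : G, ∀ he : e ∈ P.B, ∀ e' ∈ P.B, ∑ b : P.B, ψ ((b : G) * (e * rep w * e')) =
        ∑ b : P.B, ψ ((b : G) * rep w) := fun e he e' he' => by
      rw [← Equiv.sum_comp (Equiv.mulRight (⟨e, he⟩ : P.B)) fun b : P.B => ψ ((b : G) * rep w)]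
      refine Finset.sum_congr rfl fun b _ => ?_
      rw [show (b : G) * (e * rep w * e') = (b : G) * e * rep w * e' by group, hψ e' he']
      rfl
    rw [key c hc c' hc', key d hd d' hd']
  rw [← nsmul_eq_mul, ← nsmul_eq_mul, ← Finset.sum_const (s := cl w), ← Finset.sum_congr rfl h1]
  rw [Finset.sum_comm, Finset.sum_congr rfl fun b _ => sum_cl_mul_left b.2 ψ, Finset.sum_const,
    Finset.card_univ, ← Nat.card_eq_fintype_card]

/-- Averaging over `B`. -/
noncomputable def avgB : (G → ℂ) →ₗ[ℂ] Mdl P where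
  toFun F v := (Nat.card P.B : ℂ)⁻¹ * ∑ b : P.B, F (rep v * b)
  map_add' F F' := by funext v; simp [Finset.sum_add_distrib, mul_add]
  map_smul' c F := by funext v; simp [Finset.mul_sum, mul_left_comm]

theorem lift_avgB {F : G → ℂ} (hF : Cfsg.IsClassFunction G F) (x : G) :
    lift (avgB (P := P) F) x = (Nat.card P.B : ℂ)⁻¹ * ∑ b : P.B, F (x * b) := by
  refine lift_ext (R := fun x => (Nat.card P.B : ℂ)⁻¹ * ∑ b : P.B, F (x * b))
    (fun c hc x => ?_) (fun c hc x => ?_) (fun v => rfl) x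
  · try simp only
    congr 1
    rw [← Equiv.sum_comp (Equiv.mulRight (⟨c, hc⟩ : P.B)) fun b : P.B => F (x * b)]
    refine Finset.sum_congr rfl fun b _ => ?_
    rw [← hF (c * x * b) c⁻¹]
    congr 1
    simp [mul_assoc]
  · try simp only
    congr 1
    rw [← Equiv.sum_comp (Equiv.mulLeft (⟨c, hc⟩ : P.B)) fun b : P.B => F (x * b)]
    simp [mul_assoc]

theorem avgB_mem_centre [Fintype (Wq P)] {F : G → ℂ} (hF : Cfsg.IsClassFunction G F) :
    avgB (P := P) F ∈ centre (deg P) := by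
  rw [mem_centre]
  intro s
  funext v
  have hs : ([s] : List P.S).length = len (ev [s]) := by
    rw [List.length_singleton, show ev [s] = gen s * 1 by simp [ev]]
    rcases len_gen_mul_or (1 : Wq P) s with h1 | h1 <;> rw [len_one] at h1 <;> omega
  have e1 := lift_wordL [s] hs (avgB F) (rep v)
  have e2 := lift_wordR [s] hs (avgB F) (rep v)
  have hev : ev [s] = gen s := by simp [ev]
  rw [wordL_cons, wordL_nil, mul_one, lift_rep, hev] at e1
  rw [wordR_cons, wordR_nil, mul_one, lift_rep, hev] at e2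
  rw [e1, e2]
  congr 1
  simp only [lift_avgB hF, ← Finset.mul_sum]
  congr 1
  have h1 : ∑ h ∈ cl (gen s), ∑ b : P.B, F (h⁻¹ * rep v * b) =
      ∑ h ∈ cl (gen s), ∑ b : P.B, F (rep v * b * h) := by
    refine Finset.sum_bij (fun h _ => h⁻¹) (fun h hh => ?_) (fun a _ b _ e => inv_injective e)
      (fun h hh => ⟨h⁻¹, ?_, inv_inv h⟩) (fun h _ => ?_)
    · rw [mem_cl_iff] at hh ⊢
      rw [wOf_inv, hh, gen_inv]
    · rw [mem_cl_iff] at hh ⊢
      rw [wOf_inv, hh, gen_inv]
    · refine Finset.sum_congr rfl fun b _ => ?_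
      rw [← hF (h⁻¹ * rep v * b) h]
      congr 1
      group
  rw [h1, Finset.sum_comm, Finset.sum_comm (s := cl (gen s))]
  refine Finset.sum_congr rfl fun b _ => ?_
  calc ∑ h ∈ cl (gen s), F (rep v * b * h) = ∑ h ∈ cl (gen s), F (rep v * h) := by
        rw [← sum_cl_mul_left b.2 fun h => F (rep v * h)]
        exact Finset.sum_congr rfl fun h _ => by rw [mul_assoc]
    _ = ∑ h ∈ cl (gen s), F (rep v * h * b) := by
        rw [← sum_cl_mul_right b.2 fun h => F (rep v * h)]
        exact Finset.sum_congr rfl fun h _ => by rw [← mul_assoc]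

theorem centre_le_map [Fintype (Wq P)] {z : Mdl P} (hz : z ∈ centre (deg P)) :
    ∃ F : G → ℂ, Cfsg.IsClassFunction G F ∧ avgB (P := P) F = z := by
  classical
  rw [← range_casimir param_deg] at hz
  obtain ⟨f, rfl⟩ := hz
  let F : G → ℂ := fun x => (Nat.card P.B : ℂ)⁻¹ * ∑ g : G, lift f (g⁻¹ * x * g)
  have hF : Cfsg.IsClassFunction G F := fun x c => by
    show (Nat.card P.B : ℂ)⁻¹ * _ = (Nat.card P.B : ℂ)⁻¹ * _
    congr 1
    rw [← Equiv.sum_comp (Equiv.mulLeft c)]
    exact Finset.sum_congr rfl fun g _ => by simp [mul_assoc]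
  refine ⟨F, hF, funext fun v => ?_⟩
  have hB : (Nat.card P.B : ℂ) ≠ 0 := Nat.cast_ne_zero.2 Nat.card_pos.ne'
  have hw : ∀ w : Wq P, ((idxP (deg P) w : ℂ))⁻¹ * opT (deg P) w (opT' (deg P) w f) v =
      ((Nat.card P.B : ℂ)⁻¹ * (Nat.card P.B : ℂ)⁻¹) *
        ∑ g ∈ cl w, ∑ b : P.B, lift f (g⁻¹ * rep v * b * g) := by
    intro w
    rw [← lift_rep (opT (deg P) w (opT' (deg P) w f)) v, opT, opT', lift_wordL _ (red_rword w),
      ev_rword]
    simp only [lift_wordR _ (red_rword w), ev_rword, Finset.mul_sum]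
    refine Finset.sum_congr rfl fun h hh => ?_
    have e := sum_cl_eq (ψ := fun k => lift f (h⁻¹ * rep v * k))
      (fun b hb k => by simp only [← mul_assoc]; rw [lift, lift, wOf_mul_right hb]) hh
    simp only [← mul_assoc (h⁻¹ * rep v)] at e
    have hc := congrArg (fun r : ℝ => (r : ℂ)) (idxP_card w)
    push_cast at hc
    rw [hc, mul_assoc] at e
    have e' := mul_left_cancel₀ hB e
    have hi : (idxP (deg P) w : ℂ) ≠ 0 := by exact_mod_cast (idxP_pos param_deg w).ne'
    simp only [← Finset.mul_sum]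
    rw [e']
    field_simp
  simp only [casimir, LinearMap.coe_sum, Finset.sum_apply, LinearMap.smul_apply,
    Module.End.mul_apply, Pi.smul_apply, smul_eq_mul, hw, ← Finset.mul_sum]
  show (Nat.card P.B : ℂ)⁻¹ * _ = _
  simp only [F, ← Finset.mul_sum, ← mul_assoc]
  congr 1
  have hfib : ∀ w : Wq P, cl w = (Finset.univ : Finset G).filter fun g => wOf P g = w := fun w => by
    ext g; simp [mem_cl_iff]
  simp only [hfib]
  rw [Finset.sum_fiberwise, Finset.sum_comm]

variable (P) in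
/-- The constituents of the permutation character on the cosets of `B`. -/
def Constituent : Type _ :=
  {χ : Cfsg.IrrCharacter G // Cfsg.classInner χ.1 (Cfsg.fixedPointCharacter P.B) ≠ 0}

theorem classInner_fixed_B (χ : Cfsg.IrrCharacter G) :
    Cfsg.classInner χ.1 (Cfsg.fixedPointCharacter P.B) =
      (Nat.card P.B : ℂ)⁻¹ * ∑ b : P.B, χ.1 b := by
  rw [← indFun_one_eq_fixedPointCharacter, classInner_indFun_right P.B
    (Cfsg.Agent.H26.isClassFunction_of_isCharacter (Cfsg.Agent.H26.irr_isCharacter χ))]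
  simp [Cfsg.classInner]

theorem avgB_apply (F : G → ℂ) (v : Wq P) :
    avgB (P := P) F v = (Nat.card P.B : ℂ)⁻¹ * ∑ b : P.B, F (rep v * b) := rfl

theorem avgB_eq_zero {χ : Cfsg.IrrCharacter G}
    (h : Cfsg.classInner χ.1 (Cfsg.fixedPointCharacter P.B) = 0) : avgB (P := P) χ.1 = 0 := by
  classical
  rw [classInner_fixed_B, mul_eq_zero] at h
  have hB : (Nat.card P.B : ℂ) ≠ 0 := Nat.cast_ne_zero.2 Nat.card_pos.ne'
  have hs := h.resolve_left (inv_ne_zero hB)
  have hconj : ∀ g : G, conj (χ.1 g) = χ.1 g⁻¹ := fun g => by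
    obtain ⟨n, ρ, -, e⟩ := χ.2
    rw [← e, Cfsg.Agent.H26.char_inv_eq_conj]
  have hcl := Cfsg.Agent.H26.isClassFunction_of_isCharacter (Cfsg.Agent.H26.irr_isCharacter χ)
  set T : G → ℂ := fun x => ∑ b : P.B, χ.1 (x * b) with hT
  have hsum : ∑ x, T x * conj (T x) = 0 := by
    simp only [hT, map_sum, Finset.sum_mul, hconj]
    rw [Finset.sum_comm]
    simp only [Finset.mul_sum]
    have h1 : ∀ b b' : P.B, ∑ x, χ.1 (x * (b : G)) * χ.1 (x * (b' : G))⁻¹ =
        (Nat.card G : ℂ) / χ.1 1 * χ.1 ((b' : G)⁻¹ * b) := by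
      intro b b'
      have hcv := Cfsg.Agent.H43.sum_mul_inv_mul χ χ ((b' : G)⁻¹ * b)
      rw [if_pos rfl] at hcv
      rw [← hcv]
      conv_rhs => rw [← Equiv.sum_comp (Equiv.mulRight (b : G))]
      refine Finset.sum_congr rfl fun x _ => ?_
      simp only [Equiv.coe_mulRight]
      congr 1
      rw [← hcl ((x * b)⁻¹ * ((b' : G)⁻¹ * b)) ((b' : G)⁻¹ * b)]
      congr 1
      group
    rw [Finset.sum_congr rfl fun b _ => (Finset.sum_comm.trans (Finset.sum_congr rfl fun b' _ => h1 b b'))]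
    rw [Finset.sum_comm]
    refine Finset.sum_eq_zero fun b' _ => ?_
    rw [← Finset.mul_sum, ← Equiv.sum_comp (Equiv.mulLeft b') fun b : P.B => χ.1 ((b' : G)⁻¹ * b)]
    simp [hs]
  funext v
  have h2 : ∀ x, T x = 0 := by
    intro x
    have h3 : ∑ x, Complex.normSq (T x) = 0 := by
      have : (∑ x, (Complex.normSq (T x) : ℂ)) = 0 := by
        simp only [← Complex.mul_conj]; exact hsum
      exact_mod_cast this
    exact Complex.normSq_eq_zero.1
      ((Finset.sum_eq_zero_iff_of_nonneg fun x _ => Complex.normSq_nonneg _).1 h3 x (Finset.mem_univ _))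
  rw [avgB_apply, show ∑ b : P.B, χ.1 (rep v * b) = T (rep v) from rfl, h2, mul_zero]
  rfl

theorem linearIndependent_avgB :
    LinearIndependent ℂ fun χ : Constituent P => avgB (P := P) χ.1.1 := by
  classical
  have : Finite (Constituent P) := Subtype.finite
  have : Fintype (Constituent P) := Fintype.ofFinite _
  rw [Fintype.linearIndependent_iff]
  intro c hc ψ
  have hcl : ∀ χ : Cfsg.IrrCharacter G, Cfsg.IsClassFunction G χ.1 := fun χ =>
    Cfsg.Agent.H26.isClassFunction_of_isCharacter (Cfsg.Agent.H26.irr_isCharacter χ)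
  have h0 : ∀ x : G, ∑ χ : Constituent P, c χ * ∑ b : P.B, χ.1.1 (x * b) = 0 := by
    intro x
    have := congrFun hc (wOf P x)
    simp only [Finset.sum_apply, Pi.smul_apply, smul_eq_mul, Pi.zero_apply] at this
    have h2 : ∀ χ : Constituent P, avgB (P := P) χ.1.1 (wOf P x) =
        (Nat.card P.B : ℂ)⁻¹ * ∑ b : P.B, χ.1.1 (x * b) := fun χ => lift_avgB (hcl χ.1) x
    simp only [h2, mul_left_comm (c _), ← Finset.mul_sum, mul_eq_zero, inv_eq_zero] at this
    exact this.resolve_left (Nat.cast_ne_zero.2 Nat.card_pos.ne')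
  have h1 : ∑ g, ψ.1.1 g * ∑ χ : Constituent P, c χ * ∑ b : P.B, χ.1.1 (g⁻¹ * b) = 0 :=
    Finset.sum_eq_zero fun g _ => by rw [h0 g⁻¹, mul_zero]
  simp only [Finset.mul_sum] at h1
  rw [Finset.sum_comm] at h1
  have h3 : ∀ χ : Constituent P, ∑ g, ∑ b : P.B, ψ.1.1 g * (c χ * χ.1.1 (g⁻¹ * b)) =
      if ψ = χ then c χ * ((Nat.card G : ℂ) / ψ.1.1 1 * ∑ b : P.B, ψ.1.1 b) else 0 := by
    intro χ
    rw [Finset.sum_comm]
    simp only [mul_left_comm (ψ.1.1 _) (c χ), ← Finset.mul_sum, Cfsg.Agent.H43.sum_mul_inv_mul]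
    by_cases e : ψ = χ
    · subst e; simp [Finset.mul_sum]
    · rw [if_neg e]
      simp only [show ¬ ψ.1 = χ.1 from fun e' => e (Subtype.ext e'), if_false, Finset.sum_const_zero, mul_zero]
  simp only [h3, Finset.sum_ite_eq, Finset.mem_univ, if_true] at h1
  refine (mul_eq_zero.1 h1).resolve_right (mul_ne_zero ?_ ?_)
  · exact div_ne_zero (Nat.cast_ne_zero.2 Nat.card_pos.ne') (Cfsg.Agent.H26.irr_one_ne_zero ψ.1)
  · intro h
    exact ψ.2 (by rw [classInner_fixed_B, h, mul_zero])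

theorem finrank_centre_deg [Fintype (Wq P)] :
    finrank ℂ (centre (deg P)) = Nat.card (Constituent P) := by
  classical
  have : Finite (Constituent P) := Subtype.finite
  have : Fintype (Constituent P) := Fintype.ofFinite _
  have hspan : centre (deg P) = Submodule.span ℂ (Set.range fun χ : Constituent P => avgB (P := P) χ.1.1) := by
    refine le_antisymm (fun z hz => ?_) (Submodule.span_le.2 ?_)
    · obtain ⟨F, hF, rfl⟩ := centre_le_map hz
      rw [Cfsg.Agent.H26.class_function_expansion F hF, map_sum]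
      refine Submodule.sum_mem _ fun χ _ => ?_
      rw [map_smul]
      refine Submodule.smul_mem _ _ ?_
      by_cases h : Cfsg.classInner χ.1 (Cfsg.fixedPointCharacter P.B) = 0
      · rw [avgB_eq_zero h]; exact Submodule.zero_mem _
      · exact Submodule.subset_span ⟨⟨χ, h⟩, rfl⟩
    · rintro _ ⟨χ, rfl⟩
      exact avgB_mem_centre (Cfsg.Agent.H26.isClassFunction_of_isCharacter
        (Cfsg.Agent.H26.irr_isCharacter χ.1))
  rw [hspan, finrank_span_eq_card linearIndependent_avgB, Nat.card_eq_fintype_card]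

/-- **The constituents of the permutation character on the cosets of `B` are as many as the
conjugacy classes of the Weyl group.** -/
theorem card_constituents :
    Nat.card {χ : Cfsg.IrrCharacter G //
      ∃ φ : G → ℂ, Cfsg.IsCharacter G φ ∧ Cfsg.fixedPointCharacter P.B = (χ : G → ℂ) + φ} =
      Nat.card (ConjClasses (Wq P)) := by
  classical
  have : Fintype (Wq P) := Fintype.ofFinite _
  have : Fintype P.S := Fintype.ofFinite _
  rw [← finrank_centre_one, ← finrank_centre_eq param_deg, finrank_centre_deg]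
  refine Nat.card_congr (Equiv.subtypeEquivRight fun χ => ?_)
  have hflip : Cfsg.classInner χ.1 (Cfsg.fixedPointCharacter P.B) =
      conj (Cfsg.classInner (Cfsg.fixedPointCharacter P.B) χ.1) :=
    (Cfsg.Agent.H25.conj_classInner _ _).symm
  rw [hflip, ne_eq, map_eq_zero]
  constructor
  · rintro ⟨φ, hφ, he⟩ h
    obtain ⟨m, hm⟩ := exists_nat_classInner hφ χ
    rw [he, show (χ.1 : G → ℂ) + φ = fun g => χ.1 g + φ g from rfl] at h
    have h2 : Cfsg.classInner (fun g => χ.1 g + φ g) χ.1 =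
        Cfsg.classInner χ.1 χ.1 + Cfsg.classInner φ χ.1 := by
      simp [Cfsg.classInner, add_mul, Finset.sum_add_distrib, mul_add]
    rw [h2, classInner_self_irr χ.2, hm] at h
    exact Nat.succ_ne_zero m (by exact_mod_cast (show ((m + 1 : ℕ) : ℂ) = 0 by push_cast; linear_combination h))
  · exact fun h => exists_eq_add_of_classInner_ne_zero (isCharacter_fixed P.B) χ h

end Cfsg.Agent.H68.BNH
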