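import Cfsg.Agent.H68.BNHeckeGroup
import Cfsg.Agent.H46.BNPair

/-!
# Constituents of the permutation character on the cosets of `B` in a Chevalley group
-/

set_option autoImplicit false

namespace Cfsg.Agent.H68.ChevSt

open Cfsg Cfsg.Lie Cfsg.Agent.H46 Cfsg.Agent.H68.BNW

variable {F : Type*} [Field F] {D : ChevalleyDatum} (G : Good D)

include G in
theorem monomial_le_group : D.monomialSubgroup F ≤ D.group F := by
  refine sup_le ((Subgroup.closure_le _).2 ?_) ((Subgroup.closure_le _).2 ?_)
  · rintro g ⟨r, t, -, -, hg⟩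
    rw [G.eq_hg hg]; exact G.hg_mem_group _ _
  · rintro g ⟨r, -, hg⟩
    rw [G.eq_ng hg]; exact G.ng_mem_group _ _

include G in
theorem card_constituents [Fintype ↥(D.group F)] (P : BNPair ↥(D.group F))
    (hB : P.B = (D.borelSubgroup F).subgroupOf (D.group F))
    (hN : P.N = (D.monomialSubgroup F).subgroupOf (D.group F)) {W : Type*} [Group W]
    (φ : ↥(D.monomialSubgroup F) →* W) (hsurj : Function.Surjective φ)
    (hker : φ.ker = (D.diagonalSubgroup F).subgroupOf (D.monomialSubgroup F)) :
    Nat.card {χ : Cfsg.IrrCharacter ↥(D.group F) //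
      ∃ ψ : ↥(D.group F) → ℂ, Cfsg.IsCharacter ↥(D.group F) ψ ∧
        Cfsg.fixedPointCharacter ((D.borelSubgroup F).subgroupOf (D.group F)) =
          (χ : ↥(D.group F) → ℂ) + ψ} = Nat.card (ConjClasses W) := by
  rw [← hB, BNH.card_constituents (P := P)]
  have hmem : ∀ x : P.N, ((x : ↥(D.group F)) : GL D.Idx F) ∈ D.monomialSubgroup F := fun x => by
    have hx : (x : ↥(D.group F)) ∈ (D.monomialSubgroup F).subgroupOf (D.group F) := hN.le x.2
    exact hx
  let f : P.N →* ↥(D.monomialSubgroup F) :=
    { toFun := fun x => ⟨((x : ↥(D.group F)) : GL D.Idx F), hmem x⟩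
      map_one' := rfl
      map_mul' := fun _ _ => rfl }
  have hf : Function.Surjective f := fun y =>
    ⟨⟨⟨y.1, monomial_le_group G y.2⟩, by rw [hN, Subgroup.mem_subgroupOf]; exact y.2⟩, rfl⟩
  have hk : (φ.comp f).ker = P.B.subgroupOf P.N := by
    ext x
    rw [← MonoidHom.comap_ker, hker, Subgroup.mem_comap, Subgroup.mem_subgroupOf,
      Subgroup.mem_subgroupOf, hB, Subgroup.mem_subgroupOf, ← G.borel_inf_monomial]
    exact ⟨fun h => h.1, fun h => ⟨h, hmem x⟩⟩
  let e : Wq P ≃* W := (QuotientGroup.quotientMulEquivOfEq hk.symm).trans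
    (QuotientGroup.quotientKerEquivOfSurjective (φ.comp f) (hsurj.comp hf))
  refine Nat.card_eq_of_bijective (ConjClasses.map e.toMonoidHom)
    ⟨fun a b h => ?_, fun c => ?_⟩
  · induction a using Quotient.inductionOn with
    | h x =>
      induction b using Quotient.inductionOn with
      | h y =>
        have h' : IsConj (e x) (e y) := ConjClasses.mk_eq_mk_iff_isConj.1 h
        exact ConjClasses.mk_eq_mk_iff_isConj.2 (by simpa using e.symm.toMonoidHom.map_isConj h')
  · induction c using Quotient.inductionOn with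
    | h y => exact ⟨ConjClasses.mk (e.symm y), congrArg ConjClasses.mk (e.apply_symm_apply y)⟩

end Cfsg.Agent.H68.ChevSt
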