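import Cfsg.Agent.H68.ChevSteinberg
import Cfsg.Agent.H46.BNPair

/-!
# Descents in the Weyl group of a Chevalley group, read off on the roots

The inversion set of an element of the Weyl group, the longest element of a parabolic subgroup.
-/

set_option autoImplicit false

namespace Cfsg.Agent.H68.ChevUnip

open Cfsg Cfsg.Lie Cfsg.Agent.H46 Cfsg.Agent.H68.BNW

variable {D : ChevalleyDatum} (G : Good D) (F : Type*) [Field F]

/-- The distinguished generator of a fundamental root. -/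
noncomputable def e (i : Fin D.rank) : (G.bnPair (F := F)).S := ChevSt.idx G _ rfl i

theorem e_bijective : Function.Bijective (e G F) := ChevSt.idx_bijective G _ rfl

variable {F}

theorem mem_monomial {n : ↥(D.group F)} (h : n ∈ (G.bnPair (F := F)).N) :
    (n : GL D.Idx F) ∈ D.monomialSubgroup F := h

/-- The permutation of the roots of an element of the Weyl group. -/
noncomputable def prm (w : Wq (G.bnPair (F := F))) : Equiv.Perm (Fin D.nroots) :=
  G.perm ((rep w : ↥(D.group F)) : GL D.Idx F)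

theorem mem_diag_of_cong {n m : ↥(D.group F)} (hn : n ∈ (G.bnPair (F := F)).N)
    (hm : m ∈ (G.bnPair (F := F)).N) (h : cls n hn = cls m hm) :
    (n : GL D.Idx F)⁻¹ * (m : GL D.Idx F) ∈ D.diagonalSubgroup F := by
  have h1 : n⁻¹ * m ∈ (G.bnPair (F := F)).B := (cls_eq_iff hn hm).1 h
  rw [← G.borel_inf_monomial]
  exact Subgroup.mem_inf.2 ⟨h1, mul_mem (inv_mem (mem_monomial G hn)) (mem_monomial G hm)⟩

theorem prm_cls (n : ↥(D.group F)) (hn : n ∈ (G.bnPair (F := F)).N) :
    prm G (cls n hn) = G.perm (n : GL D.Idx F) := by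
  have hr := mem_monomial G (rep_mem (cls n hn))
  have hn' := mem_monomial G hn
  have h := mem_diag_of_cong G (rep_mem (cls n hn)) hn (cls_rep _)
  rw [← G.perm_eq_one_iff (mul_mem (inv_mem hr) hn'), G.perm_mul (inv_mem hr) hn',
    G.perm_inv hr, inv_mul_eq_one] at h
  exact h

theorem prm_mul (w v : Wq (G.bnPair (F := F))) : prm G (w * v) = prm G w * prm G v := by
  obtain ⟨n, hn, rfl⟩ := cls_surjective w
  obtain ⟨m, hm, rfl⟩ := cls_surjective v
  rw [cls_mul, prm_cls, prm_cls, prm_cls, Subgroup.coe_mul,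
    G.perm_mul (mem_monomial G hn) (mem_monomial G hm)]

theorem prm_one : prm G (1 : Wq (G.bnPair (F := F))) = 1 := by
  have h := prm_mul G (1 : Wq (G.bnPair (F := F))) 1
  rw [mul_one] at h
  exact left_eq_mul.1 h

theorem prm_inv (w : Wq (G.bnPair (F := F))) : prm G w⁻¹ = (prm G w)⁻¹ := by
  refine eq_inv_of_mul_eq_one_right ?_
  rw [← prm_mul, mul_inv_cancel, prm_one]

theorem prm_gen (i : Fin D.rank) : prm G (gen (e G F i)) = G.sPerm i := by
  rw [gen, prm_cls]; exact G.perm_ng_simple i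

theorem prm_ev (L : List (Fin D.rank)) :
    prm G (ev (L.map (e G F))) = (L.map G.sPerm).prod := by
  induction L with
  | nil => exact prm_one G
  | cons i L ih => rw [List.map_cons, ev_cons, prm_mul, prm_gen, ih, List.map_cons, List.prod_cons]

theorem prm_ev_eq_nProd (L : List (Fin D.rank)) :
    prm G (ev (L.map (e G F))) = G.perm (G.nProd L : GL D.Idx F) := by
  rw [prm_ev, G.perm_nProd]

theorem eq_one_of_pos {w : Wq (G.bnPair (F := F))}
    (h : ∀ i, D.IsPosRoot (prm G w (G.simpleF i))) : w = 1 := by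
  obtain ⟨n, hn, rfl⟩ := cls_surjective w
  simp only [prm_cls] at h
  have h1 := G.mem_diagonal_of_pos (mem_monomial G hn) h
  show _ = cls 1 (one_mem _)
  rw [cls_eq_iff]
  show n⁻¹ * 1 ∈ (G.bnPair (F := F)).B
  rw [mul_one]
  exact inv_mem (show n ∈ (G.bnPair (F := F)).B from Subgroup.mem_sup_right h1)

theorem prm_injective : Function.Injective (prm G (F := F)) := by
  intro w v h
  refine (inv_mul_eq_one.1 (eq_one_of_pos G fun i => ?_))
  rw [prm_mul, prm_inv, h, inv_mul_cancel]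
  exact G.isPosRoot_simple i.2

theorem prm_negF (w : Wq (G.bnPair (F := F))) (s : Fin D.nroots) :
    prm G w (G.negF s) = G.negF (prm G w s) :=
  G.perm_negF (mem_monomial G (rep_mem w)) s

theorem desc_of_neg {w : Wq (G.bnPair (F := F))} {i : Fin D.rank}
    (h : D.IsNegRoot (prm G w (G.simpleF i))) : IsRDesc w (e G F i) := by
  obtain ⟨l, hl, hll⟩ := exists_word_len w
  obtain ⟨L, rfl⟩ := List.map_surjective_iff.2 (e_bijective G F).2 l
  rw [← hl, prm_ev_eq_nProd] at h
  obtain ⟨L', hlen, hmem⟩ := G.exchange L i h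
  have hev : ev (L'.map (e G F)) = w * gen (e G F i) := by
    refine prm_injective G ?_
    rw [prm_mul, ← hl, prm_gen, prm_ev_eq_nProd, prm_ev_eq_nProd, ← G.perm_ng_simple (F := F) i,
      ← G.perm_mul (G.nProd_mem L) (G.ng_mem_monomial (G.simple_lt i.2))]
    have hL' : (G.nProd L' : GL D.Idx F) ∈ D.monomialSubgroup F := G.nProd_mem L'
    have hR : (G.nProd L : GL D.Idx F) * G.ng (D.simple i) 1 ∈ D.monomialSubgroup F :=
      mul_mem (G.nProd_mem L) (G.ng_mem_monomial (G.simple_lt i.2))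
    rw [← G.perm_eq_one_iff (mul_mem (inv_mem hL') hR), G.perm_mul (inv_mem hL') hR,
      G.perm_inv hL', inv_mul_eq_one] at hmem
    exact hmem
  show len (w * gen (e G F i)) < len w
  rw [← hev, ← hll, List.length_map]
  exact lt_of_le_of_lt (len_le _) (by rwa [List.length_map])

theorem isRDesc_iff {w : Wq (G.bnPair (F := F))} {i : Fin D.rank} :
    IsRDesc w (e G F i) ↔ D.IsNegRoot (prm G w (G.simpleF i)) := by
  refine ⟨fun hd => ?_, desc_of_neg G⟩
  by_contra hc
  have hp := (G.isPosRoot_iff_not_neg (prm G w (G.simpleF i)).2).2 hc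
  have h1 : IsRDesc (w * gen (e G F i)) (e G F i) := desc_of_neg G (by
    rw [prm_mul, prm_gen, Equiv.Perm.mul_apply, G.sPerm_simple, prm_negF]
    exact G.isNegRoot_neg hp)
  rw [IsRDesc, mul_assoc, gen_mul_self, mul_one] at h1
  rw [IsRDesc] at hd
  omega

theorem not_isRDesc_iff {w : Wq (G.bnPair (F := F))} {i : Fin D.rank} :
    ¬ IsRDesc w (e G F i) ↔ D.IsPosRoot (prm G w (G.simpleF i)) := by
  rw [isRDesc_iff, G.isPosRoot_iff_not_neg (prm G w (G.simpleF i)).2]

/-! ### Parabolic subgroups of the Weyl group -/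

/-- The element is a product of fundamental reflections in `J`. -/
def InW (J : Finset (Fin D.rank)) (w : Wq (G.bnPair (F := F))) : Prop :=
  ∃ L : List (Fin D.rank), (∀ i ∈ L, i ∈ J) ∧ ev (L.map (e G F)) = w

variable {G}

theorem InW.one {J : Finset (Fin D.rank)} : InW G J (1 : Wq (G.bnPair (F := F))) :=
  ⟨[], by simp, rfl⟩

theorem InW.gen_mem {J : Finset (Fin D.rank)} {i : Fin D.rank} (hi : i ∈ J) :
    InW G J (gen (e G F i)) := ⟨[i], by simpa, by simp⟩

theorem InW.mul {J : Finset (Fin D.rank)} {w v : Wq (G.bnPair (F := F))}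
    (hw : InW G J w) (hv : InW G J v) : InW G J (w * v) := by
  obtain ⟨a, ha, rfl⟩ := hw
  obtain ⟨b, hb, rfl⟩ := hv
  exact ⟨a ++ b, fun i hi => (List.mem_append.1 hi).elim (ha i) (hb i), by simp⟩

theorem InW.inv {J : Finset (Fin D.rank)} {w : Wq (G.bnPair (F := F))}
    (hw : InW G J w) : InW G J w⁻¹ := by
  obtain ⟨a, ha, rfl⟩ := hw
  exact ⟨a.reverse, fun i hi => ha i (List.mem_reverse.1 hi), by rw [List.map_reverse, ev_reverse]⟩

theorem InW.mono {K J : Finset (Fin D.rank)} (hKJ : K ⊆ J) {w : Wq (G.bnPair (F := F))}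
    (hw : InW G K w) : InW G J w := by
  obtain ⟨a, ha, rfl⟩ := hw
  exact ⟨a, fun i hi => hKJ (ha i hi), rfl⟩

variable (G)

/-- The positive roots supported on `J`. -/
def phi (J : Finset (Fin D.rank)) : Set ℕ :=
  {r | D.IsPosRoot r ∧ ∀ k, k ∉ J → G.rc r k = 0}

variable {G}

theorem mem_phi {J : Finset (Fin D.rank)} {r : ℕ} :
    r ∈ phi G J ↔ D.IsPosRoot r ∧ ∀ k, k ∉ J → G.rc r k = 0 := Iff.rfl

theorem simple_mem_phi {J : Finset (Fin D.rank)} {i : Fin D.rank} (hi : i ∈ J) :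
    (G.simpleF i : ℕ) ∈ phi G J := by
  refine ⟨G.isPosRoot_simple i.2, fun k hk => ?_⟩
  simp only [Good.simpleF, G.rc_simple i.2]
  exact Pi.single_eq_of_ne (fun h => hk (by rwa [h])) _

theorem InW.rc_outside {J : Finset (Fin D.rank)} {w : Wq (G.bnPair (F := F))} (hw : InW G J w)
    (s : Fin D.nroots) {k : Fin D.rank} (hk : k ∉ J) : G.rc (prm G w s) k = G.rc s k := by
  obtain ⟨L, hL, rfl⟩ := hw
  rw [prm_ev]
  induction L with
  | nil => simp
  | cons i L ih =>
    have hi : i ∈ J := hL i (by simp)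
    rw [List.map_cons, List.prod_cons, Equiv.Perm.mul_apply, G.sPerm_apply,
      G.rc_reflect i.2 ((L.map G.sPerm).prod s).2]
    have hki : k ≠ i := fun h => hk (h ▸ hi)
    simp [hki, ih fun j hj => hL j (by simp [hj])]

theorem InW.out_pos {J : Finset (Fin D.rank)} {w : Wq (G.bnPair (F := F))} (hw : InW G J w)
    {s : Fin D.nroots} (hs : D.IsPosRoot s) (ho : (s : ℕ) ∉ phi G J) :
    D.IsPosRoot (prm G w s) ∧ (prm G w s : ℕ) ∉ phi G J := by
  obtain ⟨k, hk, hne⟩ : ∃ k, k ∉ J ∧ G.rc s k ≠ 0 := by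
    by_contra h
    push Not at h
    exact ho ⟨hs, h⟩
  refine ⟨?_, fun h => hne (by rw [← hw.rc_outside s hk]; exact h.2 k hk)⟩
  rw [G.isPosRoot_iff_not_neg (prm G w s).2]
  intro hn
  have h1 := G.rc_nonneg (G.isPosRoot_neg hn) k
  rw [G.rc_neg hn.1, Pi.neg_apply, hw.rc_outside s hk] at h1
  have h2 := G.rc_nonneg hs k
  omega

theorem linear_sign {w : Wq (G.bnPair (F := F))} (ε : ℤ) {s : Fin D.nroots} (hs : D.IsPosRoot s)
    (h : ∀ j, G.rc s j ≠ 0 → ∀ k, 0 ≤ ε * G.rc (prm G w (G.simpleF j)) k) (k : Fin D.rank) :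
    0 ≤ ε * G.rc (prm G w s) k := by
  obtain ⟨-, -, L, hL⟩ := G.monRel_perm (mem_monomial G (rep_mem w))
  have he : G.rc s = ∑ j, G.rc s j • G.rc (G.simpleF j) := by
    funext m
    simp [Good.simpleF, G.rc_simple, Finset.sum_apply, Pi.single_apply]
  show 0 ≤ ε * G.rc (G.perm _ s) k
  rw [hL, he, map_sum, Finset.sum_apply, Finset.mul_sum]
  refine Finset.sum_nonneg fun j _ => ?_
  by_cases hj : G.rc s j = 0
  · simp [hj]
  rw [map_smul, Pi.smul_apply, smul_eq_mul, ← hL, mul_left_comm]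
  exact mul_nonneg (G.rc_nonneg hs j) (h j hj k)

theorem neg_of_phi {J : Finset (Fin D.rank)} {w : Wq (G.bnPair (F := F))}
    (h : ∀ i ∈ J, D.IsNegRoot (prm G w (G.simpleF i))) {s : Fin D.nroots}
    (hs : (s : ℕ) ∈ phi G J) : D.IsNegRoot (prm G w s) := by
  refine (G.isPosRoot_or_isNegRoot (prm G w s).2).resolve_left fun hp => ?_
  refine G.rc_ne_zero (prm G w s).2 (funext fun k => le_antisymm ?_ (G.rc_nonneg hp k))
  have h1 := linear_sign (w := w) (-1) hs.1 (fun j hj k => ?_) k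
  · simp only [Pi.zero_apply]; omega
  · have hjJ : j ∈ J := by_contra fun hc => hj (hs.2 j hc)
    have h2 := G.rc_nonneg (G.isPosRoot_neg (h j hjJ)) k
    rw [G.rc_neg (prm G w (G.simpleF j)).2, Pi.neg_apply] at h2
    omega

theorem pos_of_phi {J : Finset (Fin D.rank)} {w : Wq (G.bnPair (F := F))}
    (h : ∀ i ∈ J, D.IsPosRoot (prm G w (G.simpleF i))) {s : Fin D.nroots}
    (hs : (s : ℕ) ∈ phi G J) : D.IsPosRoot (prm G w s) := by
  refine G.isPosRoot_of_rc_nonneg (prm G w s).2 fun k => ?_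
  have h1 := linear_sign (w := w) 1 hs.1 (fun j hj k => ?_) k
  · omega
  · have hjJ : j ∈ J := by_contra fun hc => hj (hs.2 j hc)
    have h2 := G.rc_nonneg (h j hjJ) k
    omega

theorem eq_one_of_no_desc {J : Finset (Fin D.rank)} {w : Wq (G.bnPair (F := F))} (hw : InW G J w)
    (h : ∀ i ∈ J, D.IsPosRoot (prm G w (G.simpleF i))) : w = 1 := by
  refine eq_one_of_pos G fun i => ?_
  by_cases hi : i ∈ J
  · exact h i hi
  · refine (hw.out_pos (G.isPosRoot_simple i.2) fun hc => ?_).1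
    have := hc.2 i hi
    simp [Good.simpleF, G.rc_simple] at this

variable (G)

/-- Every fundamental root of `J` is made negative. -/
def IsLongest (J : Finset (Fin D.rank)) (w : Wq (G.bnPair (F := F))) : Prop :=
  InW G J w ∧ ∀ i ∈ J, D.IsNegRoot (prm G w (G.simpleF i))

variable {G}

theorem IsLongest.invSet_iff {J : Finset (Fin D.rank)} {w : Wq (G.bnPair (F := F))}
    (hw : IsLongest G J w) {s : Fin D.nroots} :
    D.IsPosRoot s ∧ D.IsNegRoot (prm G w s) ↔ (s : ℕ) ∈ phi G J := by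
  refine ⟨fun h => ?_, fun h => ⟨h.1, neg_of_phi hw.2 h⟩⟩
  by_contra hc
  exact G.not_isNegRoot (hw.1.out_pos h.1 hc).1 h.2

theorem IsLongest.negF_mem {J : Finset (Fin D.rank)} {w : Wq (G.bnPair (F := F))}
    (hw : IsLongest G J w) {s : Fin D.nroots} (hs : (s : ℕ) ∈ phi G J) :
    (G.negF (prm G w s) : ℕ) ∈ phi G J := by
  refine ⟨G.isPosRoot_neg (neg_of_phi hw.2 hs), fun k hk => ?_⟩
  rw [G.rc_negF, Pi.neg_apply, hw.1.rc_outside s hk, hs.2 k hk, neg_zero]

theorem IsLongest.unique {J : Finset (Fin D.rank)} {w v : Wq (G.bnPair (F := F))}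
    (hw : IsLongest G J w) (hv : IsLongest G J v) : w = v := by
  refine inv_mul_eq_one.1 (eq_one_of_no_desc (hw.1.inv.mul hv.1) fun i hi => ?_)
  set t := prm G (w⁻¹ * v) (G.simpleF i) with ht
  have h1 : prm G w t = prm G v (G.simpleF i) := by
    rw [ht, ← Equiv.Perm.mul_apply, ← prm_mul, mul_inv_cancel_left]
  refine (G.isPosRoot_or_isNegRoot t.2).resolve_right fun hn => ?_
  have ht' : (G.negF t : ℕ) ∈ phi G J := by
    refine ⟨G.isPosRoot_neg hn, fun k hk => ?_⟩
    rw [G.rc_negF, Pi.neg_apply, ht, (hw.1.inv.mul hv.1).rc_outside _ hk,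
      (simple_mem_phi hi).2 k hk, neg_zero]
  have h2 := neg_of_phi hw.2 ht'
  rw [prm_negF, h1, G.isNegRoot_negF] at h2
  exact G.not_isNegRoot h2 (hv.2 i hi)

theorem exists_longest [Finite (Wq (G.bnPair (F := F)))] (J : Finset (Fin D.rank)) :
    ∃ w, IsLongest (F := F) G J w := by
  obtain ⟨w, hw, hmax⟩ := Set.exists_max_image {w : Wq (G.bnPair (F := F)) | InW G J w} len
    (Set.toFinite _) ⟨1, InW.one⟩
  refine ⟨w, hw, fun i hi => (isRDesc_iff G).1 ?_⟩
  by_contra hd
  have h1 := hmax _ (hw.mul (InW.gen_mem hi))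
  rw [len_mul_gen hd] at h1
  omega

/-- The inversion set. -/
noncomputable def invF (w : Wq (G.bnPair (F := F))) : Finset (Fin D.nroots) :=
  open scoped Classical in Finset.univ.filter fun s => D.IsPosRoot s ∧ D.IsNegRoot (prm G w s)

theorem mem_invF {w : Wq (G.bnPair (F := F))} {s : Fin D.nroots} :
    s ∈ invF w ↔ D.IsPosRoot s ∧ D.IsNegRoot (prm G w s) := by
  classical
  simp [invF]

theorem card_invF_inv (w : Wq (G.bnPair (F := F))) : (invF w⁻¹).card = (invF w).card := by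
  symm
  refine Finset.card_bij (fun s _ => G.negF (prm G w s)) (fun s hs => ?_) (fun a _ b _ h => ?_)
    (fun t ht => ?_)
  · rw [mem_invF] at hs ⊢
    refine ⟨G.isPosRoot_neg hs.2, ?_⟩
    rw [prm_negF, prm_inv, Equiv.Perm.inv_def, Equiv.symm_apply_apply]
    exact G.isNegRoot_neg hs.1
  · exact (prm G w).injective (by rw [← G.negF_negF (prm G w a), h, G.negF_negF])
  · rw [mem_invF] at ht
    refine ⟨G.negF (prm G w⁻¹ t), mem_invF.2 ⟨G.isPosRoot_neg ht.2, ?_⟩, ?_⟩
    · rw [prm_negF, prm_inv, Equiv.Perm.inv_def, Equiv.apply_symm_apply]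
      exact G.isNegRoot_neg ht.1
    · rw [prm_negF, prm_inv, Equiv.Perm.inv_def, Equiv.apply_symm_apply, G.negF_negF]

/-- Multiplying by a longest element adds the lengths. -/
theorem card_invF_mul {K : Finset (Fin D.rank)} {w v : Wq (G.bnPair (F := F))}
    (hv : IsLongest G K v) (h : ∀ i ∈ K, D.IsPosRoot (prm G w (G.simpleF i))) :
    (invF (w * v)).card = (invF w).card + (invF v).card := by
  classical
  have hsub : ∀ t ∈ invF w, (t : ℕ) ∉ phi G K := fun t ht hc =>
    G.not_isNegRoot (pos_of_phi h hc) (mem_invF.1 ht).2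
  have hpre : ∀ t : Fin D.nroots, D.IsPosRoot t → (t : ℕ) ∉ phi G K →
      D.IsPosRoot (prm G v⁻¹ t) ∧ (prm G v⁻¹ t : ℕ) ∉ phi G K := fun t h1 h2 =>
    hv.1.inv.out_pos h1 h2
  have heq : invF (w * v) = invF v ∪ (invF w).map (prm G v⁻¹).toEmbedding := by
    ext s
    rw [Finset.mem_union, mem_invF, Finset.mem_map_equiv, prm_inv, ← Equiv.Perm.inv_def, inv_inv,
      mem_invF, mem_invF, prm_mul, Equiv.Perm.mul_apply]
    constructor
    · rintro ⟨h1, h2⟩
      by_cases hs : (s : ℕ) ∈ phi G K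
      · exact Or.inl ⟨h1, neg_of_phi hv.2 hs⟩
      · exact Or.inr ⟨(hv.1.out_pos h1 hs).1, h2⟩
    · rintro (h1 | ⟨h1, h2⟩)
      · refine ⟨h1.1, ?_⟩
        have hs := hv.invSet_iff.1 h1
        have h3 := G.isNegRoot_neg (pos_of_phi h (hv.negF_mem hs))
        have h4 : G.negF (prm G w (G.negF (prm G v s))) = prm G w (prm G v s) := by
          rw [← prm_negF, G.negF_negF]
        rw [← h4]
        exact h3
      · have h3 := hpre _ h1 (hsub _ (mem_invF.2 ⟨h1, h2⟩))
        rw [prm_inv, Equiv.Perm.inv_def, Equiv.symm_apply_apply] at h3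
        exact ⟨h3.1, h2⟩
  rw [heq, Finset.card_union_of_disjoint, Finset.card_map, add_comm]
  rw [Finset.disjoint_left]
  intro s hs hs'
  obtain ⟨t, ht, rfl⟩ := Finset.mem_map.1 hs'
  exact (hpre t (mem_invF.1 ht).1 (hsub t ht)).2 (hv.invSet_iff.1 (mem_invF.1 hs))

end Cfsg.Agent.H68.ChevUnip
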