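import Cfsg.Agent.H68.ChevDefectZero
import Cfsg.Agent.H56.Coprime

/-!
# The values of the Steinberg character on semisimple elements

The average of the Steinberg character over the radical of a parabolic subgroup `P_K` is the
Steinberg function of `P_K`; for an element of `P_K` lying in no smaller parabolic this is `± 1`.
-/

set_option autoImplicit false

namespace Cfsg.Agent.H68.ChevStVal

open Cfsg Cfsg.Lie Cfsg.Agent.H46 Cfsg.Agent.H68 Cfsg.Agent.H68.BNW
open Cfsg.Agent.H68.ChevUnip (e pJ nPhi fixJK stJ radU)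
open Cfsg.Agent.H8
open scoped ComplexConjugate

section Average

variable {H : Type*} [Group H] [Fintype H]

/-- The average of an irreducible character over a normal subgroup is the character or zero. -/
theorem irr_avg (R : Subgroup H) [R.Normal] [Fintype R] (χ : Cfsg.IrrCharacter H) :
    ∃ c : ℂ, (c = 0 ∨ c = 1) ∧ ∀ x, (Nat.card R : ℂ)⁻¹ * ∑ r : R, χ.1 (x * r) = c * χ.1 x := by
  classical
  obtain ⟨n, ρ, hρ, hχ⟩ := χ.2
  obtain ⟨c, hc⟩ := Hecke.exists_scalar (ρ := ρ) (Hecke.avg R ρ) fun g =>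
    (Hecke.rho_avg_comm (Subgroup.normalizer_eq_top R ▸ Subgroup.mem_top g)).symm
  have hn : (n : ℂ) ≠ 0 := by
    have := H25.finrank_pos_of_isIrreducible ρ
    rw [Module.finrank_fin_fun] at this
    exact Nat.cast_ne_zero.2 this.ne'
  refine ⟨c, ?_, fun x => ?_⟩
  · have h2 := Hecke.avg_mul_avg (U := R) (ρ := ρ)
    rw [hc, smul_mul_assoc, one_mul, smul_smul] at h2
    have h3 := congrArg (LinearMap.trace ℂ (Fin n → ℂ)) h2
    simp only [map_smul, smul_eq_mul, LinearMap.trace_one, Module.finrank_fin_fun] at h3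
    have h4 : c * (c - 1) = 0 := by
      have := mul_right_cancel₀ hn h3
      linear_combination this
    rcases mul_eq_zero.1 h4 with h5 | h5
    · exact Or.inl h5
    · exact Or.inr (sub_eq_zero.1 h5)
  · have h1 := congrArg (fun A => LinearMap.trace ℂ (Fin n → ℂ) (ρ x * A)) hc
    simp only [mul_smul_comm, mul_one, map_smul, smul_eq_mul, Hecke.avg, Finset.mul_sum, map_sum] at h1
    rw [← hχ]
    simp only [Representation.character, map_mul]
    rw [← h1, Finset.mul_sum]
    convert rfl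

/-- A character with inner product one with a virtual character of norm one invariant under a
normal subgroup, with the same averaged degree, averages to that virtual character. -/
theorem avg_eq_of_norm_one (R : Subgroup H) [R.Normal] [Fintype R] {φ ψ : H → ℂ}
    (hφ : Cfsg.IsCharacter H φ) (hφc : Cfsg.IsClassFunction H φ) (hψc : Cfsg.IsClassFunction H ψ)
    (hψZ : ∀ χ : Cfsg.IrrCharacter H, ∃ z : ℤ, Cfsg.classInner ψ χ.1 = z)
    (h1 : Cfsg.classInner φ ψ = 1) (h2 : Cfsg.classInner ψ ψ = 1)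
    (hψR : ∀ x, ∀ r ∈ R, ψ (x * r) = ψ x)
    (hdeg1 : (Nat.card R : ℂ)⁻¹ * ∑ r : R, φ (1 * r) = ψ 1) (x : H) :
    (Nat.card R : ℂ)⁻¹ * ∑ r : R, φ (x * r) = ψ x := by
  classical
  choose z hz using hψZ
  choose d hd using fun χ => exists_nat_classInner hφ χ
  choose deg hdeg using fun χ : Cfsg.IrrCharacter H =>
    H26.exists_nat_char_one (H26.irr_isCharacter χ)
  have hsum : ∑ χ, z χ ^ 2 = 1 := by
    have := Cfsg.Agent.H26.classInner_eq_sum ψ ψ hψc
    simp only [h2, hz, map_intCast, ← Int.cast_mul, ← Int.cast_sum] at this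
    simp only [pow_two]
    exact_mod_cast this.symm
  obtain ⟨χ₀, hχ₀⟩ : ∃ χ, z χ ≠ 0 := by
    by_contra h
    push Not at h
    simp [h] at hsum
  have hothers : ∀ χ, χ ≠ χ₀ → z χ = 0 := by
    intro χ hχ
    by_contra h0
    have h : ∑ θ ∈ ({χ₀, χ} : Finset _), z θ ^ 2 ≤ 1 := hsum ▸
      Finset.sum_le_sum_of_subset_of_nonneg (Finset.subset_univ _) fun θ _ _ => sq_nonneg _
    rw [Finset.sum_pair (Ne.symm hχ)] at h
    nlinarith [Int.one_le_abs hχ₀, Int.one_le_abs h0, sq_abs (z χ₀), sq_abs (z χ)]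
  have hprod : (d χ₀ : ℤ) * z χ₀ = 1 := by
    have := Cfsg.Agent.H26.classInner_eq_sum φ ψ hφc
    rw [h1, Fintype.sum_eq_single χ₀ fun χ hχ => by rw [hz, hothers χ hχ]; simp, hz, hd,
      map_intCast] at this
    exact_mod_cast this.symm
  obtain ⟨hd1, hz1⟩ : d χ₀ = 1 ∧ z χ₀ = 1 := by
    rcases Int.mul_eq_one_iff_eq_one_or_neg_one.1 hprod with ⟨a, b⟩ | ⟨a, b⟩
    · exact ⟨by exact_mod_cast a, b⟩
    · omega
  have hst : ψ = χ₀.1 := by
    rw [Cfsg.Agent.H26.class_function_expansion ψ hψc,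
      Fintype.sum_eq_single χ₀ fun χ hχ => by rw [hz, hothers χ hχ, Int.cast_zero, zero_smul], hz,
      hz1, Int.cast_one, one_smul]
  subst hst
  choose c hc01 hc using fun χ => irr_avg R χ
  have hexp : ∀ y, φ y = ∑ χ, (d χ : ℂ) * χ.1 y := fun y => by
    conv_lhs => rw [Cfsg.Agent.H26.class_function_expansion φ hφc]
    simp [Finset.sum_apply, hd]
  have hR0 : (Nat.card R : ℂ) ≠ 0 := Nat.cast_ne_zero.2 Nat.card_pos.ne'
  have havg : ∀ y, (Nat.card R : ℂ)⁻¹ * ∑ r : R, φ (y * r) = ∑ χ, (d χ : ℂ) * (c χ * χ.1 y) := fun y => by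
    simp only [hexp]
    rw [Finset.sum_comm, Finset.mul_sum]
    refine Finset.sum_congr rfl fun χ _ => ?_
    rw [← Finset.mul_sum, mul_left_comm, hc]
  have hc0 : c χ₀ = 1 := by
    refine (hc01 χ₀).resolve_left fun h0 => ?_
    have h := hc χ₀ 1
    rw [h0, zero_mul, Fintype.sum_congr _ _ fun r : R => hψR 1 r r.2, Finset.sum_const,
      Finset.card_univ, nsmul_eq_mul, ← Nat.card_eq_fintype_card, inv_mul_cancel_left₀ hR0] at h
    exact H26.irr_one_ne_zero χ₀ h
  have hzero : ∀ χ, χ ≠ χ₀ → (d χ : ℂ) * c χ = 0 := by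
    rw [havg, ← Finset.add_sum_erase _ _ (Finset.mem_univ χ₀), hd1, hc0, Nat.cast_one, one_mul,
      one_mul, add_eq_left] at hdeg1
    have hnat : ∀ χ, ∃ m : ℕ, (d χ : ℂ) * (c χ * χ.1 1) = m ∧ (m = 0 → (d χ : ℂ) * c χ = 0) := fun χ => by
      rcases hc01 χ with h | h
      · exact ⟨0, by simp [h], fun _ => by simp [h]⟩
      · refine ⟨d χ * deg χ, by simp [h, hdeg], fun h0 => ?_⟩
        rcases Nat.mul_eq_zero.1 h0 with h3 | h3
        · simp [h3]
        · exact absurd (by rw [hdeg, h3, Nat.cast_zero]) (H26.irr_one_ne_zero χ)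
    choose m hm hm0 using hnat
    simp only [hm] at hdeg1
    rw [← Nat.cast_sum, Nat.cast_eq_zero, Finset.sum_eq_zero_iff] at hdeg1
    exact fun χ hχ => hm0 χ (hdeg1 χ (Finset.mem_erase.2 ⟨hχ, Finset.mem_univ _⟩))
  rw [havg, Fintype.sum_eq_single χ₀ fun χ hχ => by rw [← mul_assoc, hzero χ hχ, zero_mul], hd1, hc0,
    Nat.cast_one, one_mul, one_mul]

/-- The inner product with a permutation character of a smaller subgroup, inside a subgroup. -/
theorem classInner_res_fixed {A B : Subgroup H} [Fintype A] [Fintype B] (hBA : B ≤ A) {f : H → ℂ}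
    (hf : Cfsg.IsClassFunction H f) :
    Cfsg.classInner (fun a : A => f a) (Cfsg.fixedPointCharacter (B.subgroupOf A)) =
      (Nat.card B : ℂ)⁻¹ * ∑ b : B, f b := by
  classical
  rw [← indFun_one_eq_fixedPointCharacter,
    classInner_indFun_right _ (show Cfsg.IsClassFunction A (fun a : A => f a) from
      fun g y => hf (g : H) (y : H)), Cfsg.classInner]
  simp only [map_one, mul_one]
  rw [Nat.card_congr (Subgroup.subgroupOfEquivOfLe hBA).toEquiv]
  congr 1
  exact Fintype.sum_equiv (Subgroup.subgroupOfEquivOfLe hBA).toEquiv _ _ fun _ => rfl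

/-- An element times an element commuting with it of coprime order. -/
theorem dvd_orderOf_mul {p : ℕ} {s u : H} (hc : Commute s u) {k : ℕ} (hu : orderOf u = p ^ k)
    (hu1 : u ≠ 1) (hs : Nat.Coprime (orderOf s) p) : p ∣ orderOf (s * u) := by
  rw [hc.orderOf_mul_eq_mul_orderOf_of_coprime (by rw [hu]; exact hs.pow_right k), hu]
  refine dvd_mul_of_dvd_right (dvd_pow_self p fun h0 => hu1 ?_) _
  rw [h0, pow_zero, orderOf_eq_one_iff] at hu
  exact hu

/-- A value of a character vanishing on the `p`-singular elements is divisible by the order of a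
`p`-subgroup of the centraliser. -/
theorem isIntegral_div {n : ℕ} (ρ : Representation ℂ H (Fin n → ℂ)) {p : ℕ} [Fact p.Prime]
    (hvan : ∀ x, p ∣ orderOf x → ρ.character x = 0) {s : H} (hs : Nat.Coprime (orderOf s) p)
    (Q : Subgroup H) (hQ : IsPGroup p Q) (hQs : ∀ u ∈ Q, Commute s u) :
    IsIntegral ℤ (ρ.character s / (Nat.card Q : ℂ)) := by
  classical
  letI : Fintype Q := Fintype.ofFinite Q
  have hnorm : s ∈ Subgroup.normalizer (Q : Set H) := Subgroup.mem_normalizer_iff.2 fun x => by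
    refine ⟨fun hx => ?_, fun hx => ?_⟩
    · rwa [(hQs x hx).eq, mul_inv_cancel_right]
    · have e : s * x * s⁻¹ = x := mul_left_cancel (a := s) (by rw [(hQs _ hx).eq]; group)
      rwa [e] at hx
  set P := Hecke.avg Q ρ with hP
  have hcomm : ρ s * P = P * ρ s := Hecke.rho_avg_comm hnorm
  have hpow : ∀ m : ℕ, (ρ s * P) ^ (m + 1) = ρ (s ^ (m + 1)) * P := by
    intro m
    induction m with
    | zero => rw [pow_one, pow_one]
    | succ m ih =>
      rw [pow_succ, ih, pow_succ s (m + 1), map_mul, mul_assoc, ← mul_assoc P, ← hcomm,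
        mul_assoc (ρ s) P P, hP, Hecke.avg_mul_avg, ← mul_assoc]
  have hint : IsIntegral ℤ (ρ s * P) := by
    refine ⟨Polynomial.X ^ (orderOf s + 1) - Polynomial.X,
      Polynomial.monic_X_pow_sub ((Polynomial.degree_X_le).trans_lt
        (by exact_mod_cast Nat.lt_succ_of_le (orderOf_pos s))), ?_⟩
    simp only [Polynomial.eval₂_sub, Polynomial.eval₂_X_pow, Polynomial.eval₂_X]
    rw [hpow, pow_succ, pow_orderOf_eq_one, one_mul, sub_self]
  have htr : LinearMap.trace ℂ (Fin n → ℂ) (ρ s * P) = ρ.character s / (Nat.card Q : ℂ) := by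
    simp only [hP, Hecke.avg, mul_smul_comm, map_smul, smul_eq_mul, Finset.mul_sum, map_sum]
    rw [Fintype.sum_eq_single (1 : Q) fun u hu => ?_]
    · simp [Representation.character, div_eq_inv_mul, Finset.mul_sum]
    · rw [← map_mul]
      obtain ⟨k, hk⟩ := IsPGroup.iff_orderOf.1 hQ u
      rw [← Subgroup.orderOf_coe] at hk
      rw [show LinearMap.trace ℂ (Fin n → ℂ) (ρ (s * (u : H))) = 0 from
        hvan _ (dvd_orderOf_mul (hQs _ u.2) hk (fun h => hu (Subtype.ext h)) hs), mul_zero]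
  exact htr ▸ Hecke.isIntegral_trace hint

end Average

variable {D : ChevalleyDatum} (G : Good D) {F : Type*} [Field F] [Fintype F]

noncomputable local instance : Fintype ↥(D.group F) := Fintype.ofFinite _

/-- Shortcut: instance search on cosets inside a subgroup of a matrix group is slow. -/
noncomputable local instance (priority := high) quotAct (A : Subgroup ↥(D.group F))
    (B : Subgroup A) : MulAction A (↥A ⧸ B) := inferInstance

/-- Shortcut. -/
noncomputable local instance (priority := high) quotSMul (A : Subgroup ↥(D.group F))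
    (B : Subgroup A) : SMul A (↥A ⧸ B) := (quotAct A B).toSemigroupAction.toSMul

/-- Shortcut. -/
noncomputable local instance (priority := high) ambAct (B : Subgroup ↥(D.group F)) :
    MulAction ↥(D.group F) (↥(D.group F) ⧸ B) := inferInstance

theorem radU_le_pos (K : Finset (Fin D.rank)) : radU G F K ≤ D.posUnipotent F :=
  G.posSub_le_posUnipotent _

/-- The radical inside its parabolic subgroup. -/
noncomputable def radP (K : Finset (Fin D.rank)) : Subgroup ↥(pJ G F K) :=
  ((radU G F K).subgroupOf (D.group F)).subgroupOf (pJ G F K)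

variable {G}

theorem mem_radP {K : Finset (Fin D.rank)} {x : ↥(pJ G F K)} :
    x ∈ radP G K ↔ ((x : ↥(D.group F)) : GL D.Idx F) ∈ radU G F K := Iff.rfl

instance radP_normal (K : Finset (Fin D.rank)) : (radP (F := F) G K).Normal :=
  ⟨fun x hx g => (Subgroup.mem_normalizer_iff.1 (ChevUnip.pJ_le_normalizer_radU K g.2) _).1 hx⟩

theorem card_radP (K : Finset (Fin D.rank)) :
    Nat.card ↥(radP (F := F) G K) = Nat.card ↥(radU G F K) :=
  Nat.card_congr
    { toFun := fun x => ⟨_, x.2⟩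
      invFun := fun v => ⟨⟨⟨v.1, G.posUnipotent_le_group (radU_le_pos G K v.2)⟩,
        ChevUnip.B_le_pJ K (Subgroup.mem_sup_left (radU_le_pos G K v.2))⟩, v.2⟩
      left_inv := fun x => rfl
      right_inv := fun v => rfl }

theorem fixJK_eq_fixed {K L : Finset (Fin D.rank)} (hLK : L ⊆ K) (x : ↥(pJ G F K)) :
    (fixJK G F K L (x : ↥(D.group F)) : ℂ) =
      Cfsg.fixedPointCharacter ((pJ G F L).subgroupOf (pJ G F K)) x := by
  classical
  rw [Cfsg.fixedPointCharacter, fixJK]
  congr 1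
  symm
  let f : ↥(pJ G F K) ⧸ (pJ G F L).subgroupOf (pJ G F K) → ↥(D.group F) ⧸ pJ G F L :=
    Quotient.map' Subtype.val fun a b h => by
      rw [QuotientGroup.leftRel_apply] at h ⊢
      exact Subgroup.mem_subgroupOf.1 h
  have hinj : Function.Injective f := by
    intro a b h
    obtain ⟨a, rfl⟩ := QuotientGroup.mk_surjective a
    obtain ⟨b, rfl⟩ := QuotientGroup.mk_surjective b
    change (QuotientGroup.mk (a : ↥(D.group F)) : ↥(D.group F) ⧸ pJ G F L) =
      QuotientGroup.mk (b : ↥(D.group F)) at h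
    rw [QuotientGroup.eq] at h ⊢
    exact h
  have hsmul : ∀ c, f (x • c) = (x : ↥(D.group F)) • f c := by
    intro c
    obtain ⟨a, rfl⟩ := QuotientGroup.mk_surjective c
    rfl
  refine Nat.card_congr (Equiv.ofBijective (fun c => ⟨f c.1, ?_, by rw [← hsmul, c.2]⟩) ⟨?_, ?_⟩)
  · obtain ⟨a, ha⟩ := QuotientGroup.mk_surjective c.1
    exact ⟨(a : ↥(D.group F)), a.2, by rw [← ha]; rfl⟩
  · intro a b h
    exact Subtype.ext (hinj (congrArg Subtype.val h))
  · rintro ⟨c, ⟨y, hy, rfl⟩, hc⟩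
    refine ⟨⟨QuotientGroup.mk ⟨y, hy⟩, hinj ?_⟩, rfl⟩
    rw [hsmul]
    exact hc

theorem card_orbits (K L M : Finset (Fin D.rank)) (hL : L ⊆ K) (hM : M ⊆ K) :
    Nat.card (MulAction.orbitRel.Quotient ↥((pJ G F L).subgroupOf (pJ G F K))
        (↥(pJ G F K) ⧸ (pJ G F M).subgroupOf (pJ G F K))) =
      Nat.card {w : Wq (G.bnPair (F := F)) //
        ChevUnip.InW G K w ∧ NoDesc (e G F '' ↑L) (e G F '' ↑M) w} := by
  classical
  symm
  refine Nat.card_eq_of_bijective
    (fun w => Quotient.mk'' (QuotientGroup.mk (⟨rep w.1, ChevUnip.rep_mem_pJ_iff.2 w.2.1⟩ : ↥(pJ G F K))))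
    ⟨?_, ?_⟩
  · rintro ⟨w, hwK, hw⟩ ⟨v, hvK, hv⟩ h
    rw [Quotient.eq'', MulAction.orbitRel_apply] at h
    obtain ⟨⟨p, hp⟩, hpe⟩ := h
    change (QuotientGroup.mk (p * ⟨rep v, _⟩) : ↥(pJ G F K) ⧸ _) = _ at hpe
    rw [QuotientGroup.eq, Subgroup.mem_subgroupOf] at hpe
    have h1 := inDouble_of_mem (rep_mem v) (rep_mem w) (K := e G F '' ↑L) (J := e G F '' ↑M)
      (Subgroup.mem_subgroupOf.1 hp) (BN.self_mem_cell (rep v)) hpe
      (by push_cast; rw [mul_inv_cancel_left]; exact BN.self_mem_cell _)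
    rw [cls_rep, cls_rep] at h1
    exact Subtype.ext (noDesc_unique h1 hv hw).symm
  · intro o
    induction o using Quotient.inductionOn' with
    | _ c =>
      obtain ⟨x, rfl⟩ := QuotientGroup.mk_surjective c
      obtain ⟨n, hn, hx⟩ := exists_cell (P := G.bnPair (F := F)) (x : ↥(D.group F))
      obtain ⟨w, hw, hnd⟩ := exists_noDesc (e G F '' (↑L : Set (Fin D.rank))) (e G F '' ↑M) (cls n hn)
      rw [← cls_rep w] at hw
      obtain ⟨p, hp, p', hp', he⟩ := exists_of_inDouble (rep_mem w) hn hw.symm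
      obtain ⟨b, hb, b', hb', hxe⟩ := BN.mem_cell.1 hx
      have hpK : p ∈ pJ G F K := ChevUnip.pJ_mono hL hp
      have hp'K : p' ∈ pJ G F K := ChevUnip.pJ_mono hM hp'
      have hbp : b * p ∈ pJ G F K := mul_mem (ChevUnip.B_le_pJ K hb) hpK
      have hwK : rep w ∈ pJ G F K := by
        have e1 : rep w = (b * p)⁻¹ * (x : ↥(D.group F)) * (p' * b')⁻¹ := by
          rw [hxe, he]; group
        rw [e1]
        exact mul_mem (mul_mem (inv_mem hbp) x.2) (inv_mem (mul_mem hp'K (ChevUnip.B_le_pJ K hb')))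
      refine ⟨⟨w, ChevUnip.rep_mem_pJ_iff.1 hwK, hnd⟩, ?_⟩
      simp only
      rw [Quotient.eq'', MulAction.orbitRel_apply]
      refine ⟨⟨⟨(b * p)⁻¹, inv_mem hbp⟩, Subgroup.mem_subgroupOf.2
        (inv_mem (mul_mem (ChevUnip.B_le_pJ L hb) hp))⟩, ?_⟩
      change (QuotientGroup.mk ((⟨(b * p)⁻¹, inv_mem hbp⟩ : ↥(pJ G F K)) * x) :
        ↥(pJ G F K) ⧸ _) = _
      rw [QuotientGroup.eq, Subgroup.mem_subgroupOf]
      push_cast
      rw [hxe, he, show ((b * p)⁻¹ * (b * (p * rep w * p') * b'))⁻¹ * rep w = (p' * b')⁻¹ by group]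
      exact inv_mem (mul_mem hp' (ChevUnip.B_le_pJ M hb'))

variable (G) in
/-- The Steinberg function of `P_K`. -/
noncomputable def stF (K : Finset (Fin D.rank)) : ↥(pJ G F K) → ℂ :=
  fun x => (stJ G F K (x : ↥(D.group F)) : ℂ)

theorem stF_eq_sum (K : Finset (Fin D.rank)) :
    stF (F := F) G K = ∑ L ∈ K.powerset,
      (-1 : ℂ) ^ L.card • Cfsg.fixedPointCharacter ((pJ G F L).subgroupOf (pJ G F K)) := by
  funext x
  rw [Finset.sum_apply, stF, stJ, Int.cast_sum]
  refine Finset.sum_congr rfl fun L hL => ?_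
  rw [Pi.smul_apply, smul_eq_mul, ← fixJK_eq_fixed (Finset.mem_powerset.1 hL)]
  push_cast
  rfl

theorem classInner_stF_fixed {K L : Finset (Fin D.rank)} [Fintype ↥(pJ G F K)] (hL : L ⊆ K) :
    Cfsg.classInner (stF (F := F) G K)
        (Cfsg.fixedPointCharacter ((pJ G F L).subgroupOf (pJ G F K))) = if L = ∅ then 1 else 0 := by
  classical
  have : Fintype (Wq (G.bnPair (F := F))) := Fintype.ofFinite _
  rw [stF_eq_sum, Cfsg.Agent.H26.classInner_sum_left]
  simp only [Cfsg.Agent.H26.classInner_smul_left]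
  have key : ∀ M ∈ K.powerset, Cfsg.classInner
      (Cfsg.fixedPointCharacter ((pJ G F M).subgroupOf (pJ G F K)))
      (Cfsg.fixedPointCharacter ((pJ G F L).subgroupOf (pJ G F K))) =
      ∑ w : Wq (G.bnPair (F := F)),
        if ChevUnip.InW G K w ∧ NoDesc (e G F '' ↑L) (e G F '' ↑M) w then (1 : ℂ) else 0 := by
    intro M hM
    rw [Finset.sum_boole, ← indFun_one_eq_fixedPointCharacter ((pJ G F L).subgroupOf (pJ G F K)),
      classInner_indFun_right _ (isClassFunction_fixed _)]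
    rw [← Fintype.card_subtype, ← Nat.card_eq_fintype_card,
      ← card_orbits K L M hL (Finset.mem_powerset.1 hM)]
    simp only [Cfsg.classInner, Cfsg.fixedPointCharacter, map_one, mul_one, Nat.card_eq_fintype_card]
    have hb := MulAction.sum_card_fixedBy_eq_card_orbits_mul_card_group
      ↥((pJ G F L).subgroupOf (pJ G F K)) (↥(pJ G F K) ⧸ (pJ G F M).subgroupOf (pJ G F K))
    rw [inv_mul_eq_iff_eq_mul₀ (Nat.cast_ne_zero.2 Fintype.card_ne_zero), mul_comm, ← Nat.cast_mul,
      ← hb, Nat.cast_sum]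
    refine Finset.sum_congr rfl fun h _ => ?_
    rw [← Nat.card_eq_fintype_card, ← Nat.card_eq_fintype_card]
    rfl
  rw [Finset.sum_congr rfl fun M hM => by rw [key M hM, Finset.mul_sum], Finset.sum_comm]
  obtain ⟨v, hv⟩ := ChevUnip.exists_longest (G := G) (F := F) K
  rw [Fintype.sum_eq_single v]
  · have hvr : ∀ M ∈ K.powerset, NoDesc (e G F '' ↑L) (e G F '' ↑M) v ↔ L = ∅ ∧ M = ∅ := by
      intro M hM
      constructor
      · rintro ⟨h1, h2⟩
        refine ⟨Finset.eq_empty_iff_forall_notMem.2 fun i hi => h1 _ ⟨i, hi, rfl⟩ ?_,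
          Finset.eq_empty_iff_forall_notMem.2 fun i hi => h2 _ ⟨i, hi, rfl⟩
            ((ChevUnip.isRDesc_iff G).2 (hv.2 i (Finset.mem_powerset.1 hM hi)))⟩
        have h3 := (ChevUnip.isRDesc_iff G).2 (hv.inv.2 i (hL hi))
        rw [IsRDesc, ← len_inv, _root_.mul_inv_rev, gen_inv, inv_inv, len_inv v] at h3
        exact h3
      · rintro ⟨rfl, rfl⟩
        exact ⟨by simp, by simp⟩
    rw [Finset.sum_eq_single ∅]
    · by_cases hL0 : L = ∅
      · rw [if_pos hL0, if_pos ⟨hv.1, (hvr ∅ (Finset.empty_mem_powerset _)).2 ⟨hL0, rfl⟩⟩]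
        simp
      · rw [if_neg hL0, if_neg fun h => hL0 ((hvr ∅ (Finset.empty_mem_powerset _)).1 h.2).1, mul_zero]
    · intro M hM hne
      rw [if_neg fun h => hne ((hvr M hM).1 h.2).2, mul_zero]
    · exact fun h => absurd (Finset.empty_mem_powerset _) h
  · intro w hw
    by_cases hW : ChevUnip.InW G K w ∧ ∀ i ∈ L, ¬ IsLDesc w (e G F i)
    · set A := K.filter fun i => D.IsPosRoot (ChevUnip.prm G w (G.simpleF i))
      simp only [mul_ite, mul_one, mul_zero]
      rw [← Finset.sum_filter, show (K.powerset.filter fun M : Finset (Fin D.rank) =>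
          ChevUnip.InW G K w ∧ NoDesc (e G F '' ↑L) (e G F '' ↑M) w) = A.powerset by
        ext M
        simp only [Finset.mem_filter, Finset.mem_powerset, NoDesc, Set.forall_mem_image, Finset.mem_coe,
          ChevUnip.not_isRDesc_iff, A]
        exact ⟨fun h i hi => Finset.mem_filter.2 ⟨h.1 hi, h.2.2.2 hi⟩,
          fun h => ⟨fun i hi => (Finset.mem_filter.1 (h hi)).1, hW.1, fun i hi => hW.2 i hi,
            fun i hi => (Finset.mem_filter.1 (h hi)).2⟩⟩]
      have h0 : (∑ M ∈ A.powerset, (-1 : ℂ) ^ M.card) =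
          ((∑ M ∈ A.powerset, (-1 : ℤ) ^ M.card : ℤ) : ℂ) := by simp
      rw [h0, Finset.sum_powerset_neg_one_pow_card, if_neg, Int.cast_zero]
      intro hA0
      refine hw (ChevUnip.IsLongest.unique ⟨hW.1, fun i hi => ?_⟩ hv)
      refine (G.isPosRoot_or_isNegRoot (ChevUnip.prm G w (G.simpleF i)).2).resolve_left fun hp => ?_
      exact Finset.eq_empty_iff_forall_notMem.1 hA0 i (Finset.mem_filter.2 ⟨hi, hp⟩)
    · refine Finset.sum_eq_zero fun M _ => ?_
      rw [if_neg fun h => hW ⟨h.1, fun i hi => h.2.1 _ ⟨i, hi, rfl⟩⟩, mul_zero]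

theorem isClassFunction_stF (K : Finset (Fin D.rank)) :
    Cfsg.IsClassFunction ↥(pJ G F K) (stF (F := F) G K) := fun g x => by
  simp only [stF, stJ]
  push_cast
  exact Finset.sum_congr rfl fun L _ => by
    rw [ChevUnip.fixJK_conj K L x.2]

theorem stF_mul_rad {K : Finset (Fin D.rank)} (x r : ↥(pJ G F K)) (hr : r ∈ radP G K) :
    stF G K (x * r) = stF G K x := by
  simp only [stF, stJ, Subgroup.coe_mul]
  push_cast
  refine Finset.sum_congr rfl fun L hL => ?_
  congr 2
  refine Nat.card_congr (Equiv.subtypeEquivRight fun c => and_congr_right ?_)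
  rintro ⟨y, hy, rfl⟩
  rw [mul_smul]
  have hfix : (r : ↥(D.group F)) • (QuotientGroup.mk y : ↥(D.group F) ⧸ pJ G F L) = QuotientGroup.mk y := by
    rw [show (r : ↥(D.group F)) • (QuotientGroup.mk y : ↥(D.group F) ⧸ pJ G F L) =
      QuotientGroup.mk ((r : ↥(D.group F)) * y) from rfl, eq_comm, QuotientGroup.eq]
    refine ChevUnip.B_le_pJ L (Subgroup.mem_sup_left (radU_le_pos G K ?_))
    show ((y⁻¹ * ((r : ↥(D.group F)) * y) : ↥(D.group F)) : GL D.Idx F) ∈ radU G F K
    have h := (Subgroup.mem_normalizer_iff''.1 (ChevUnip.pJ_le_normalizer_radU K hy) _).1 (mem_radP.1 hr)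
    push_cast
    rwa [← mul_assoc]
  rw [hfix]

variable (p : ℕ) [Fact p.Prime] [CharP F p]

include G p in
theorem st_vanish (x : ↥(D.group F)) (hx : p ∣ orderOf x) : bnSt (G.bnPair (F := F)) x = 0 := by
  classical
  obtain ⟨M, hM, hpM⟩ := ChevDZ.not_dvd_index_UU (G := G) (F := F) p
  obtain ⟨j, hj⟩ := IsPGroup.iff_card.1 (ChevDZ.isPGroup_UU (G := G) (F := F) p)
  refine H27.char_eq_zero_of_defect_zero ⟨_, isIrrCharacter_bnSt (P := G.bnPair (F := F))⟩ (n := j)
    (d := Nat.card F ^ (D.nroots / 2)) (Fact.out : p.Prime) (by rw [hM, hj]; exact dvd_mul_right _ _)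
    ?_ ?_ (by rw [← hj, ChevDZ.card_UU (G := G)]) x hx
  · rw [hM, hj, pow_succ]
    intro h
    exact hpM (Nat.dvd_of_mul_dvd_mul_left (pow_pos (Fact.out : p.Prime).pos j) h)
  · show bnSt (G.bnPair (F := F)) 1 = _
    rw [bnSt_apply_B (one_mem _), ChevUnip.cellFix_one]
    have hl : ChevUnip.IsLongest (F := F) G Finset.univ (wlong (G.bnPair (F := F))) := by
      refine ⟨?_, fun i _ => (ChevUnip.isRDesc_iff G).1 (allDesc_wlong _)⟩
      obtain ⟨l, hl⟩ := ev_surjective (wlong (G.bnPair (F := F)))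
      obtain ⟨L, rfl⟩ := List.map_surjective_iff.2 (ChevUnip.e_bijective G F).2 l
      exact ⟨L, fun i _ => Finset.mem_univ i, hl⟩
    rw [hl.card_invF, ChevUnip.nPhi_univ]

omit [Fact p.Prime] [CharP F p] in
theorem st_one : bnSt (G.bnPair (F := F)) (1 : ↥(D.group F)) =
    (Nat.card F : ℂ) ^ (D.nroots / 2) := by
  classical
  rw [bnSt_apply_B (one_mem _), ChevUnip.cellFix_one]
  have hl : ChevUnip.IsLongest (F := F) G Finset.univ (wlong (G.bnPair (F := F))) := by
    refine ⟨?_, fun i _ => (ChevUnip.isRDesc_iff G).1 (allDesc_wlong _)⟩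
    obtain ⟨l, hl⟩ := ev_surjective (wlong (G.bnPair (F := F)))
    obtain ⟨L, rfl⟩ := List.map_surjective_iff.2 (ChevUnip.e_bijective G F).2 l
    exact ⟨L, fun i _ => Finset.mem_univ i, hl⟩
  rw [hl.card_invF, ChevUnip.nPhi_univ, Nat.cast_pow]

omit [Fact p.Prime] [CharP F p] in
theorem isCharacter_stRes (K : Finset (Fin D.rank)) [Fintype ↥(pJ G F K)] :
    Cfsg.IsCharacter ↥(pJ G F K) (fun y => bnSt (G.bnPair (F := F)) (y : ↥(D.group F))) :=
  H26.isCharacter_comp (H26.isCharacter_of_irr isIrrCharacter_bnSt) (pJ G F K).subtype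

omit [Fact p.Prime] [CharP F p] in
theorem isClassFunction_stRes (K : Finset (Fin D.rank)) :
    Cfsg.IsClassFunction ↥(pJ G F K) (fun y => bnSt (G.bnPair (F := F)) (y : ↥(D.group F))) :=
  fun g y => isClassFunction_bnSt (g : ↥(D.group F)) (y : ↥(D.group F))

omit [Fact p.Prime] [CharP F p] in
theorem sum_st_pJ (L : Finset (Fin D.rank)) [Fintype ↥(pJ G F L)] :
    (Nat.card ↥(pJ G F L) : ℂ)⁻¹ * ∑ y : ↥(pJ G F L), bnSt (G.bnPair (F := F)) (y : ↥(D.group F)) =
      if L = ∅ then 1 else 0 := by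
  classical
  have h := classInner_bnSt_fixed (P := G.bnPair (F := F)) (e G F '' (↑L : Set (Fin D.rank)))
  letI : Fintype ↥(par (G.bnPair (F := F)) (e G F '' ↑L)) := (inferInstance : Fintype ↥(pJ G F L))
  rw [← indFun_one_eq_fixedPointCharacter, classInner_indFun_right _ isClassFunction_bnSt,
    Cfsg.classInner] at h
  simp only [map_one, mul_one] at h
  have h2 : (if e G F '' (↑L : Set (Fin D.rank)) = ∅ then (1 : ℂ) else 0) = if L = ∅ then 1 else 0 :=
    if_congr (by simp) rfl rfl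
  rw [← h2, ← h]
  rfl

omit [Fact p.Prime] [CharP F p] in
theorem classInner_st_fixed {K L : Finset (Fin D.rank)} [Fintype ↥(pJ G F K)] (hLK : L ⊆ K) :
    Cfsg.classInner (fun y : ↥(pJ G F K) => bnSt (G.bnPair (F := F)) (y : ↥(D.group F)))
      (Cfsg.fixedPointCharacter ((pJ G F L).subgroupOf (pJ G F K))) = if L = ∅ then 1 else 0 := by
  classical
  letI : Fintype ↥(pJ G F L) := Fintype.ofFinite _
  exact (classInner_res_fixed (ChevUnip.pJ_mono hLK) isClassFunction_bnSt).trans (sum_st_pJ L)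

omit [Fact p.Prime] [CharP F p] in
theorem classInner_st_stF (K : Finset (Fin D.rank)) [Fintype ↥(pJ G F K)] :
    Cfsg.classInner (fun y : ↥(pJ G F K) => bnSt (G.bnPair (F := F)) (y : ↥(D.group F)))
      (stF G K) = 1 := by
  classical
  rw [stF_eq_sum, Cfsg.Agent.H26.classInner_sum_right, Finset.sum_congr rfl fun L hL => by
    rw [Cfsg.Agent.H26.classInner_smul_right, classInner_st_fixed (Finset.mem_powerset.1 hL)],
    Finset.sum_eq_single ∅]
  · simp
  · intro L _ hne; rw [if_neg hne, mul_zero]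
  · exact fun h => absurd (Finset.empty_mem_powerset _) h

omit [Fact p.Prime] [CharP F p] in
theorem classInner_stF_self (K : Finset (Fin D.rank)) [Fintype ↥(pJ G F K)] :
    Cfsg.classInner (stF (F := F) G K) (stF G K) = 1 := by
  classical
  conv_lhs => arg 2; rw [stF_eq_sum]
  rw [Cfsg.Agent.H26.classInner_sum_right, Finset.sum_congr rfl fun L hL => by
    rw [Cfsg.Agent.H26.classInner_smul_right, classInner_stF_fixed (Finset.mem_powerset.1 hL)],
    Finset.sum_eq_single ∅]
  · simp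
  · intro L _ hne; rw [if_neg hne, mul_zero]
  · exact fun h => absurd (Finset.empty_mem_powerset _) h

omit [Fact p.Prime] [CharP F p] in
theorem exists_int_stF (K : Finset (Fin D.rank)) [Fintype ↥(pJ G F K)]
    (χ : Cfsg.IrrCharacter ↥(pJ G F K)) : ∃ z : ℤ, Cfsg.classInner (stF G K) χ.1 = z := by
  classical
  choose m hm using fun L : Finset (Fin D.rank) =>
    exists_nat_classInner (isCharacter_fixed ((pJ G F L).subgroupOf (pJ G F K))) χ
  refine ⟨∑ L ∈ K.powerset, (-1 : ℤ) ^ L.card * m L, ?_⟩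
  rw [stF_eq_sum, Cfsg.Agent.H26.classInner_sum_left, Int.cast_sum]
  refine Finset.sum_congr rfl fun L _ => ?_
  rw [Cfsg.Agent.H26.classInner_smul_left, hm L]
  push_cast
  ring

omit [Fact p.Prime] [CharP F p] in
theorem stF_one (K : Finset (Fin D.rank)) :
    stF (F := F) G K 1 = (Nat.card F : ℂ) ^ nPhi G K := by
  classical
  rw [stF, OneMemClass.coe_one, ChevUnip.stJ_pos (G := G) (u := 1) (one_mem _),
    if_pos (show ((1 : ↥(D.group F)) : GL D.Idx F) ∈ radU G F K from one_mem _)]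
  push_cast
  rfl

include p in
theorem avg_degree (K : Finset (Fin D.rank)) [Fintype ↥(radP (F := F) G K)] :
    (Nat.card ↥(radP (F := F) G K) : ℂ)⁻¹ *
        ∑ r : ↥(radP (F := F) G K), bnSt (G.bnPair (F := F)) ((1 * r : ↥(pJ G F K)) : ↥(D.group F)) =
      stF (F := F) G K 1 := by
  classical
  rw [Fintype.sum_eq_single 1 fun r hr => ?_]
  · rw [one_mul, OneMemClass.coe_one, OneMemClass.coe_one, st_one, stF_one, card_radP (F := F),
      inv_mul_eq_iff_eq_mul₀ (Nat.cast_ne_zero.2 Nat.card_pos.ne')]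
    exact_mod_cast (ChevUnip.card_radU_mul (G := G) (F := F) K).symm
  · refine st_vanish (G := G) p _ ?_
    rw [one_mul]
    obtain ⟨k, hk⟩ := ChevUnip.order_of_mem_pos (G := G) (F := F) p
      (u := ((r : ↥(pJ G F K)) : ↥(D.group F))) (radU_le_pos G K r.2)
    rw [hk]
    refine dvd_pow_self p fun h0 => hr ?_
    rw [h0, pow_zero, orderOf_eq_one_iff] at hk
    exact Subtype.ext (Subtype.ext hk)

include p in
/-- The average of the Steinberg character over the radical of a parabolic subgroup. -/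
theorem avg_eq_stF (K : Finset (Fin D.rank)) [Fintype ↥(radP (F := F) G K)] (x : ↥(pJ G F K)) :
    (Nat.card ↥(radP (F := F) G K) : ℂ)⁻¹ *
        ∑ r : ↥(radP (F := F) G K), bnSt (G.bnPair (F := F)) ((x * r : ↥(pJ G F K)) : ↥(D.group F)) =
      stF G K x := by
  classical
  letI : Fintype ↥(pJ G F K) := Fintype.ofFinite _
  exact avg_eq_of_norm_one (radP (F := F) G K) (φ := fun y : ↥(pJ G F K) =>
      bnSt (G.bnPair (F := F)) (y : ↥(D.group F)))
    (isCharacter_stRes K) (isClassFunction_stRes K) (isClassFunction_stF K) (exists_int_stF K)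
    (classInner_st_stF K) (classInner_stF_self K) (fun y r hr => stF_mul_rad y r hr) (avg_degree p K) x

include G p in
/-- Steinberg's formula for the value on semisimple elements. -/
theorem st_value (g : ↥(D.group F)) (hg : ¬ p ∣ orderOf g) :
    bnSt (G.bnPair (F := F)) g =
        ((p ^ (Nat.card ↥(Subgroup.centralizer ({g} : Set ↥(D.group F)))).factorization p : ℕ) : ℂ) ∨
      bnSt (G.bnPair (F := F)) g =
        -((p ^ (Nat.card ↥(Subgroup.centralizer ({g} : Set ↥(D.group F)))).factorization p : ℕ) : ℂ) := by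
  classical
  have hp : p.Prime := Fact.out
  have hgc : Nat.Coprime (orderOf g) p := (hp.coprime_iff_not_dvd.2 hg).symm
  -- a minimal parabolic subgroup containing a conjugate
  set S := (Finset.univ : Finset (Finset (Fin D.rank))).filter fun K =>
    ∃ y : ↥(D.group F), y * g * y⁻¹ ∈ pJ G F K with hSd
  have hS : S.Nonempty := ⟨Finset.univ, Finset.mem_filter.2 ⟨Finset.mem_univ _, 1, by
    rw [ChevUnip.pJ_univ]; exact Subgroup.mem_top _⟩⟩
  obtain ⟨K, hK, hmin⟩ := S.exists_min_image Finset.card hS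
  obtain ⟨y, hy⟩ := (Finset.mem_filter.1 hK).2
  set x : ↥(pJ G F K) := ⟨y * g * y⁻¹, hy⟩ with hxd
  have hell : stF G K x = (-1 : ℂ) ^ K.card := by
    simp only [stF, stJ]
    rw [Finset.sum_eq_single K]
    · have h1 : fixJK G F K K (x : ↥(D.group F)) = 1 := by
        rw [fixJK, Nat.card_eq_one_iff_exists]
        have hfix : (x : ↥(D.group F)) • (QuotientGroup.mk 1 : ↥(D.group F) ⧸ pJ G F K) =
            QuotientGroup.mk 1 := by
          rw [show (x : ↥(D.group F)) • (QuotientGroup.mk 1 : ↥(D.group F) ⧸ pJ G F K) =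
            QuotientGroup.mk ((x : ↥(D.group F)) * 1) from rfl, eq_comm, QuotientGroup.eq]
          simpa using x.2
        refine ⟨⟨QuotientGroup.mk 1, ⟨1, one_mem _, rfl⟩, hfix⟩, ?_⟩
        rintro ⟨c, ⟨z, hz, rfl⟩, -⟩
        refine Subtype.ext (QuotientGroup.eq.2 ?_)
        simpa using hz
      rw [h1]
      push_cast
      ring
    · intro L hL hne
      have h0 : fixJK G F K L (x : ↥(D.group F)) = 0 := by
        rw [fixJK]
        have : IsEmpty {c : ↥(D.group F) ⧸ pJ G F L //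
            (∃ z, z ∈ pJ G F K ∧ QuotientGroup.mk z = c) ∧ (x : ↥(D.group F)) • c = c} := by
          refine ⟨?_⟩
          rintro ⟨c, ⟨z, hz, rfl⟩, hc⟩
          have hmem : z⁻¹ * ((x : ↥(D.group F)) * z) ∈ pJ G F L := QuotientGroup.eq.1 hc.symm
          have hLS : L ∈ S := Finset.mem_filter.2 ⟨Finset.mem_univ _, z⁻¹ * y, by
            rw [show z⁻¹ * y * g * (z⁻¹ * y)⁻¹ = z⁻¹ * ((x : ↥(D.group F)) * z) by simp [hxd, mul_assoc]]
            exact hmem⟩
          exact absurd (hmin L hLS) (not_le.2 (Finset.card_lt_card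
            ((Finset.mem_powerset.1 hL).ssubset_of_ne hne)))
        exact Nat.card_of_isEmpty
      rw [h0]
      simp
    · exact fun h => absurd (Finset.mem_powerset_self K) h
  -- sum over the radical
  letI : Fintype ↥(radP (F := F) G K) := Fintype.ofFinite _
  have hR0 : (Nat.card ↥(radP (F := F) G K) : ℂ) ≠ 0 := Nat.cast_ne_zero.2 Nat.card_pos.ne'
  have hsum := avg_eq_stF (G := G) (F := F) p K x
  rw [hell, inv_mul_eq_iff_eq_mul₀ hR0] at hsum
  have hxo : orderOf x = orderOf g := by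
    rw [← Subgroup.orderOf_coe]
    show orderOf (MulAut.conj y g) = orderOf g
    rw [MulEquiv.orderOf_eq]
  have hcl : ∀ z : ↥(pJ G F K), bnSt (G.bnPair (F := F))
      ((z * x * z⁻¹ : ↥(pJ G F K)) : ↥(D.group F)) = bnSt (G.bnPair (F := F)) g := fun z => by
    push_cast
    rw [isClassFunction_bnSt, hxd]
    exact isClassFunction_bnSt g y
  set R := radP (F := F) G K with hRd
  have hRp : IsPGroup p R := fun r => by
    obtain ⟨k, hk⟩ := ChevUnip.order_of_mem_pos (G := G) (F := F) p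
      (u := ((r : ↥(pJ G F K)) : ↥(D.group F))) (radU_le_pos G K r.2)
    rw [Subgroup.orderOf_coe, Subgroup.orderOf_coe] at hk
    exact ⟨k, by rw [← hk, pow_orderOf_eq_one]⟩
  let τ : R → R := fun r => ⟨x⁻¹ * ((r : ↥(pJ G F K)) * x * (r : ↥(pJ G F K))⁻¹), by
    rw [← mul_assoc, ← mul_assoc]
    exact mul_mem (by simpa using (radP_normal (F := F) (G := G) K).conj_mem _ r.2 x⁻¹) (inv_mem r.2)⟩
  set C := R ⊓ Subgroup.centralizer ({x} : Set ↥(pJ G F K)) with hCd
  have hzero : ∀ r : R, r ∉ Finset.univ.image τ →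
      bnSt (G.bnPair (F := F)) ((x * r : ↥(pJ G F K)) : ↥(D.group F)) = 0 := by
    intro r hr
    refine st_vanish (G := G) p _ ?_
    by_contra hreg
    rw [Subgroup.orderOf_coe] at hreg
    obtain ⟨z, hz, he⟩ := H56.exists_conj_of_coset_of_coprime (orderOf x * orderOf (x * (r : ↥(pJ G F K))))
      R x (x * r) (Subgroup.normalizer_eq_top R ▸ Subgroup.mem_top x)
      (by rw [pow_mul, pow_orderOf_eq_one, one_pow])
      (by rw [mul_comm, pow_mul, pow_orderOf_eq_one, one_pow])
      (by simpa using (radP_normal (F := F) (G := G) K).conj_mem _ r.2 x) (by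
        obtain ⟨j, hj⟩ := IsPGroup.iff_card.1 hRp
        rw [hj]
        exact Nat.Coprime.pow_right j (Nat.Coprime.mul_left (hxo ▸ hgc)
          (hp.coprime_iff_not_dvd.2 hreg).symm))
    refine hr (Finset.mem_image.2 ⟨⟨z⁻¹, inv_mem hz⟩, Finset.mem_univ _, Subtype.ext ?_⟩)
    show x⁻¹ * (z⁻¹ * x * z⁻¹⁻¹) = (r : ↥(pJ G F K))
    rw [inv_inv]
    calc x⁻¹ * (z⁻¹ * x * z) = x⁻¹ * (z⁻¹ * (z * (x * r) * z⁻¹) * z) := by rw [he]
      _ = r := by group
  have hfib : ∀ r ∈ Finset.univ.image τ,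
      (Finset.univ.filter fun r' : R => τ r' = r).card = Nat.card C := by
    intro r hr
    obtain ⟨r₀, -, rfl⟩ := Finset.mem_image.1 hr
    rw [← Fintype.card_subtype, ← Nat.card_eq_fintype_card]
    have hiff : ∀ r' : R, τ r' = τ r₀ ↔ (r₀ : ↥(pJ G F K))⁻¹ * r' ∈ C := by
      intro r'
      rw [Subtype.ext_iff]
      show x⁻¹ * _ = x⁻¹ * _ ↔ _
      rw [mul_right_inj, hCd, Subgroup.mem_inf, Subgroup.mem_centralizer_singleton_iff]
      constructor
      · intro h
        refine ⟨mul_mem (inv_mem r₀.2) r'.2, ?_⟩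
        calc (r₀ : ↥(pJ G F K))⁻¹ * r' * x
            = (r₀ : ↥(pJ G F K))⁻¹ * ((r' : ↥(pJ G F K)) * x * (r' : ↥(pJ G F K))⁻¹) * r' := by group
          _ = x * ((r₀ : ↥(pJ G F K))⁻¹ * r') := by rw [h]; group
      · rintro ⟨-, h⟩
        calc (r' : ↥(pJ G F K)) * x * (r' : ↥(pJ G F K))⁻¹
            = (r₀ : ↥(pJ G F K)) * ((r₀ : ↥(pJ G F K))⁻¹ * r' * x) * (r' : ↥(pJ G F K))⁻¹ := by group
          _ = _ := by rw [h]; group
    refine Nat.card_congr
      { toFun := fun r' => ⟨(r₀ : ↥(pJ G F K))⁻¹ * r'.1, (hiff r'.1).1 r'.2⟩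
        invFun := fun c => ⟨⟨(r₀ : ↥(pJ G F K)) * c.1, mul_mem r₀.2 c.2.1⟩, (hiff _).2 (by simp [c.2])⟩
        left_inv := fun r' => Subtype.ext (Subtype.ext (mul_inv_cancel_left _ _))
        right_inv := fun c => Subtype.ext (inv_mul_cancel_left _ _) }
  have hmain : (Nat.card C : ℂ) * ((Nat.card R : ℂ) * (-1) ^ K.card) =
      (Nat.card R : ℂ) * bnSt (G.bnPair (F := F)) g := by
    calc _ = (Nat.card C : ℂ) *
          ∑ r : R, bnSt (G.bnPair (F := F)) ((x * r : ↥(pJ G F K)) : ↥(D.group F)) := by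
          congr 1
          convert hsum.symm
      _ = (Nat.card C : ℂ) * ∑ r ∈ Finset.univ.image τ,
          bnSt (G.bnPair (F := F)) ((x * r : ↥(pJ G F K)) : ↥(D.group F)) := by
          congr 1
          exact (Finset.sum_subset (Finset.subset_univ _) fun r _ hr => hzero r hr).symm
      _ = ∑ r' : R, bnSt (G.bnPair (F := F)) ((x * τ r' : ↥(pJ G F K)) : ↥(D.group F)) := by
          rw [← Finset.sum_fiberwise_of_maps_to (g := τ) (t := Finset.univ.image τ)
            (fun r _ => Finset.mem_image_of_mem _ (Finset.mem_univ r))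
            (fun r' : R => bnSt (G.bnPair (F := F)) ((x * τ r' : ↥(pJ G F K)) : ↥(D.group F))),
            Finset.mul_sum]
          refine Finset.sum_congr rfl fun r hr => ?_
          rw [Finset.sum_congr rfl fun r' hr' => by rw [(Finset.mem_filter.1 hr').2], Finset.sum_const,
            hfib r hr, nsmul_eq_mul]
      _ = _ := by
          rw [Fintype.sum_congr _ (fun _ => bnSt (G.bnPair (F := F)) g) fun r' => by
            rw [show x * (τ r' : ↥(pJ G F K)) = (r' : ↥(pJ G F K)) * x * (r' : ↥(pJ G F K))⁻¹ from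
              mul_inv_cancel_left _ _, hcl], Finset.sum_const, Finset.card_univ, nsmul_eq_mul,
            Nat.card_eq_fintype_card]
  have hval : bnSt (G.bnPair (F := F)) g = (-1 : ℂ) ^ K.card * (Nat.card C : ℂ) := by
    apply mul_left_cancel₀ hR0
    rw [← hmain]
    ring
  -- comparison with the `p`-part of the centraliser
  set a := (Nat.card ↥(Subgroup.centralizer ({g} : Set ↥(D.group F)))).factorization p with ha
  suffices hC : Nat.card C = p ^ a by
    rcases neg_one_pow_eq_or ℂ K.card with h | h <;> rw [hval, h, hC] <;> simp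
  obtain ⟨j, hj⟩ := IsPGroup.iff_card.1 (hRp.to_le (inf_le_left : C ≤ R))
  have hle : p ^ j ∣ Nat.card ↥(Subgroup.centralizer ({g} : Set ↥(D.group F))) := by
    rw [← hj]
    refine Nat.dvd_trans (dvd_of_eq ?_) (Subgroup.card_dvd_of_le (H := (C.map (pJ G F K).subtype).map
      (MulAut.conj y⁻¹).toMonoidHom) ?_)
    · rw [Subgroup.card_map_of_injective (MulAut.conj y⁻¹).injective,
        Subgroup.card_map_of_injective (pJ G F K).subtype_injective]
    · rintro _ ⟨_, ⟨c, hc, rfl⟩, rfl⟩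
      rw [Subgroup.mem_centralizer_singleton_iff]
      have h := congrArg Subtype.val (Subgroup.mem_centralizer_singleton_iff.1 hc.2)
      simp only [Subgroup.coe_mul, hxd] at h
      simp only [MulEquiv.coe_toMonoidHom, MulAut.conj_apply, Subgroup.coe_subtype, inv_inv]
      calc y⁻¹ * (c : ↥(D.group F)) * y * g = y⁻¹ * ((c : ↥(D.group F)) * (y * g * y⁻¹)) * y := by group
        _ = _ := by rw [h]; group
  have hja : j ≤ a := (hp.pow_dvd_iff_le_factorization Nat.card_pos.ne').1 hle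
  refine hj.trans (congrArg (p ^ ·) (le_antisymm hja ?_))
  -- divisibility
  obtain ⟨Q⟩ : Nonempty (Sylow p ↥(Subgroup.centralizer ({g} : Set ↥(D.group F)))) := inferInstance
  obtain ⟨n, ρ, -, hρ⟩ := isIrrCharacter_bnSt (P := G.bnPair (F := F))
  have hint := isIntegral_div ρ (fun z hz => hρ ▸ st_vanish (G := G) p z hz) hgc
    ((Q : Subgroup _).map (Subgroup.centralizer ({g} : Set ↥(D.group F))).subtype)
    (Q.2.map _) (by
      rintro _ ⟨u, -, rfl⟩
      exact (Subgroup.mem_centralizer_singleton_iff.1 u.2).symm)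
  rw [Subgroup.card_map_of_injective (Subgroup.subtype_injective _),
    Sylow.card_eq_multiplicity, hρ, hval, hj, ← ha] at hint
  have hint2 : IsIntegral ℤ ((((p ^ j : ℕ) : ℚ) / ((p ^ a : ℕ) : ℚ) : ℚ) : ℂ) := by
    have h := hint.mul (isIntegral_one.neg.pow K.card)
    rw [mul_comm, ← mul_div_assoc, ← mul_assoc, ← mul_pow, neg_mul_neg, one_mul, one_pow, one_mul] at h
    push_cast at h ⊢
    exact h
  rw [← eq_ratCast (algebraMap ℚ ℂ), isIntegral_algebraMap_iff (algebraMap ℚ ℂ).injective] at hint2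
  obtain ⟨w, hw⟩ := IsIntegrallyClosed.isIntegral_iff.1 hint2
  have hw2 : (w : ℚ) * ((p ^ a : ℕ) : ℚ) = ((p ^ j : ℕ) : ℚ) := by
    rw [show (w : ℚ) = algebraMap ℤ ℚ w from rfl, hw,
      div_mul_cancel₀ _ (Nat.cast_ne_zero.2 (pow_ne_zero _ hp.ne_zero))]
  have hdvd : p ^ a ∣ p ^ j := by
    have : ((p ^ a : ℕ) : ℤ) ∣ ((p ^ j : ℕ) : ℤ) := ⟨w, by rw [mul_comm]; exact_mod_cast hw2.symm⟩
    exact Int.natCast_dvd_natCast.1 this
  exact (Nat.pow_dvd_pow_iff_le_right hp.one_lt).1 hdvd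

end Cfsg.Agent.H68.ChevStVal
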