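import Cfsg.Agent.H68.GL2Count

/-!
# Character values of `GL₂` by degree
-/

set_option autoImplicit false

namespace Cfsg.Agent.H68

open Matrix

variable {F : Type*} [Field F]

/-- A diagonal element of `GL₂` is in the torus. -/
theorem exists_gl2Diag {g : GL (Fin 2) F} (h01 : (g : Matrix (Fin 2) (Fin 2) F) 0 1 = 0)
    (h10 : (g : Matrix (Fin 2) (Fin 2) F) 1 0 = 0) :
    ∃ a : Fˣ × Fˣ, g = gl2Diag a ∧ (a.1 : F) = (g : Matrix (Fin 2) (Fin 2) F) 0 0 ∧
      (a.2 : F) = (g : Matrix (Fin 2) (Fin 2) F) 1 1 := by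
  have hd := g.det_ne_zero
  rw [Matrix.det_fin_two, h10, mul_zero, sub_zero] at hd
  refine ⟨(Units.mk0 _ (left_ne_zero_of_mul hd), Units.mk0 _ (right_ne_zero_of_mul hd)),
    Units.ext ?_, rfl, rfl⟩
  ext i j
  fin_cases i <;> fin_cases j <;> simp [h01, h10]

theorem norm_gLin [Fintype F] (α : MulChar F ℂ) (g : GL (Fin 2) F) : ‖gLin α g‖ = 1 := by
  have : Fintype (GL (Fin 2) F) := Fintype.ofFinite _
  have h1 : (detHom α g : ℂ) ^ Fintype.card (GL (Fin 2) F) = 1 := by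
    rw [← Units.val_pow_eq_pow_val, ← map_pow, pow_card_eq_one, map_one, Units.val_one]
  exact Complex.norm_eq_one_of_pow_eq_one h1 Fintype.card_ne_zero

variable [Fintype F] [DecidableEq F]

theorem gPS_elliptic (α β : MulChar F ℂ) {g : GL (Fin 2) F}
    (hg : ∀ (c : F) (v : Fin 2 → F), v ≠ 0 → (g : Matrix (Fin 2) (Fin 2) F).mulVec v ≠ c • v) :
    gPS α β g = 0 :=
  indFun_eq_zero _ _ (gl2_conj_notMem_upper hg)

theorem gPS_gl2Diag (α β : MulChar F ℂ) {a : Fˣ × Fˣ} (ha : a.1 ≠ a.2) :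
    gPS α β (gl2Diag a) = α (a.1 : F) * β (a.2 : F) + α (a.2 : F) * β (a.1 : F) := by
  have h := (gl2Data F).ps_apply_tu (pairHom α β) a 0
  rw [(gl2Data F).u_zero, mul_one] at h
  change (gl2Data F).ps (pairHom α β) (gl2Diag a) = _
  rw [show gl2Diag a = (gl2Data F).t a from rfl, h, Fintype.sum_eq_single 0]
  · simp [pairHom_apply, gl2Data]
  · intro z hz
    rw [if_neg]
    intro h0
    simp only [zero_add] at h0
    have h1 : (1 - (((gl2Data F).act a : Fˣ) : F)⁻¹) * z = 0 := by linear_combination h0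
    rcases mul_eq_zero.1 h1 with h2 | h2
    · rw [sub_eq_zero] at h2
      have : (gl2Data F).act a = 1 := Units.ext (inv_eq_one.1 h2.symm)
      exact ha (by simpa [gl2Data, MonoidHom.div_apply, div_eq_one] using this)
    · exact hz h2

theorem norm_gSt_split (α : MulChar F ℂ) {a : Fˣ × Fˣ} (ha : a.1 ≠ a.2) :
    ‖gSt α (gl2Diag a)‖ = 1 := by
  have : gSt α (gl2Diag a) = gLin α (gl2Diag a) := by
    rw [gSt_eq_mul, ← gPS_one_one_eq_fixed, gPS_gl2Diag _ _ ha, MulChar.one_apply a.1.isUnit,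
      MulChar.one_apply a.2.isUnit]
    ring
  rw [this, norm_gLin]

theorem norm_gSt_elliptic (α : MulChar F ℂ) {g : GL (Fin 2) F}
    (hg : ∀ (c : F) (v : Fin 2 → F), v ≠ 0 → (g : Matrix (Fin 2) (Fin 2) F).mulVec v ≠ c • v) :
    ‖gSt α g‖ = 1 := by
  have : gSt α g = -gLin α g := by
    rw [gSt_eq_mul, ← gPS_one_one_eq_fixed, gPS_elliptic _ _ hg]; ring
  rw [this, norm_neg, norm_gLin]

end Cfsg.Agent.H68
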