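import Mathlib

/-!
# The number of nilpotent endomorphisms over a finite field

The Fine–Herstein count `q ^ (n (n - 1))`, through the Fitting decomposition.
-/

set_option autoImplicit false

namespace Cfsg.Agent.H68.NilCount

open Module LinearMap Finset

variable (F : Type*) [Field F] [Fintype F]

/-- The standard space. -/
abbrev Sp (n : ℕ) := Fin n → F

/-- Nilpotent endomorphisms of the standard space. -/
abbrev Nil (n : ℕ) := {f : Module.End F (Sp F n) // IsNilpotent f}

/-- The order of the general linear group. -/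
noncomputable def glCard (n : ℕ) : ℕ := ∏ i : Fin n, (Fintype.card F ^ n - Fintype.card F ^ (i : ℕ))

instance finite_end (n : ℕ) : Finite (Module.End F (Sp F n)) := Module.finite_of_finite F

instance finite_equiv (n m : ℕ) : Finite ((Sp F m) ≃ₗ[F] Sp F n) :=
  Finite.of_injective _ DFunLike.coe_injective

instance finite_prod_equiv (n k m : ℕ) : Finite ((Sp F k × Sp F m) ≃ₗ[F] Sp F n) :=
  Finite.of_injective _ DFunLike.coe_injective

theorem card_aut (n : ℕ) : Nat.card (Sp F n ≃ₗ[F] Sp F n) = glCard F n := by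
  rw [glCard, ← Matrix.card_GL_field (𝔽 := F) n]
  exact Nat.card_congr (Matrix.GeneralLinearGroup.toLin.toEquiv.trans
    (LinearMap.GeneralLinearGroup.generalLinearEquiv F (Sp F n)).toEquiv).symm

theorem glCard_pos (n : ℕ) : 0 < glCard F n := by
  rw [← card_aut]
  exact Nat.card_pos

theorem glCard_succ (n : ℕ) :
    glCard F (n + 1) = (Fintype.card F ^ (n + 1) - 1) * Fintype.card F ^ n * glCard F n := by
  simp only [glCard, Fin.prod_univ_succ, Fin.val_zero, pow_zero, Fin.val_succ]
  rw [mul_assoc]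
  congr 1
  rw [show Fintype.card F ^ n = ∏ _i : Fin n, Fintype.card F by simp, ← Finset.prod_mul_distrib]
  refine Finset.prod_congr rfl fun i _ => ?_
  simp only [prod_const, card_univ, Fintype.card_fin]
  rw [Nat.mul_sub, pow_succ, pow_succ]
  ring_nf

variable {F}

/-- The endomorphism made from a nilpotent and an invertible one along a decomposition. -/
noncomputable def glue {n k : ℕ} (E : (Sp F k × Sp F (n - k)) ≃ₗ[F] Sp F n) (N : Nil F k)
    (U : Sp F (n - k) ≃ₗ[F] Sp F (n - k)) : Module.End F (Sp F n) :=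
  E.conj (LinearMap.prodMap N.1 U.toLinearMap)

theorem conj_pow {V W : Type*} [AddCommGroup V] [Module F V] [AddCommGroup W] [Module F W]
    (e : V ≃ₗ[F] W) (f : Module.End F V) (j : ℕ) : e.conj (f ^ j) = e.conj f ^ j := by
  induction j with
  | zero => simp [Module.End.one_eq_id, LinearEquiv.conj_id]
  | succ j ih =>
    rw [pow_succ, pow_succ, Module.End.mul_eq_comp, Module.End.mul_eq_comp, LinearEquiv.conj_comp, ih]

theorem prodMap_pow' {V W : Type*} [AddCommGroup V] [Module F V] [AddCommGroup W] [Module F W]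
    (f : Module.End F V) (g : Module.End F W) (j : ℕ) :
    LinearMap.prodMap f g ^ j = LinearMap.prodMap (f ^ j) (g ^ j) := by
  induction j with
  | zero => simp [Module.End.one_eq_id]
  | succ j ih =>
    rw [pow_succ, pow_succ, pow_succ, ih, Module.End.mul_eq_comp, Module.End.mul_eq_comp,
      Module.End.mul_eq_comp, LinearMap.prodMap_comp]

theorem glue_pow {n k : ℕ} (E : (Sp F k × Sp F (n - k)) ≃ₗ[F] Sp F n) (N : Nil F k)
    (U : Sp F (n - k) ≃ₗ[F] Sp F (n - k)) (m : ℕ) :
    glue E N U ^ m = E.conj (LinearMap.prodMap (N.1 ^ m) (U.toLinearMap ^ m)) := by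
  rw [glue, ← prodMap_pow', conj_pow]

theorem nil_pow_eq_zero {k m : ℕ} (N : Nil F k) (h : k ≤ m) : N.1 ^ m = 0 := by
  obtain ⟨j, hj⟩ := N.2
  have h1 : LinearMap.ker (N.1 ^ (j + k)) = LinearMap.ker (N.1 ^ Module.finrank F (Sp F k)) :=
    Module.End.ker_pow_eq_ker_pow_finrank_of_le (by simp)
  rw [Module.finrank_fin_fun, pow_add, hj, zero_mul, LinearMap.ker_zero] at h1
  rw [← Nat.sub_add_cancel h, pow_add, LinearMap.ker_eq_top.1 h1.symm, mul_zero]

theorem aut_pow_injective {k : ℕ} (U : Sp F k ≃ₗ[F] Sp F k) (m : ℕ) :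
    Function.Injective (U.toLinearMap ^ m) := by
  rw [Module.End.coe_pow]
  exact U.injective.iterate m

theorem ker_glue_pow {n k : ℕ} (hk : k ≤ n) (E : (Sp F k × Sp F (n - k)) ≃ₗ[F] Sp F n) (N : Nil F k)
    (U : Sp F (n - k) ≃ₗ[F] Sp F (n - k)) :
    Module.finrank F (LinearMap.ker (glue E N U ^ n)) = k := by
  have h : LinearMap.ker (glue E N U ^ n) =
      ((LinearMap.range (LinearMap.inl F (Sp F k) (Sp F (n - k)))).map E.toLinearMap) := by
    ext x
    obtain ⟨⟨a, b⟩, rfl⟩ := E.surjective x
    rw [LinearMap.mem_ker, glue_pow, Submodule.mem_map_equiv, E.symm_apply_apply,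
      LinearMap.mem_range]
    simp only [LinearEquiv.conj_apply, LinearMap.comp_apply, LinearEquiv.coe_coe,
      E.symm_apply_apply, LinearMap.prodMap_apply, nil_pow_eq_zero N hk, LinearMap.zero_apply,
      E.map_eq_zero_iff, Prod.mk_eq_zero, true_and]
    constructor
    · exact fun hb => ⟨a, by simp [aut_pow_injective U n (hb.trans (map_zero _).symm)]⟩
    · rintro ⟨c, hc⟩
      have hb : (0 : Sp F (n - k)) = b := congrArg Prod.snd hc
      subst hb
      exact map_zero _
  rw [h, LinearEquiv.finrank_map_eq, LinearMap.finrank_range_of_inj LinearMap.inl_injective,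
    Module.finrank_fin_fun]

/-- An equivalence intertwining two glued pairs respects both factors. -/
theorem intertwine_diagonal {k m : ℕ} (S : (Sp F k × Sp F m) ≃ₗ[F] (Sp F k × Sp F m))
    (N N' : Nil F k) (U U' : Sp F m ≃ₗ[F] Sp F m)
    (h : ∀ x, S (LinearMap.prodMap N.1 U.toLinearMap x) =
      LinearMap.prodMap N'.1 U'.toLinearMap (S x)) :
    (∀ a, (S (a, 0)).2 = 0) ∧ ∀ b, (S (0, b)).1 = 0 := by
  have hpow : ∀ (j : ℕ) x, S (LinearMap.prodMap (N.1 ^ j) (U.toLinearMap ^ j) x) =
      LinearMap.prodMap (N'.1 ^ j) (U'.toLinearMap ^ j) (S x) := by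
    intro j
    induction j with
    | zero => simp [Module.End.one_eq_id]
    | succ j ih =>
      intro x
      have h1 := ih (LinearMap.prodMap N.1 U.toLinearMap x)
      rw [h] at h1
      simpa [pow_succ] using h1
  constructor
  · intro a
    have h1 := congrArg Prod.snd (hpow k (a, 0))
    simp [nil_pow_eq_zero N le_rfl] at h1
    have hz : ((0, 0) : Sp F k × Sp F m) = 0 := rfl
    rw [hz, map_zero, Prod.snd_zero] at h1
    exact aut_pow_injective U' k (h1.symm.trans (map_zero _).symm)
  · intro b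
    obtain ⟨c, hc⟩ := LinearMap.surjective_of_injective (aut_pow_injective U k) b
    have h1 := congrArg Prod.fst (hpow k (0, c))
    simpa [nil_pow_eq_zero N' le_rfl, hc] using h1

/-- A diagonal automorphism of a product. -/
theorem exists_prodCongr {k m : ℕ} (S : (Sp F k × Sp F m) ≃ₗ[F] (Sp F k × Sp F m))
    (h1 : ∀ a, (S (a, 0)).2 = 0) (h2 : ∀ b, (S (0, b)).1 = 0) :
    ∃ (A : Sp F k ≃ₗ[F] Sp F k) (B : Sp F m ≃ₗ[F] Sp F m), S = A.prodCongr B := by
  have hS : ∀ a b, S (a, b) = ((S (a, 0)).1, (S (0, b)).2) := fun a b => by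
    rw [show ((a, b) : Sp F k × Sp F m) = (a, 0) + (0, b) by simp, map_add]
    ext <;> simp [h1 a, h2 b]
  have iA : Function.Injective
      (LinearMap.fst F _ _ ∘ₗ S.toLinearMap ∘ₗ LinearMap.inl F (Sp F k) (Sp F m)) := by
    rw [injective_iff_map_eq_zero]
    intro a ha
    have : S (a, 0) = 0 := Prod.ext ha (h1 a)
    exact congrArg Prod.fst (S.map_eq_zero_iff.1 this)
  have iB : Function.Injective
      (LinearMap.snd F _ _ ∘ₗ S.toLinearMap ∘ₗ LinearMap.inr F (Sp F k) (Sp F m)) := by
    rw [injective_iff_map_eq_zero]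
    intro b hb
    have : S (0, b) = 0 := Prod.ext (h2 b) hb
    exact congrArg Prod.snd (S.map_eq_zero_iff.1 this)
  refine ⟨LinearEquiv.ofInjectiveEndo _ iA, LinearEquiv.ofInjectiveEndo _ iB, ?_⟩
  ext1 x
  obtain ⟨a, b⟩ := x
  exact hS a b

/-- Fitting: every endomorphism is glued. -/
theorem exists_glue {n k : ℕ} (T : Module.End F (Sp F n))
    (hT : Module.finrank F (LinearMap.ker (T ^ n)) = k) :
    ∃ E N U, glue (n := n) (k := k) E N U = T := by
  obtain ⟨j, hj⟩ := Filter.eventually_atTop.1 T.eventually_isCompl_ker_pow_range_pow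
  set m := max j n
  have hc := hj m (le_max_left _ _)
  have hker : LinearMap.ker (T ^ m) = LinearMap.ker (T ^ n) := by
    rw [Module.End.ker_pow_eq_ker_pow_finrank_of_le (f := T) (m := m) (by simp [m]),
      Module.finrank_fin_fun]
  have hcK : ∀ x ∈ LinearMap.ker (T ^ m), T x ∈ LinearMap.ker (T ^ m) := fun x hx => by
    rw [LinearMap.mem_ker] at hx ⊢
    rw [← Module.End.mul_apply, ← pow_succ, pow_succ', Module.End.mul_apply, hx, map_zero]
  have hcR : ∀ x ∈ LinearMap.range (T ^ m), T x ∈ LinearMap.range (T ^ m) := fun x ⟨y, hy⟩ =>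
    ⟨T y, by rw [← Module.End.mul_apply, ← pow_succ, pow_succ', Module.End.mul_apply, hy]⟩
  let eK : Sp F k ≃ₗ[F] LinearMap.ker (T ^ m) :=
    LinearEquiv.ofFinrankEq _ _ (by rw [Module.finrank_fin_fun, hker, hT])
  let eR : Sp F (n - k) ≃ₗ[F] LinearMap.range (T ^ m) := LinearEquiv.ofFinrankEq _ _ (by
    have h1 := Submodule.finrank_add_eq_of_isCompl hc
    rw [hker, hT, Module.finrank_fin_fun] at h1
    rw [Module.finrank_fin_fun]; omega)
  let E : (Sp F k × Sp F (n - k)) ≃ₗ[F] Sp F n :=
    (eK.prodCongr eR).trans (Submodule.prodEquivOfIsCompl _ _ hc)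
  let TK := T.restrict hcK
  let TR := T.restrict hcR
  have hN : IsNilpotent (eK.symm.conj TK) := by
    refine ⟨m, ?_⟩
    have : TK ^ m = 0 := by
      rw [show TK = T.restrict hcK from rfl, Module.End.pow_restrict]
      ext x : 2
      exact LinearMap.mem_ker.1 x.2
    rw [← conj_pow, this, map_zero]
  have hU : Function.Injective (eR.symm.conj TR) := by
    have : Function.Injective TR := by
      rw [injective_iff_map_eq_zero]
      intro x hx
      have hx0 : T x.1 = 0 := congrArg Subtype.val hx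
      have hxk : x.1 ∈ LinearMap.ker (T ^ m) := by
        rcases m.eq_zero_or_pos with h0 | h0
        · have hn : n = 0 := by simp only [m] at h0; omega
          subst hn
          rw [Subsingleton.elim x.1 0]
          exact zero_mem _
        · have : (T ^ (m - 1 + 1)) x.1 = 0 := by
            rw [pow_succ, Module.End.mul_apply, hx0, map_zero]
          simpa [Nat.sub_add_cancel h0] using this
      exact Subtype.ext ((Submodule.disjoint_def.1 hc.disjoint) x.1 hxk x.2)
    intro x y h
    simp only [LinearEquiv.conj_apply, LinearMap.comp_apply, LinearEquiv.coe_coe] at h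
    exact eR.injective (this (eR.symm.injective h))
  refine ⟨E, ⟨eK.symm.conj TK, hN⟩, LinearEquiv.ofInjectiveEndo _ hU, ?_⟩
  refine LinearMap.ext fun x => ?_
  obtain ⟨⟨a, b⟩, rfl⟩ := E.surjective x
  simp [glue, E, TK, TR, LinearEquiv.conj_apply, map_add]

variable (F)

theorem card_glue_class {n k : ℕ} (hk : k ≤ n) :
    Nat.card {T : Module.End F (Sp F n) // Module.finrank F (LinearMap.ker (T ^ n)) = k} *
      (glCard F k * glCard F (n - k)) = glCard F n * Nat.card (Nil F k) * glCard F (n - k) := by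
  have hE : Nat.card ((Sp F k × Sp F (n - k)) ≃ₗ[F] Sp F n) = glCard F n := by
    rw [← card_aut]
    let e₀ : (Sp F k × Sp F (n - k)) ≃ₗ[F] Sp F n :=
      LinearEquiv.ofFinrankEq _ _ (by simp; omega)
    exact Nat.card_congr
      { toFun := fun E => e₀.symm.trans E
        invFun := fun E => e₀.trans E
        left_inv := fun E => by ext1 x; simp
        right_inv := fun E => by ext1 x; simp }
  classical
  let X := ((Sp F k × Sp F (n - k)) ≃ₗ[F] Sp F n) × Nil F k × (Sp F (n - k) ≃ₗ[F] Sp F (n - k))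
  let Y := {T : Module.End F (Sp F n) // Module.finrank F (LinearMap.ker (T ^ n)) = k}
  let A := Sp F k ≃ₗ[F] Sp F k
  let B := Sp F (n - k) ≃ₗ[F] Sp F (n - k)
  let π : X → Y := fun x => ⟨glue x.1 x.2.1 x.2.2, ker_glue_pow hk _ _ _⟩
  have hfib : ∀ y : Y, Nat.card {x : X // π x = y} = glCard F k * glCard F (n - k) := by
    intro y
    obtain ⟨E, N, U, hy⟩ := exists_glue y.1 y.2
    rw [← card_aut, ← card_aut, ← Nat.card_prod]
    symm
    refine Nat.card_eq_of_bijective (fun p : A × B => ⟨((p.1.prodCongr p.2).trans E,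
      ⟨p.1.symm.conj N.1, N.2.elim fun j hj => ⟨j, by rw [← conj_pow, hj, map_zero]⟩⟩,
      (p.2.trans U).trans p.2.symm), Subtype.ext ?_⟩) ⟨?_, ?_⟩
    · rw [← hy]
      refine LinearMap.ext fun x => ?_
      simp [π, glue, LinearEquiv.conj_apply]
    · rintro ⟨a, b⟩ ⟨c, d⟩ h
      have h1 : (a.prodCongr b).trans E = (c.prodCongr d).trans E :=
        congrArg (fun z => z.1.1) h
      refine Prod.ext (LinearEquiv.ext fun z => ?_) (LinearEquiv.ext fun z => ?_)
      · simpa using congrArg Prod.fst (E.injective (LinearEquiv.congr_fun h1 (z, 0)))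
      · simpa using congrArg Prod.snd (E.injective (LinearEquiv.congr_fun h1 (0, z)))
    · rintro ⟨⟨E', N', U'⟩, hx⟩
      have hx' : glue E' N' U' = glue E N U := (congrArg Subtype.val hx).trans hy.symm
      have hS : ∀ z, (E'.trans E.symm) (LinearMap.prodMap N'.1 U'.toLinearMap z) =
          LinearMap.prodMap N.1 U.toLinearMap ((E'.trans E.symm) z) := fun z => by
        have := congrArg (fun f => E.symm (f (E' z))) hx'
        simpa [glue, LinearEquiv.conj_apply] using this
      obtain ⟨h1, h2⟩ := intertwine_diagonal _ _ _ _ _ hS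
      obtain ⟨a, b, hab⟩ := exists_prodCongr _ h1 h2
      refine ⟨(a, b), Subtype.ext (Prod.ext ?_ (Prod.ext (Subtype.ext ?_) ?_))⟩
      · show (a.prodCongr b).trans E = E'
        rw [← hab]; ext1 z; simp
      · refine LinearMap.ext fun z => ?_
        have := congrArg Prod.fst (hS (z, 0))
        simp [hab] at this
        simp [LinearEquiv.conj_apply, ← this]
      · refine LinearEquiv.ext fun z => ?_
        have := congrArg Prod.snd (hS (0, z))
        simp [hab] at this
        simp [← this]
  have : Fintype X := Fintype.ofFinite _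
  have : Fintype Y := Fintype.ofFinite _
  calc Nat.card Y * (glCard F k * glCard F (n - k))
      = ∑ _y : Y, glCard F k * glCard F (n - k) := by simp [Nat.card_eq_fintype_card]
    _ = ∑ y : Y, Nat.card {x : X // π x = y} := Finset.sum_congr rfl fun y _ => (hfib y).symm
    _ = Nat.card (Σ y : Y, {x : X // π x = y}) := (Nat.card_sigma).symm
    _ = Nat.card X := Nat.card_congr (Equiv.sigmaFiberEquiv π)
    _ = _ := by rw [Nat.card_prod, Nat.card_prod, hE, card_aut, mul_assoc]

theorem sum_classes (n : ℕ) :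
    ∑ k ∈ Finset.range (n + 1), (Nat.card (Nil F k) : ℚ) / glCard F k =
      (Fintype.card F : ℚ) ^ (n * n) / glCard F n := by
  classical
  have : Fintype (Module.End F (Sp F n)) := Fintype.ofFinite _
  have htot : ∑ k ∈ Finset.range (n + 1),
      Nat.card {T : Module.End F (Sp F n) // Module.finrank F (LinearMap.ker (T ^ n)) = k} =
      Fintype.card F ^ (n * n) := by
    simp only [Nat.card_eq_fintype_card, Fintype.card_subtype]
    rw [← Finset.card_eq_sum_card_fiberwise (fun T _ => Finset.mem_range.2 (Nat.lt_succ_of_le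
      ((Submodule.finrank_le _).trans_eq (Module.finrank_fin_fun F)))), Finset.card_univ,
      Module.card_eq_pow_finrank (K := F), Module.finrank_linearMap, Module.finrank_fin_fun]
  rw [eq_div_iff (by exact_mod_cast (glCard_pos F n).ne'), Finset.sum_mul, ← Nat.cast_pow, ← htot,
    Nat.cast_sum]
  refine Finset.sum_congr rfl fun k hk => ?_
  have h := card_glue_class F (Nat.lt_succ_iff.1 (Finset.mem_range.1 hk))
  have hk0 : (glCard F k : ℚ) ≠ 0 := by exact_mod_cast (glCard_pos F k).ne'
  rw [← mul_assoc] at h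
  have h' := Nat.eq_of_mul_eq_mul_right (glCard_pos F (n - k)) h
  rw [div_mul_eq_mul_div, div_eq_iff hk0, ← Nat.cast_mul, ← Nat.cast_mul]
  congr 1
  linarith

/-- The number of nilpotent endomorphisms. -/
theorem card_nil : ∀ n : ℕ, Nat.card (Nil F n) = Fintype.card F ^ (n * (n - 1))
  | 0 => by
    have : Unique (Nil F 0) :=
      { default := ⟨0, IsNilpotent.zero⟩
        uniq := fun x => Subtype.ext (Subsingleton.elim _ _) }
    simp
  | n + 1 => by
    have h := sum_classes F (n + 1)
    rw [Finset.sum_range_succ, sum_classes F n] at h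
    have hq : 1 ≤ Fintype.card F ^ (n + 1) := Nat.one_le_pow _ _ Fintype.card_pos
    have h1 : (glCard F (n + 1) : ℚ) =
        ((Fintype.card F : ℚ) ^ (n + 1) - 1) * (Fintype.card F : ℚ) ^ n * glCard F n := by
      rw [glCard_succ, Nat.cast_mul, Nat.cast_mul, Nat.cast_sub hq]; push_cast; ring
    have hn0 : (glCard F (n + 1) : ℚ) ≠ 0 := by exact_mod_cast (glCard_pos F (n + 1)).ne'
    have hn1 : (glCard F n : ℚ) ≠ 0 := by exact_mod_cast (glCard_pos F n).ne'
    have h2 : (Nat.card (Nil F (n + 1)) : ℚ) = (Fintype.card F : ℚ) ^ ((n + 1) * n) := by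
      field_simp at h
      rw [h1] at h
      apply mul_left_cancel₀ hn1
      have e1 : (Fintype.card F : ℚ) ^ ((n + 1) * (n + 1)) =
          (Fintype.card F : ℚ) ^ ((n + 1) * n) * (Fintype.card F : ℚ) ^ (n + 1) := by
        rw [← pow_add]; congr 1
      have e2 : (Fintype.card F : ℚ) ^ (n * n) * (Fintype.card F : ℚ) ^ n =
          (Fintype.card F : ℚ) ^ ((n + 1) * n) := by
        rw [← pow_add]; congr 1; ring
      linear_combination h + (glCard F n : ℚ) * e1 -
        (glCard F n : ℚ) * ((Fintype.card F : ℚ) ^ (n + 1) - 1) * e2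
    rw [Nat.add_sub_cancel]
    exact_mod_cast h2

end Cfsg.Agent.H68.NilCount
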