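import Cfsg.Agent.H68.NilCount
import Cfsg.Agent.H66.Jordan
import Cfsg.Agent.H66.ClassCount

/-!
# Unipotent elements of the general linear group: number and classes
-/

set_option autoImplicit false

namespace Cfsg.Agent.H68.UnipotentGL

open Polynomial

variable {F : Type*} [Field F] (p : ℕ) [Fact p.Prime] [CharP F p] {n : Type*} [Fintype n] [DecidableEq n]

theorem pow_char_pow_sub_one (A : Matrix n n F) (k : ℕ) : (A - 1) ^ p ^ k = A ^ p ^ k - 1 := by
  have h : (X - 1 : F[X]) ^ p ^ k = X ^ p ^ k - 1 := by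
    have := sub_pow_char_pow (R := F[X]) (p := p) (n := k) X 1
    rwa [one_pow] at this
  simpa using congrArg (aeval A) h

/-- Elements of `p`-power order are the unipotent matrices. -/
theorem isPPow_iff [Finite F] (g : Matrix.GeneralLinearGroup n F) :
    (∃ k : ℕ, orderOf g = p ^ k) ↔ IsNilpotent ((g : Matrix n n F) - 1) := by
  constructor
  · rintro ⟨k, hk⟩
    refine ⟨p ^ k, ?_⟩
    rw [pow_char_pow_sub_one p, ← Units.val_pow_eq_pow_val, ← hk, pow_orderOf_eq_one, Units.val_one,
      sub_self]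
  · rintro ⟨N, hN⟩
    have hle : N ≤ p ^ N := (Nat.lt_pow_self (Fact.out : p.Prime).one_lt).le
    have h1 : ((g : Matrix n n F) - 1) ^ p ^ N = 0 := pow_eq_zero_of_le hle hN
    rw [pow_char_pow_sub_one p, sub_eq_zero, ← Units.val_pow_eq_pow_val, Units.val_eq_one] at h1
    obtain ⟨k, -, hk⟩ := (Nat.dvd_prime_pow (Fact.out : p.Prime)).1 (orderOf_dvd_of_pow_eq_one h1)
    exact ⟨k, hk⟩

theorem card_unipotent [Fintype F] (m : ℕ) :
    Nat.card {g : Matrix.GeneralLinearGroup (Fin m) F // ∃ k : ℕ, orderOf g = p ^ k} =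
      Fintype.card F ^ (m * (m - 1)) := by
  rw [← NilCount.card_nil F m]
  refine Nat.card_eq_of_bijective (fun g => (⟨Matrix.toLinAlgEquiv' ((g.1 : Matrix (Fin m) (Fin m) F) - 1),
    ((isPPow_iff p g.1).1 g.2).map Matrix.toLinAlgEquiv'⟩ : NilCount.Nil F m)) ⟨?_, ?_⟩
  · intro a b h
    have h1 := Matrix.toLinAlgEquiv'.injective (congrArg Subtype.val h)
    exact Subtype.ext (Units.ext (sub_left_injective h1))
  · rintro ⟨f, hf⟩
    obtain ⟨u, hu⟩ := (hf.map Matrix.toLinAlgEquiv'.symm).isUnit_one_add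
    refine ⟨⟨u, (isPPow_iff p u).2 ?_⟩, Subtype.ext ?_⟩
    · rw [hu, add_sub_cancel_left]; exact hf.map _
    · simp [hu]

/-- The partition given by positive block sizes. -/
def partitionOf {m t : ℕ} (d : Fin t → ℕ) (hd : ∀ i, 1 ≤ d i) (hs : ∑ i, d i = m) : m.Partition where
  parts := Finset.univ.val.map d
  parts_pos := fun {i} hi => by
    obtain ⟨j, -, rfl⟩ := Multiset.mem_map.1 hi
    exact hd j
  parts_sum := hs

theorem typeKer_eq_parts {t : ℕ} (d : Fin t → ℕ) (k : ℕ) :
    H66.typeKer d k = ((Finset.univ.val.map d).map (min k)).sum := by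
  rw [Multiset.map_map]; rfl

theorem parts_eq_of_typeKer {t t' : ℕ} {d : Fin t → ℕ} {e : Fin t' → ℕ} (hd : ∀ i, 1 ≤ d i)
    (he : ∀ i, 1 ≤ e i) (h : ∀ k, H66.typeKer d k = H66.typeKer e k) :
    Finset.univ.val.map d = Finset.univ.val.map e := by
  refine Multiset.ext.2 fun s => ?_
  rw [Multiset.count_map, Multiset.count_map]
  have h1 := H66.card_filter_eq_of_typeKer hd he h s
  simp only [Finset.card_def, Finset.filter_val] at h1
  simp only [eq_comm (a := s)]
  exact h1

/-- The Jordan type of a unipotent matrix. -/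
noncomputable def typeOf {m : ℕ} (g : Matrix.GeneralLinearGroup (Fin m) F) : m.Partition :=
  open scoped Classical in
  if h : IsNilpotent ((g : Matrix (Fin m) (Fin m) F) - 1) then
    partitionOf _ (H66.exists_type _ h).choose_spec.choose_spec.1
      ((H66.exists_type _ h).choose_spec.choose_spec.2.1.trans (Fintype.card_fin m))
  else Nat.Partition.indiscrete m

theorem kerDim_eq_typeOf {m : ℕ} {g : Matrix.GeneralLinearGroup (Fin m) F}
    (hg : IsNilpotent ((g : Matrix (Fin m) (Fin m) F) - 1)) (k : ℕ) :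
    H66.kerDim (g : Matrix (Fin m) (Fin m) F) k = ((typeOf g).parts.map (min k)).sum := by
  rw [typeOf, dif_pos hg, partitionOf, ← typeKer_eq_parts]
  exact (H66.exists_type _ hg).choose_spec.choose_spec.2.2 k

theorem typeOf_eq {m t : ℕ} {g : Matrix.GeneralLinearGroup (Fin m) F}
    (hg : IsNilpotent ((g : Matrix (Fin m) (Fin m) F) - 1)) {d : Fin t → ℕ} (hd : ∀ i, 1 ≤ d i)
    (h : ∀ k, H66.kerDim (g : Matrix (Fin m) (Fin m) F) k = H66.typeKer d k) :
    (typeOf g).parts = Finset.univ.val.map d := by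
  rw [typeOf, dif_pos hg]
  exact parts_eq_of_typeKer (H66.exists_type _ hg).choose_spec.choose_spec.1 hd fun k =>
    ((H66.exists_type _ hg).choose_spec.choose_spec.2.2 k).symm.trans (h k)

theorem card_unipotent_classes [Fintype F] (m : ℕ) :
    Nat.card {C : ConjClasses (Matrix.GeneralLinearGroup (Fin m) F) //
      ∃ g : Matrix.GeneralLinearGroup (Fin m) F, (∃ k : ℕ, orderOf g = p ^ k) ∧
        ConjClasses.mk g = C} = Fintype.card (Nat.Partition m) := by
  simp only [isPPow_iff, and_comm (a := IsNilpotent _)]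
  have hconj : ∀ g h : Matrix.GeneralLinearGroup (Fin m) F, IsConj g h →
      IsConj (g : Matrix (Fin m) (Fin m) F) h := fun g h hgh =>
    H66.gl_isConj_iff.1 hgh
  have hS : ∀ g h : Matrix.GeneralLinearGroup (Fin m) F, IsConj g h →
      IsNilpotent ((g : Matrix (Fin m) (Fin m) F) - 1) →
      IsNilpotent ((h : Matrix (Fin m) (Fin m) F) - 1) := fun g h hgh hg => by
    obtain ⟨k, hk⟩ := (isPPow_iff p g).2 hg
    obtain ⟨c, hc⟩ := isConj_iff.1 hgh
    exact (isPPow_iff p h).1 ⟨k, by rw [← hc, ← MulAut.conj_apply, (MulAut.conj c).orderOf_eq, hk]⟩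
  rw [H66.card_classes_eq
    (fun g : Matrix.GeneralLinearGroup (Fin m) F => IsNilpotent ((g : Matrix (Fin m) (Fin m) F) - 1))
    (fun _ => True) typeOf hS ?_ ?_ (fun _ _ => trivial) ?_, ← Nat.card_eq_fintype_card]
  · exact Nat.card_congr (Equiv.subtypeUnivEquiv fun _ => trivial)
  · intro g h hgh
    by_cases hg : IsNilpotent ((g : Matrix (Fin m) (Fin m) F) - 1)
    · have hh := hS g h hgh hg
      obtain ⟨t, d, hd, -, hk⟩ := H66.exists_type _ hg
      refine Nat.Partition.ext ?_
      rw [typeOf_eq hg hd hk, typeOf_eq hh hd fun k =>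
        (H66.kerDim_eq_of_isConj (hconj g h hgh) k).symm.trans (hk k)]
    · have hh : ¬ IsNilpotent ((h : Matrix (Fin m) (Fin m) F) - 1) :=
        fun hh => hg (hS h g hgh.symm hh)
      rw [typeOf, dif_neg hg, typeOf, dif_neg hh]
  · intro g h hg hh he
    refine H66.gl_isConj_iff.2 (H66.isConj_of_kerDim_eq hg hh fun k => ?_)
    rw [kerDim_eq_typeOf hg, kerDim_eq_typeOf hh, he]
  · rintro a -
    let l := a.parts.toList
    let d : Fin l.length → ℕ := fun i => l.get i
    have hd : ∀ i, 1 ≤ d i := fun i => a.parts_pos (Multiset.mem_toList.1 (List.get_mem l i))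
    have hmap : Finset.univ.val.map d = a.parts := by
      rw [Fin.univ_val_map, List.ofFn_get, Multiset.coe_toList]
    have hsum : ∑ i, d i = m := by
      rw [Finset.sum, hmap]; exact a.parts_sum
    let e : ((i : Fin l.length) × Fin (d i)) ≃ Fin m := finSigmaFinEquiv.trans (finCongr hsum)
    have hnil : IsNilpotent (Matrix.reindex e e (Cfsg.jordanTypeMatrix d F) - 1) := by
      have h := (H66.isNilpotent_jordanTypeMatrix_sub_one (K := F) d).map (Matrix.reindexAlgEquiv F F e)
      rwa [map_sub, map_one] at h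
    obtain ⟨u, hu⟩ := hnil.isUnit_one_add
    rw [add_sub_cancel] at hu
    refine ⟨u, hu ▸ hnil, Nat.Partition.ext ?_⟩
    rw [typeOf_eq (hu ▸ hnil) hd fun k => by rw [hu, H66.kerDim_reindex, H66.kerDim_jordanTypeMatrix],
      hmap]

end Cfsg.Agent.H68.UnipotentGL
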